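import Mathlib
import Cfsg.Agent.Lib.Helper65.MonoDefs

/-!
# S5634, piece GBAL (helper34): a subgroup of `GL` containing all monomial matrices, all of
whose elements are balanced, consists of monomial matrices.
-/

set_option autoImplicit false
set_option linter.unusedSectionVars false

namespace Cfsg.Agent.Lib.Helper65.Mono

open Matrix

variable {F : Type*} [Field F] {κ : Type} [Fintype κ] [DecidableEq κ]

/-- a quadratic with three distinct roots has zero constant term -/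
theorem g_bal_quad {A B C d d' d'' : F} (h1 : A * d ^ 2 + B * d + C = 0)
    (h2 : A * d' ^ 2 + B * d' + C = 0) (h3 : A * d'' ^ 2 + B * d'' + C = 0)
    (h12 : d ≠ d') (h13 : d ≠ d'') (h23 : d' ≠ d'') : C = 0 := by
  have h : C * ((d - d') * (d - d'') * (d' - d'')) = 0 := by
    linear_combination (d' * d'' * (d' - d'')) * h1 - (d * d'' * (d - d'')) * h2 +
      (d * d' * (d - d')) * h3
  rcases mul_eq_zero.1 h with h | h
  · exact h
  · exfalso
    exact mul_ne_zero (mul_ne_zero (sub_ne_zero.2 h12) (sub_ne_zero.2 h13))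
      (sub_ne_zero.2 h23) h

/-- the field computation behind step (1) -/
theorem g_bal_field [Fintype F] (hq : 5 ≤ Fintype.card F) {p1 p2 p3 s : F} (hp1 : p1 ≠ 0)
    (hp2 : p2 ≠ 0) (hp3 : p3 ≠ 0)
    (H : ∀ u1 u2 u3 : F, u1 ≠ 0 → u2 ≠ 0 → u3 ≠ 0 → p1 * u1 + p2 * u2 + p3 * u3 + s = 0 →
      p1 * u1⁻¹ + p2 * u2⁻¹ + p3 * u3⁻¹ + s = 0) : False := by
  classical
  obtain ⟨e, -, he⟩ := Finset.exists_mem_notMem_of_card_lt_card
    (s := ({0, -s / p3} : Finset F)) (t := Finset.univ) (by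
      have : ({0, -s / p3} : Finset F).card ≤ 2 := Finset.card_le_two
      rw [Finset.card_univ]
      omega)
  have he0 : e ≠ 0 := fun h => he (by rw [h]; simp)
  have hc : p3 * e + s ≠ 0 := by
    intro h
    apply he
    have h' : e = -s / p3 := by
      field_simp
      linear_combination h
    rw [h']
    simp
  have hT : 2 < ((Finset.univ.erase (0 : F)).erase (-(p3 * e + s) / p1)).card := by
    have h1 : (Finset.univ.erase (0 : F)).card = Fintype.card F - 1 := by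
      rw [Finset.card_erase_of_mem (Finset.mem_univ _), Finset.card_univ]
    have h2 := Finset.pred_card_le_card_erase (s := Finset.univ.erase (0 : F))
      (a := -(p3 * e + s) / p1)
    omega
  obtain ⟨d, d', d'', hd, hd', hd'', h12, h13, h23⟩ := Finset.two_lt_card_iff.1 hT
  have key : ∀ d1 ∈ (Finset.univ.erase (0 : F)).erase (-(p3 * e + s) / p1),
      ((p3 * e⁻¹ + s) * p1) * d1 ^ 2 + (p1 ^ 2 - p2 ^ 2 + (p3 * e + s) * (p3 * e⁻¹ + s)) * d1 +
        p1 * (p3 * e + s) = 0 := by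
    intro d1 hd1
    have hd10 : d1 ≠ 0 := (Finset.mem_erase.1 (Finset.mem_erase.1 hd1).2).1
    have hd1c : d1 ≠ -(p3 * e + s) / p1 := (Finset.mem_erase.1 hd1).1
    have hne : (p3 * e + s) + p1 * d1 ≠ 0 := by
      intro h
      apply hd1c
      field_simp
      linear_combination h
    obtain ⟨d2, hd2⟩ : ∃ d2 : F, d2 = -((p3 * e + s) + p1 * d1) / p2 := ⟨_, rfl⟩
    have hd20 : d2 ≠ 0 := by
      rw [hd2]
      exact div_ne_zero (neg_ne_zero.2 hne) hp2
    have h4 : p2 * d2 = -((p3 * e + s) + p1 * d1) := by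
      rw [hd2]
      field_simp
    have h1 : p1 * d1 + p2 * d2 + p3 * e + s = 0 := by linear_combination h4
    have h2 := H d1 d2 e hd10 hd20 he0 h1
    have h3 : p1 * d2 + p2 * d1 + (p3 * e⁻¹ + s) * (d1 * d2) = 0 := by
      have e1 : p1 * d2 = p1 * d1⁻¹ * (d1 * d2) := by field_simp
      have e2 : p2 * d1 = p2 * d2⁻¹ * (d1 * d2) := by field_simp
      rw [e1, e2, ← add_mul, ← add_mul]
      have h5 : p1 * d1⁻¹ + p2 * d2⁻¹ + (p3 * e⁻¹ + s) = 0 := by linear_combination h2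
      rw [h5, zero_mul]
    linear_combination (-p2) * h3 + (p1 + (p3 * e⁻¹ + s) * d1) * h4
  exact (mul_ne_zero hp1 hc) (g_bal_quad (key d hd) (key d' hd') (key d'' hd'') h12 h13 h23)

theorem g_bal_sum3 (f : κ → F) {k1 k2 k3 : κ} (h12 : k1 ≠ k2) (h13 : k1 ≠ k3) (h23 : k2 ≠ k3) :
    ∑ k, f k = f k1 + f k2 + f k3 +
      ∑ k ∈ ((Finset.univ.erase k1).erase k2).erase k3, f k := by
  rw [← Finset.add_sum_erase Finset.univ f (Finset.mem_univ k1),
    ← Finset.add_sum_erase (Finset.univ.erase k1) f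
      (Finset.mem_erase.2 ⟨h12.symm, Finset.mem_univ k2⟩),
    ← Finset.add_sum_erase ((Finset.univ.erase k1).erase k2) f
      (Finset.mem_erase.2 ⟨h23.symm, Finset.mem_erase.2 ⟨h13.symm, Finset.mem_univ k3⟩⟩)]
  ring

/-- units `u1, u2, u3` at `k1, k2, k3`, and `1` elsewhere -/
def g_bal_d (k1 k2 k3 : κ) (u1 u2 u3 : Fˣ) : κ → Fˣ :=
  fun k => if k = k1 then u1 else if k = k2 then u2 else if k = k3 then u3 else 1

theorem g_bal_sum_d (p : κ → F) {k1 k2 k3 : κ} (h12 : k1 ≠ k2) (h13 : k1 ≠ k3) (h23 : k2 ≠ k3)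
    (u1 u2 u3 : Fˣ) :
    ∑ k, p k * ((g_bal_d k1 k2 k3 u1 u2 u3 k : Fˣ) : F) =
      p k1 * (u1 : F) + p k2 * (u2 : F) + p k3 * (u3 : F) +
        ∑ k ∈ ((Finset.univ.erase k1).erase k2).erase k3, p k := by
  rw [g_bal_sum3 _ h12 h13 h23]
  have e1 : g_bal_d k1 k2 k3 u1 u2 u3 k1 = u1 := by simp [g_bal_d]
  have e2 : g_bal_d k1 k2 k3 u1 u2 u3 k2 = u2 := by simp [g_bal_d, h12.symm]
  have e3 : g_bal_d k1 k2 k3 u1 u2 u3 k3 = u3 := by simp [g_bal_d, h13.symm, h23.symm]
  rw [e1, e2, e3]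
  congr 1
  refine Finset.sum_congr rfl fun k hk => ?_
  have hk3 : k ≠ k3 := (Finset.mem_erase.1 hk).1
  have hk2 : k ≠ k2 := (Finset.mem_erase.1 (Finset.mem_erase.1 hk).2).1
  have hk1 : k ≠ k1 := (Finset.mem_erase.1 (Finset.mem_erase.1 (Finset.mem_erase.1 hk).2).2).1
  simp [g_bal_d, hk1, hk2, hk3]

theorem g_bal_d_inv (k1 k2 k3 : κ) (u1 u2 u3 : Fˣ) (k : κ) :
    (g_bal_d k1 k2 k3 u1 u2 u3 k)⁻¹ = g_bal_d k1 k2 k3 u1⁻¹ u2⁻¹ u3⁻¹ k := by
  unfold g_bal_d
  split_ifs <;> simp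

/-- step (1): every row of every element has at most two nonzero entries -/
theorem g_bal_row [Fintype F] (hq : 5 ≤ Fintype.card F) {Y : Subgroup (GL κ F)} (hY : GMonIn Y)
    (hbal : ∀ x ∈ Y, ∀ j k : κ, (x : Matrix κ κ F) j k ≠ 0 ↔
      ((x⁻¹ : GL κ F) : Matrix κ κ F) k j ≠ 0)
    (x : GL κ F) (hx : x ∈ Y) (i k1 k2 k3 : κ) (h12 : k1 ≠ k2) (h13 : k1 ≠ k3) (h23 : k2 ≠ k3)
    (hx1 : (x : Matrix κ κ F) i k1 ≠ 0) (hx2 : (x : Matrix κ κ F) i k2 ≠ 0)
    (hx3 : (x : Matrix κ κ F) i k3 ≠ 0) : False := by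
  classical
  obtain ⟨p, hp⟩ : ∃ p : κ → F, p = fun k =>
      (x : Matrix κ κ F) i k * ((x⁻¹ : GL κ F) : Matrix κ κ F) k i := ⟨_, rfl⟩
  have hp1 : p k1 ≠ 0 := by rw [hp]; exact mul_ne_zero hx1 ((hbal x hx i k1).1 hx1)
  have hp2 : p k2 ≠ 0 := by rw [hp]; exact mul_ne_zero hx2 ((hbal x hx i k2).1 hx2)
  have hp3 : p k3 ≠ 0 := by rw [hp]; exact mul_ne_zero hx3 ((hbal x hx i k3).1 hx3)
  have K : ∀ d : κ → Fˣ, ∑ k, p k * (d k : F) = 0 →
      ∑ k, p k * (((d k)⁻¹ : Fˣ) : F) = 0 := by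
    intro d h0
    have hy : x * diagU d * x⁻¹ ∈ Y :=
      Y.mul_mem (Y.mul_mem hx (hY _ (isMono_diagU d))) (Y.inv_mem hx)
    have h1 := conj_diagU_apply x d i i
    have hinv : (x * diagU d * x⁻¹)⁻¹ = x * diagU (fun k => (d k)⁻¹) * x⁻¹ := by
      have h5 : (diagU d)⁻¹ = diagU (fun k => (d k)⁻¹) := by
        apply Units.ext
        rfl
      rw [_root_.mul_inv_rev, _root_.mul_inv_rev, inv_inv, h5, mul_assoc]
    have h2 := conj_diagU_apply x (fun k => (d k)⁻¹) i i
    have h3 := hbal _ hy i i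
    rw [hinv, h1, h2] at h3
    have e1 : ∑ k, (x : Matrix κ κ F) i k * (d k : F) * ((x⁻¹ : GL κ F) : Matrix κ κ F) k i =
        ∑ k, p k * (d k : F) := by
      rw [hp]
      exact Finset.sum_congr rfl fun k _ => by ring
    have e2 : ∑ k, (x : Matrix κ κ F) i k * (((d k)⁻¹ : Fˣ) : F) *
        ((x⁻¹ : GL κ F) : Matrix κ κ F) k i = ∑ k, p k * (((d k)⁻¹ : Fˣ) : F) := by
      rw [hp]
      exact Finset.sum_congr rfl fun k _ => by ring
    rw [e1, e2] at h3
    by_contra hne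
    exact (h3.2 hne) h0
  refine g_bal_field hq hp1 hp2 hp3
    (s := ∑ k ∈ ((Finset.univ.erase k1).erase k2).erase k3, p k) ?_
  intro u1 u2 u3 hu1 hu2 hu3 h0
  have h1 := K (g_bal_d k1 k2 k3 (Units.mk0 u1 hu1) (Units.mk0 u2 hu2) (Units.mk0 u3 hu3)) (by
    rw [g_bal_sum_d p h12 h13 h23]
    simpa using h0)
  simp only [g_bal_d_inv] at h1
  rw [g_bal_sum_d p h12 h13 h23] at h1
  simpa using h1

/-- the monomial matrix with entry `d l` at `(π l, l)` -/
def g_bal_mono (π : Equiv.Perm κ) (d : κ → Fˣ) : GL κ F :=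
  ⟨Matrix.of fun r l => if r = π l then (d l : F) else 0,
    Matrix.of fun r l => if l = π r then (((d r)⁻¹ : Fˣ) : F) else 0,
    by
      ext r l
      rw [Matrix.mul_apply, Matrix.one_apply]
      simp only [Matrix.of_apply]
      rw [Finset.sum_eq_single (π.symm r)]
      · by_cases hrl : r = l
        · subst hrl
          simp
        · have : ¬ l = r := fun h => hrl h.symm
          simp [hrl, this]
      · intro k _ hk
        have : ¬ r = π k := fun h => hk (by rw [h]; simp)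
        simp [this]
      · intro h
        exact absurd (Finset.mem_univ _) h,
    by
      ext r l
      rw [Matrix.mul_apply, Matrix.one_apply]
      simp only [Matrix.of_apply]
      rw [Finset.sum_eq_single (π r)]
      · by_cases hrl : r = l
        · subst hrl
          simp
        · have : ¬ π r = π l := fun h => hrl (π.injective h)
          simp [hrl, this]
      · intro k _ hk
        simp [hk]
      · intro h
        exact absurd (Finset.mem_univ _) h⟩

theorem g_bal_mono_val (π : Equiv.Perm κ) (d : κ → Fˣ) (r l : κ) :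
    (g_bal_mono π d : Matrix κ κ F) r l = if r = π l then (d l : F) else 0 := rfl

theorem g_bal_mono_isMono (π : Equiv.Perm κ) (d : κ → Fˣ) :
    IsMono (g_bal_mono π d : Matrix κ κ F) := by
  intro l
  refine ⟨π l, fun r hr => ?_⟩
  by_contra hne
  apply hr
  rw [g_bal_mono_val, if_neg hne]

theorem g_bal_mono_mul (π : Equiv.Perm κ) (d : κ → Fˣ) (x : Matrix κ κ F) (r c : κ) :
    ((g_bal_mono π d : Matrix κ κ F) * x) r c = (d (π.symm r) : F) * x (π.symm r) c := by
  rw [Matrix.mul_apply, Finset.sum_eq_single (π.symm r)]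
  · rw [g_bal_mono_val, if_pos (by simp)]
  · intro k _ hk
    have : ¬ r = π k := fun h => hk (by rw [h]; simp)
    rw [g_bal_mono_val, if_neg this, zero_mul]
  · intro h
    exact absurd (Finset.mem_univ _) h

theorem g_bal_perm (i i' a b : κ) (hi : i ≠ i') (hab : a ≠ b) :
    ∃ π : Equiv.Perm κ, π i = a ∧ π i' = b := by
  have h1 : a ≠ Equiv.swap i a i' := by
    intro h
    have h2 : Equiv.swap i a a = Equiv.swap i a (Equiv.swap i a i') := congrArg _ h
    rw [Equiv.swap_apply_self, Equiv.swap_apply_right] at h2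
    exact hi h2
  refine ⟨Equiv.swap (Equiv.swap i a i') b * Equiv.swap i a, ?_, ?_⟩
  · rw [Equiv.Perm.mul_apply, Equiv.swap_apply_left, Equiv.swap_apply_of_ne_of_ne h1 hab]
  · rw [Equiv.Perm.mul_apply, Equiv.swap_apply_left]

/-- GBAL -/
theorem g_bal [Fintype F] (hq : 5 ≤ Fintype.card F) (h3 : 3 ≤ Fintype.card κ)
    {Y : Subgroup (GL κ F)} (hY : GMonIn Y)
    (hbal : ∀ x ∈ Y, ∀ j k : κ, (x : Matrix κ κ F) j k ≠ 0 ↔
      ((x⁻¹ : GL κ F) : Matrix κ κ F) k j ≠ 0) :
    ∀ g ∈ Y, IsMono (g : Matrix κ κ F) := by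
  classical
  intro x hx
  by_contra hnm
  have hnm' : ¬ IsMono ((x⁻¹ : GL κ F) : Matrix κ κ F) := fun h => hnm ((isMono_inv_iff x).1 h)
  unfold IsMono at hnm'
  push Not at hnm'
  obtain ⟨i, hi⟩ := hnm'
  obtain ⟨a, ha, -⟩ := hi i
  obtain ⟨b, hb, hba⟩ := hi a
  have hxa : (x : Matrix κ κ F) i a ≠ 0 := (hbal x hx i a).2 ha
  have hxb : (x : Matrix κ κ F) i b ≠ 0 := (hbal x hx i b).2 hb
  have hrow : ∀ c, c ≠ a → c ≠ b → (x : Matrix κ κ F) i c = 0 := by
    intro c hca hcb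
    by_contra hne
    exact g_bal_row hq hY hbal x hx i a b c (Ne.symm hba) (Ne.symm hca) (Ne.symm hcb) hxa hxb hne
  obtain ⟨c0, -, hc0⟩ := Finset.exists_mem_notMem_of_card_lt_card
    (s := ({a, b} : Finset κ)) (t := Finset.univ) (by
      have : ({a, b} : Finset κ).card ≤ 2 := Finset.card_le_two
      rw [Finset.card_univ]
      omega)
  have hc0a : c0 ≠ a := fun h => hc0 (by rw [h]; simp)
  have hc0b : c0 ≠ b := fun h => hc0 (by rw [h]; simp)
  obtain ⟨i', hi'⟩ : ∃ i', (x : Matrix κ κ F) i' c0 ≠ 0 := by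
    by_contra hcon
    push Not at hcon
    have h5 := gl_inv_mul_apply x c0 c0
    rw [if_pos rfl, Finset.sum_eq_zero (fun k _ => by rw [hcon k, mul_zero])] at h5
    exact zero_ne_one h5
  have hi'i : i ≠ i' := fun h => hi' (by rw [← h]; exact hrow c0 hc0a hc0b)
  obtain ⟨π, hπi, hπi'⟩ := g_bal_perm i i' a b hi'i (Ne.symm hba)
  have hπa : π.symm a = i := by rw [← hπi]; simp
  have hπb : π.symm b = i' := by rw [← hπi']; simp
  -- choice of α
  obtain ⟨α, -, hα⟩ := Finset.exists_mem_notMem_of_card_lt_card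
    (s := ({0, -((x : Matrix κ κ F) i b * (x : Matrix κ κ F) i' a) /
        ((x : Matrix κ κ F) i a * (x : Matrix κ κ F) i a),
      -((x : Matrix κ κ F) i' b) / (x : Matrix κ κ F) i a} : Finset F)) (t := Finset.univ) (by
      have : ({0, -((x : Matrix κ κ F) i b * (x : Matrix κ κ F) i' a) /
        ((x : Matrix κ κ F) i a * (x : Matrix κ κ F) i a),
        -((x : Matrix κ κ F) i' b) / (x : Matrix κ κ F) i a} : Finset F).card ≤ 3 :=
        Finset.card_le_three
      rw [Finset.card_univ]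
      omega)
  have hα0 : α ≠ 0 := fun h => hα (by rw [h]; simp)
  have hα1 : α ≠ -((x : Matrix κ κ F) i b * (x : Matrix κ κ F) i' a) /
      ((x : Matrix κ κ F) i a * (x : Matrix κ κ F) i a) := fun h => hα (by rw [h]; simp)
  have hα2 : α ≠ -((x : Matrix κ κ F) i' b) / (x : Matrix κ κ F) i a :=
    fun h => hα (by rw [h]; simp)
  obtain ⟨d, hd⟩ : ∃ d : κ → Fˣ, d = fun l => if l = i then Units.mk0 α hα0 else 1 := ⟨_, rfl⟩
  have hdi : (d i : F) = α := by rw [hd]; simp
  have hdi' : (d i' : F) = 1 := by rw [hd]; simp [Ne.symm hi'i]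
  have hz : x * g_bal_mono π d * x ∈ Y :=
    Y.mul_mem (Y.mul_mem hx (hY _ (g_bal_mono_isMono π d))) hx
  have hzv : ∀ c, ((x * g_bal_mono π d * x : GL κ F) : Matrix κ κ F) i c =
      (x : Matrix κ κ F) i a * (α * (x : Matrix κ κ F) i c) +
        (x : Matrix κ κ F) i b * (x : Matrix κ κ F) i' c := by
    intro c
    rw [Units.val_mul, Units.val_mul, Matrix.mul_assoc, Matrix.mul_apply,
      Finset.sum_eq_add a b (Ne.symm hba)]
    · rw [g_bal_mono_mul, g_bal_mono_mul, hπa, hπb, hdi, hdi', one_mul]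
    · intro k _ hk
      rw [hrow k hk.1 hk.2, zero_mul]
    · intro h
      exact absurd (Finset.mem_univ _) h
    · intro h
      exact absurd (Finset.mem_univ _) h
  have hza : ((x * g_bal_mono π d * x : GL κ F) : Matrix κ κ F) i a ≠ 0 := by
    rw [hzv]
    intro h
    apply hα1
    field_simp
    linear_combination h
  have hzb : ((x * g_bal_mono π d * x : GL κ F) : Matrix κ κ F) i b ≠ 0 := by
    rw [hzv]
    intro h
    apply hα2
    have h6 : (x : Matrix κ κ F) i b * ((x : Matrix κ κ F) i a * α + (x : Matrix κ κ F) i' b) = 0 := by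
      linear_combination h
    have h7 := (mul_eq_zero.1 h6).resolve_left hxb
    field_simp
    linear_combination h7
  have hzc : ((x * g_bal_mono π d * x : GL κ F) : Matrix κ κ F) i c0 ≠ 0 := by
    rw [hzv, hrow c0 hc0a hc0b, mul_zero, mul_zero, zero_add]
    exact mul_ne_zero hxb hi'
  exact g_bal_row hq hY hbal _ hz i a b c0 (Ne.symm hba) (Ne.symm hc0a) (Ne.symm hc0b)
    hza hzb hzc

end Cfsg.Agent.Lib.Helper65.Mono
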