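import Mathlib
import Cfsg.Prelude.Def_GeometricClasses
import Cfsg.Agent.Lib.Helper71.Asch0
import Cfsg.Agent.Lib.Helper86.ASB8Defs

/-!
# S5630, piece B8.MU: a full system of matrix units with scalar commutant is conjugate to the
standard one (job of helper86, proof by helper34)
-/

set_option autoImplicit false

namespace Cfsg.Agent.Lib.Helper34.ASB8MU

open Matrix Cfsg.Geo Cfsg.Agent.Lib.Helper71.Asch Cfsg.Agent.Lib.Helper86.ASB8

variable {F : Type*} [Field F]

/-- B8.MU: a full system of matrix units whose commutant consists of scalars is conjugate to the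
standard one. -/
theorem mu_conj {n : ℕ} (hn : 1 ≤ n) {X : Type} [Fintype X] [DecidableEq X]
    (E : X → X → Matrix (Fin n) (Fin n) F) (hE : IsMU E)
    (hcomm : ∀ M : Matrix (Fin n) (Fin n) F, (∀ x y, M * E x y = E x y * M) →
      ∃ c : F, M = c • (1 : Matrix (Fin n) (Fin n) F)) :
    ∃ (P : Matrix (Fin n) X F) (Q : Matrix X (Fin n) F), P * Q = 1 ∧ Q * P = 1 ∧
      ∀ x y, E x y = P * Matrix.single x y (1 : F) * Q := by
  classical
  have : NeZero n := ⟨by omega⟩
  have h10 : (1 : Matrix (Fin n) (Fin n) F) ≠ 0 := one_ne_zero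
  -- X nonempty
  have hX : Nonempty X := by
    by_contra hX
    rw [not_nonempty_iff] at hX
    have h1 := hE.one
    rw [Finset.univ_eq_empty, Finset.sum_empty] at h1
    exact h10 h1.symm
  obtain ⟨x₀⟩ := hX
  set e₀ := E x₀ x₀ with he₀
  have he₀e₀ : e₀ * e₀ = e₀ := by rw [he₀, hE.mul, if_pos rfl]
  have he₀0 : e₀ ≠ 0 := by
    intro h0
    apply h10
    rw [← hE.one]
    apply Finset.sum_eq_zero
    intro x _
    have h1 : E x x = E x x₀ * e₀ * E x₀ x := by
      rw [he₀, hE.mul, if_pos rfl, hE.mul, if_pos rfl]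
    rw [h1, h0, mul_zero, zero_mul]
  -- (a)
  have ha : ∀ M : Matrix (Fin n) (Fin n) F, ∃ c : F, e₀ * M * e₀ = c • e₀ := by
    intro M
    set S := ∑ x, E x x₀ * M * E x₀ x with hS
    have h1 : ∀ y z, S * E y z = E y x₀ * M * E x₀ z := by
      intro y z
      rw [hS, Finset.sum_mul, Finset.sum_eq_single y]
      · rw [mul_assoc, hE.mul, if_pos rfl]
      · intro b _ hb
        rw [mul_assoc, hE.mul, if_neg hb, mul_zero]
      · intro h; exact absurd (Finset.mem_univ _) h
    have h2 : ∀ y z, E y z * S = E y x₀ * M * E x₀ z := by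
      intro y z
      rw [hS, Finset.mul_sum, Finset.sum_eq_single z]
      · rw [← mul_assoc, ← mul_assoc, hE.mul, if_pos rfl]
      · intro b _ hb
        rw [← mul_assoc, ← mul_assoc, hE.mul, if_neg (Ne.symm hb), zero_mul, zero_mul]
      · intro h; exact absurd (Finset.mem_univ _) h
    obtain ⟨c, hc⟩ := hcomm S (fun x y => by rw [h1, h2])
    refine ⟨c, ?_⟩
    have h3 : e₀ * S * e₀ = e₀ * M * e₀ := by
      rw [he₀, mul_assoc, h1, ← mul_assoc, ← mul_assoc, hE.mul, if_pos rfl]
    rw [← h3, hc, Matrix.mul_smul, Matrix.smul_mul, mul_one, he₀e₀]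
  -- the vector v
  obtain ⟨w, hw⟩ : ∃ w : Fin n → F, e₀ *ᵥ w ≠ 0 := by
    by_contra hcon
    push Not at hcon
    apply he₀0
    ext i j
    have h1 := congrFun (hcon (Pi.single j 1)) i
    simpa using h1
  set v := e₀ *ᵥ w with hv
  have hev : e₀ *ᵥ v = v := by rw [hv, Matrix.mulVec_mulVec, he₀e₀]
  obtain ⟨r₀, hr₀⟩ : ∃ r, v r ≠ 0 := by
    by_contra hcon
    push Not at hcon
    exact hw (funext hcon)
  -- (b)
  have hb : ∀ u : Fin n → F, e₀ *ᵥ u = u → ∃ c : F, u = c • v := by
    intro u hu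
    obtain ⟨c, hc⟩ := ha (Matrix.vecMulVec u (Pi.single r₀ (v r₀)⁻¹))
    refine ⟨c, ?_⟩
    have h1 : (Matrix.vecMulVec u (Pi.single r₀ (v r₀)⁻¹)) *ᵥ v = u := by
      ext i
      simp [Matrix.vecMulVec, Matrix.mulVec, dotProduct, Pi.single_apply, hr₀, mul_assoc]
    have h2 : (e₀ * Matrix.vecMulVec u (Pi.single r₀ (v r₀)⁻¹) * e₀) *ᵥ v = (c • e₀) *ᵥ v := by
      rw [hc]
    rw [← Matrix.mulVec_mulVec, ← Matrix.mulVec_mulVec, hev, h1, hu, Matrix.smul_mulVec, hev]
      at h2
    exact h2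
  -- (c)
  have hcol : ∀ x r, ∃ c : F, ∀ i, E x₀ x i r = c * v i := by
    intro x r
    obtain ⟨c, hc⟩ := hb (fun i => E x₀ x i r) (by
      ext i
      have h1 : e₀ * E x₀ x = E x₀ x := by rw [he₀, hE.mul, if_pos rfl]
      have h2 := congrFun (congrFun h1 i) r
      rw [Matrix.mul_apply] at h2
      simpa [Matrix.mulVec, dotProduct] using h2)
    exact ⟨c, fun i => by simpa using congrFun hc i⟩
  choose Q hQ using hcol
  have hent : ∀ x y i j, E x y i j = (E x x₀ *ᵥ v) i * Q y j := by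
    intro x y i j
    have h1 : E x y = E x x₀ * E x₀ y := by rw [hE.mul, if_pos rfl]
    rw [h1, Matrix.mul_apply, Matrix.mulVec, dotProduct, Finset.sum_mul]
    apply Finset.sum_congr rfl
    intro l _
    rw [hQ]; ring
  refine ⟨Matrix.of fun r x => (E x x₀ *ᵥ v) r, Matrix.of Q, ?_, ?_, ?_⟩
  · ext i j
    rw [Matrix.mul_apply]
    have h1 := congrFun (congrFun hE.one i) j
    rw [Matrix.sum_apply] at h1
    rw [← h1]
    apply Finset.sum_congr rfl
    intro x _
    rw [hent]; rfl
  · ext x y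
    rw [Matrix.mul_apply]
    have h1 : E x₀ x *ᵥ (E y x₀ *ᵥ v) = if x = y then v else 0 := by
      rw [Matrix.mulVec_mulVec, hE.mul]
      split_ifs with h
      · exact hev
      · exact Matrix.zero_mulVec v
    have h2 := congrFun h1 r₀
    rw [Matrix.mulVec, dotProduct] at h2
    have h3 : ∑ r, E x₀ x r₀ r * (E y x₀ *ᵥ v) r = v r₀ * ∑ r, Q x r * (E y x₀ *ᵥ v) r := by
      rw [Finset.mul_sum]
      apply Finset.sum_congr rfl
      intro r _
      rw [hQ]; ring
    rw [h3] at h2
    simp only [Matrix.of_apply]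
    rw [Matrix.one_apply]
    split_ifs with h
    · rw [if_pos h] at h2
      exact mul_left_cancel₀ hr₀ (by rw [h2, mul_one])
    · rw [if_neg h] at h2
      simpa [hr₀] using h2
  · intro x y
    ext i j
    rw [hent, Matrix.mul_apply, Finset.sum_eq_single y]
    · rw [Matrix.mul_apply, Finset.sum_eq_single x]
      · simp
      · intro b _ hb
        simp [Ne.symm hb]
      · intro h; exact absurd (Finset.mem_univ _) h
    · intro b _ hb
      rw [Matrix.mul_apply]
      have h1 : ∀ a : X, Matrix.single x y (1 : F) a b = 0 := by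
        intro a
        simp [Ne.symm hb]
      simp [h1]
    · intro h; exact absurd (Finset.mem_univ _) h

end Cfsg.Agent.Lib.Helper34.ASB8MU
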