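import Mathlib
import Cfsg.Prelude.Def_GeometricClasses
import Cfsg.Agent.Lib.Helper71.Asch0
import Cfsg.Agent.Lib.Helper86.ASB8Defs

/-!
# S5630, piece B8.FP: conjugation of a tensor factor by a factor permutation
(job of helper86, proof by helper34)
-/

set_option autoImplicit false

namespace Cfsg.Agent.Lib.Helper34.ASB8FP

open Matrix Cfsg.Geo Cfsg.Agent.Lib.Helper71.Asch Cfsg.Agent.Lib.Helper86.ASB8

variable {F : Type*} [Field F]

/-- B8.FP: conjugation of a tensor factor by a factor permutation. -/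
theorem perm_conj {m k : ℕ} (σ : Equiv.Perm (Fin k)) :
    ∃ π : GL (Fin k → Fin m) F, IsFactorPermutation m k π ∧
      ∀ (i : Fin k) (A : Matrix (Fin m) (Fin m) F), π.1 * iota i A = iota (σ i) A * π.1 := by
  classical
  let Pm : Equiv.Perm (Fin k) → Matrix (Fin k → Fin m) (Fin k → Fin m) F :=
    fun τ => Matrix.of fun x y => if y = x ∘ τ then 1 else 0
  have hPm : ∀ (τ : Equiv.Perm (Fin k)) (x y : Fin k → Fin m),
      Pm τ x y = if y = x ∘ τ then 1 else 0 := fun _ _ _ => rfl
  have hPl : ∀ (τ : Equiv.Perm (Fin k)) (M : Matrix (Fin k → Fin m) (Fin k → Fin m) F)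
      (x z : Fin k → Fin m), (Pm τ * M) x z = M (x ∘ τ) z := by
    intro τ M x z
    rw [Matrix.mul_apply, Finset.sum_eq_single (x ∘ τ)]
    · rw [hPm, if_pos rfl, one_mul]
    · intro b _ hb
      rw [hPm, if_neg hb, zero_mul]
    · intro h; exact absurd (Finset.mem_univ _) h
  have hPr : ∀ (τ : Equiv.Perm (Fin k)) (M : Matrix (Fin k → Fin m) (Fin k → Fin m) F)
      (x z : Fin k → Fin m), (M * Pm τ) x z = M x (z ∘ τ.symm) := by
    intro τ M x z
    rw [Matrix.mul_apply, Finset.sum_eq_single (z ∘ τ.symm)]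
    · have h0 : z = (z ∘ τ.symm) ∘ τ := by
        ext j; simp
      rw [hPm, if_pos h0, mul_one]
    · intro b _ hb
      have h0 : z ≠ b ∘ τ := by
        rintro rfl
        apply hb
        ext j; simp
      rw [hPm, if_neg h0, mul_zero]
    · intro h; exact absurd (Finset.mem_univ _) h
  have hinv : ∀ τ : Equiv.Perm (Fin k), Pm τ * Pm τ.symm = 1 := by
    intro τ
    ext x z
    rw [hPl, hPm, Matrix.one_apply]
    have h0 : (x ∘ τ) ∘ τ.symm = x := by
      ext j; simp
    rw [h0]
    by_cases h : x = z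
    · rw [if_pos h, if_pos h.symm]
    · rw [if_neg h, if_neg (Ne.symm h)]
  have h1 : Pm σ * Pm σ.symm = 1 := hinv σ
  have h2 : Pm σ.symm * Pm σ = 1 := by
    have h3 := hinv σ.symm
    rwa [Equiv.symm_symm] at h3
  refine ⟨⟨Pm σ, Pm σ.symm, h1, h2⟩, ⟨σ, fun x y => rfl⟩, ?_⟩
  intro i A
  change Pm σ * iota i A = iota (σ i) A * Pm σ
  ext x z
  rw [hPl, hPr, iota_apply, iota_apply]
  have hA : (z ∘ σ.symm) (σ i) = z i := by simp
  have hcond : (∀ j, j ≠ i → (x ∘ σ) j = z j) ↔ (∀ j, j ≠ σ i → x j = (z ∘ σ.symm) j) := by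
    constructor
    · intro h j hj
      have h3 := h (σ.symm j) (by
        intro h'
        apply hj
        rw [← h']; simp)
      simpa using h3
    · intro h j hj
      have h3 := h (σ j) (by
        intro h'
        exact hj (σ.injective h'))
      simpa using h3
  by_cases hc : ∀ j, j ≠ i → (x ∘ σ) j = z j
  · rw [if_pos hc, if_pos (hcond.mp hc), hA]
    rfl
  · rw [if_neg hc, if_neg (fun h => hc (hcond.mpr h))]

end Cfsg.Agent.Lib.Helper34.ASB8FP
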