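import Cfsg.Agent.Lib.Helper47.QuadDefs
import Cfsg.Agent.Lib.Helper47.OrthPrime

/-!
# S2674 piece NEC (helper34, for helper47)

If an isometry of odd prime order of a nondegenerate quadratic space has characteristic
polynomial the product of a dual-invariant multiset `u` of cyclotomic factors, then the space
has type `tauSign u`.
-/

set_option autoImplicit false

namespace Cfsg.Agent.Lib.Helper34.QuadNEC

open Polynomial Module Cfsg.Agent.Lib.Helper47

universe u

/-- no eigenvalue `1`: `range (g - 1) = ⊤` -/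
lemma range_sub_one_eq_top {F : Type*} [Field F] {V : Type*} [AddCommGroup V] [Module F V]
    [FiniteDimensional F V] (g : Module.End F V) (h1 : g.charpoly.eval 1 ≠ 0) :
    LinearMap.range (g - 1) = ⊤ := by
  have hinj : Function.Injective ⇑(g - 1 : Module.End F V) := by
    rw [← LinearMap.ker_eq_bot, LinearMap.ker_eq_bot']
    intro v hv
    by_contra hv0
    apply h1
    have hgv : g v = v := by
      have : g v - v = 0 := hv
      exact sub_eq_zero.mp this
    have hev : g.HasEigenvalue 1 :=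
      Module.End.hasEigenvalue_of_hasEigenvector
        ⟨Module.End.mem_eigenspace_iff.mpr (by rw [hgv, one_smul]), hv0⟩
    exact (Module.End.hasEigenvalue_iff_isRoot_charpoly g 1).mp hev
  exact LinearMap.range_eq_top.mpr (LinearMap.injective_iff_surjective.mp hinj)

-- PIECE NEC
theorem quad_type_of_no_fix {F : Type u} [Field F] [Fintype F] (hf : QFacts F) {V : Type u}
    [AddCommGroup V] [Module F V] [FiniteDimensional F V] {Q : V → F} {B : V → V → F}
    (hQ : IsQuad Q B) (hnd : Nondeg B) (p : ℕ) [Fact p.Prime] [CharP F p]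
    (g : Module.End F V) (r : ℕ) (hr : r.Prime)
    (hr2 : r ≠ 2) (hrp : r ≠ p) (hg : g ^ r = 1) (hgQ : ∀ v, Q (g v) = Q v)
    (u : Multiset F[X]) (hu : ∀ f ∈ u, IsCycFactor r f) (hu0 : u ≠ 0)
    (hdual : u.map (dualP (RingHom.id F)) = u) (hc : g.charpoly = u.prod) :
    ∃ j : ℕ, finrank F V = 2 * j + 2 ∧ IsTyp Q j (tauSign u) := by
  have hrF : (r : F) ≠ 0 := by
    intro h0
    rw [CharP.cast_eq_zero_iff F p] at h0
    exact hrp ((Nat.prime_dvd_prime_iff_eq Fact.out hr).mp h0).symm
  have hodd : Odd r := hr.odd_of_ne_two hr2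
  obtain ⟨M, _, _, _, QM, BM, x, hQM, hndM, hxQ, hx, hxc, j, hdimM, htyp⟩ :=
    hf.rmodel r u hr hr2 hrF hu hdual hu0
  have he1 : u.prod.eval 1 ≠ 0 := cyc_prod_eval_one_ne p hr hrp u hu
  have hRg : LinearMap.range (g - 1) = ⊤ := range_sub_one_eq_top g (by rw [hc]; exact he1)
  have hRx : LinearMap.range (x - 1) = ⊤ := range_sub_one_eq_top x (by rw [hxc]; exact he1)
  obtain ⟨-, hcr⟩ := range_charpoly_eq_of_charpoly_eq g x r hrF hg hx (hc.trans hxc.symm)
  obtain ⟨φ, -, hφQ, -⟩ :=
    exists_range_qisometry hQ hQM hnd hndM g x r hodd hrF hg hx hgQ hxQ hcr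
  have heQ : ∀ v, QM ((((LinearEquiv.ofTop _ hRg).symm.trans φ).trans
      (LinearEquiv.ofTop _ hRx)) v) = Q v := by
    intro v
    show QM ((φ ((LinearEquiv.ofTop _ hRg).symm v) : M)) = Q v
    rw [hφQ]
    rfl
  refine ⟨j, ?_, ?_⟩
  · rw [(((LinearEquiv.ofTop _ hRg).symm.trans φ).trans (LinearEquiv.ofTop _ hRx)).finrank_eq,
      hdimM]
  · apply IsTyp.of_equiv (((LinearEquiv.ofTop _ hRg).symm.trans φ).trans
      (LinearEquiv.ofTop _ hRx)).symm.toEquiv _ htyp
    intro m
    have := heQ ((((LinearEquiv.ofTop _ hRg).symm.trans φ).trans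
      (LinearEquiv.ofTop _ hRx)).symm m)
    rw [LinearEquiv.apply_symm_apply] at this
    exact this.symm

end Cfsg.Agent.Lib.Helper34.QuadNEC
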