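import Mathlib

set_option autoImplicit false

namespace Cfsg.Agent.Lib.Helper34

theorem trace_of_sq_eq_smul {Ω : Type*} [Fintype Ω] [DecidableEq Ω] (c : Matrix Ω Ω ℝ) (l : ℝ)
    (h : c * c = l • c) (htr : c.trace ≠ 0) : ∃ r : ℕ, 0 < r ∧ c.trace = l * r := by
  have hl : l ≠ 0 := by
    rintro rfl
    rw [zero_smul] at h
    apply htr
    have hnil : IsNilpotent c := ⟨2, by rw [pow_two, h]⟩
    exact (Matrix.isNilpotent_trace_of_isNilpotent hnil).eq_zero
  obtain ⟨e, he⟩ : ∃ e : Matrix Ω Ω ℝ, e = l⁻¹ • c := ⟨_, rfl⟩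
  have hce : c = l • e := by rw [he, smul_smul, mul_inv_cancel₀ hl, one_smul]
  have hee : e * e = e := by
    rw [he, Matrix.smul_mul, Matrix.mul_smul, h, smul_smul, smul_smul]
    congr 1
    field_simp
  have hidem : IsIdempotentElem (Matrix.toLin' e) := by
    show Matrix.toLin' e * Matrix.toLin' e = Matrix.toLin' e
    rw [Module.End.mul_eq_comp, ← Matrix.toLin'_mul, hee]
  have htrace := (LinearMap.IsIdempotentElem.isProj_range _ hidem).trace
  rw [Matrix.trace_toLin'_eq] at htrace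
  refine ⟨Module.finrank ℝ (LinearMap.range (Matrix.toLin' e)), ?_, ?_⟩
  · rcases Nat.eq_zero_or_pos (Module.finrank ℝ (LinearMap.range (Matrix.toLin' e))) with h0 | h0
    · exfalso
      apply htr
      rw [h0, Nat.cast_zero] at htrace
      rw [hce, Matrix.trace_smul, htrace, smul_zero]
    · exact h0
  · rw [hce, Matrix.trace_smul, htrace, smul_eq_mul]

end Cfsg.Agent.Lib.Helper34
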