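import Mathlib
import Cfsg.Agent.Lib.Helper14.OSDefs

/-!
# S3421, piece OS-D (helper34 for helper14): the cyclic Hall subgroup `T = ⟨x⟩` of order `b`
-/

set_option autoImplicit false

namespace Cfsg.Agent.Lib.Helper14.OS

/-- arithmetic: `b` is coprime to `2 q a` -/
theorem osd_coprime {G : Type*} [Group G] {q a b : ℕ} (H : Hyp G q a b) :
    Nat.Coprime b (2 * q * a) := by
  obtain ⟨hab, hdiff, ha, hb, -, -, -, -⟩ := H
  have hba : Nat.Coprime b a := by
    rcases hdiff with h | h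
    · rw [h]; simp
    · rw [h]; simp
  have hbq : Nat.Coprime b q := by
    rw [← hab]
    simpa using hba
  have hbodd : Odd b := by
    rcases hdiff with h | h
    · rw [h] at ha
      exact Nat.not_even_iff_odd.mp (fun hbe => (Nat.even_add_one.mp ha) hbe)
    · rw [h]
      exact ha.add_one
  have hb2 : Nat.Coprime b 2 := Nat.coprime_two_right.mpr hbodd
  exact (hb2.mul_right hbq).mul_right hba

theorem osd_card_mul_relIndex {G : Type*} [Group G] {H K : Subgroup G} (h : H ≤ K) :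
    Nat.card K = Nat.card H * H.relIndex K := by
  rw [← Subgroup.relIndex_bot_left, ← Subgroup.relIndex_bot_left,
    Subgroup.relIndex_mul_relIndex _ _ _ bot_le h]

theorem osd_conj_mul {G : Type*} [Group G] (k u v : G) :
    k * u * k⁻¹ * (k * v * k⁻¹) = k * (u * v) * k⁻¹ := by group

theorem To_cent {G : Type*} [Group G] [Finite G] {q a b : ℕ} (H : Hyp G q a b)
    (hcb : ∀ y : G, y ≠ 1 → orderOf y ∣ b → Nat.card (Subgroup.centralizer ({y} : Set G)) ∣ b)
    (x : G) (hx : orderOf x = b) (y : G) (hy : y ∈ Subgroup.zpowers x) (hy1 : y ≠ 1) :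
    Subgroup.centralizer ({y} : Set G) = Subgroup.zpowers x := by
  have hbpos : 0 < b := by have := H.hb; omega
  have hyb : orderOf y ∣ b := hx ▸ orderOf_dvd_of_mem_zpowers hy
  have hdvd := hcb y hy1 hyb
  have hTle : Subgroup.zpowers x ≤ Subgroup.centralizer ({y} : Set G) := by
    intro t ht
    rw [Subgroup.mem_centralizer_iff]
    intro z hz
    rw [Set.mem_singleton_iff] at hz
    rw [hz]
    obtain ⟨i, hi⟩ := Subgroup.mem_zpowers_iff.mp ht
    obtain ⟨j, hj⟩ := Subgroup.mem_zpowers_iff.mp hy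
    rw [← hi, ← hj, ← zpow_add, ← zpow_add, add_comm]
  have hcardT : Nat.card (Subgroup.zpowers x) = b := by rw [Nat.card_zpowers, hx]
  have hle : Nat.card (Subgroup.centralizer ({y} : Set G)) ≤ Nat.card (Subgroup.zpowers x) := by
    rw [hcardT]
    exact Nat.le_of_dvd hbpos hdvd
  exact (Subgroup.eq_of_le_of_card_ge hTle hle).symm

theorem To_conj {G : Type*} [Group G] [Finite G] {q a b : ℕ} (H : Hyp G q a b)
    (hcb : ∀ y : G, y ≠ 1 → orderOf y ∣ b → Nat.card (Subgroup.centralizer ({y} : Set G)) ∣ b)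
    (x : G) (hx : orderOf x = b) (g : G) (hg : g ∈ X G b) :
    ∃ h : G, h * g * h⁻¹ ∈ Subgroup.zpowers x := by
  obtain ⟨hg1, hgb⟩ := hg
  have hbpos : 0 < b := by have := H.hb; omega
  have hog : orderOf g ≠ 1 := fun h => hg1 (orderOf_eq_one_iff.mp h)
  obtain ⟨r, hr, hrg⟩ := Nat.exists_prime_and_dvd hog
  have hfr : Fact r.Prime := ⟨hr⟩
  have hrb : r ∣ b := hrg.trans hgb
  have hzord : orderOf (g ^ (orderOf g / r)) = r :=
    orderOf_pow_orderOf_div (orderOf_pos g).ne' hrg
  have hcardT : Nat.card (Subgroup.zpowers x) = b := by rw [Nat.card_zpowers, hx]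
  obtain ⟨Q⟩ : Nonempty (Sylow r (Subgroup.zpowers x)) := inferInstance
  have hQcard : Nat.card (Q : Subgroup (Subgroup.zpowers x)) =
      r ^ (Nat.card (Subgroup.zpowers x)).factorization r := Sylow.card_eq_multiplicity Q
  have hcop := osd_coprime H
  have hfac : (Nat.card G).factorization r = b.factorization r := by
    rw [H.hcard]
    have hr2qa : ¬ r ∣ 2 * q * a := fun h => by
      have h1 : r ∣ Nat.gcd b (2 * q * a) := Nat.dvd_gcd hrb h
      rw [hcop] at h1
      exact hr.one_lt.ne' (Nat.dvd_one.mp h1)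
    have h2qa0 : 2 * q * a ≠ 0 := by
      intro h0
      rw [h0] at hr2qa
      exact hr2qa (dvd_zero r)
    rw [Nat.factorization_mul h2qa0 hbpos.ne', Finsupp.add_apply,
      Nat.factorization_eq_zero_of_not_dvd hr2qa, zero_add]
  have hQ'card : Nat.card ((Q : Subgroup (Subgroup.zpowers x)).map (Subgroup.zpowers x).subtype) =
      r ^ (Nat.card G).factorization r := by
    rw [hfac, ← hcardT, ← hQcard]
    exact (Nat.card_congr ((Q : Subgroup (Subgroup.zpowers x)).equivMapOfInjective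
      (Subgroup.zpowers x).subtype (Subgroup.zpowers x).subtype_injective).toEquiv).symm
  have hzp : IsPGroup r (Subgroup.zpowers (g ^ (orderOf g / r))) :=
    IsPGroup.of_card (n := 1) (by rw [Nat.card_zpowers, hzord, pow_one])
  obtain ⟨P, hP⟩ := hzp.exists_le_sylow
  obtain ⟨h, hh⟩ := MulAction.exists_smul_eq G P (Sylow.ofCard _ hQ'card)
  have hzP : g ^ (orderOf g / r) ∈ (P : Subgroup G) := hP (Subgroup.mem_zpowers _)
  have hconj : h * g ^ (orderOf g / r) * h⁻¹ ∈
      (Q : Subgroup (Subgroup.zpowers x)).map (Subgroup.zpowers x).subtype := by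
    have h1 : h * g ^ (orderOf g / r) * h⁻¹ ∈ ((h • P : Sylow r G) : Subgroup G) := by
      rw [Sylow.coe_subgroup_smul]
      exact Subgroup.smul_mem_pointwise_smul _ (MulAut.conj h) _ hzP
    rw [hh] at h1
    exact h1
  have hconjT : h * g ^ (orderOf g / r) * h⁻¹ ∈ Subgroup.zpowers x := by
    obtain ⟨t, -, ht⟩ := hconj
    rw [← ht]
    exact t.2
  have hne : h * g ^ (orderOf g / r) * h⁻¹ ≠ 1 := by
    intro h1
    have h2 : g ^ (orderOf g / r) = 1 := conj_eq_one_iff.mp h1
    rw [h2, orderOf_one] at hzord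
    exact hr.one_lt.ne hzord
  have hcent := To_cent H hcb x hx (h * g ^ (orderOf g / r) * h⁻¹) hconjT hne
  refine ⟨h, ?_⟩
  rw [← hcent, Subgroup.mem_centralizer_iff]
  intro w hw
  rw [Set.mem_singleton_iff] at hw
  rw [hw]
  have hcomm : g ^ (orderOf g / r) * g = g * g ^ (orderOf g / r) := (Commute.pow_self g _).eq
  rw [osd_conj_mul, osd_conj_mul, hcomm]

theorem To_count {G : Type*} [Group G] [Finite G] {q a b : ℕ} (H : Hyp G q a b)
    (hcb : ∀ y : G, y ≠ 1 → orderOf y ∣ b → Nat.card (Subgroup.centralizer ({y} : Set G)) ∣ b)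
    (x : G) (hx : orderOf x = b)
    (hTI : ∀ (S : Set G) (N : Subgroup G), (∀ k ∈ N, ∀ y ∈ S, k * y * k⁻¹ ∈ S) →
      (∀ k : G, ∀ y ∈ S, k * y * k⁻¹ ∈ S → k ∈ N) →
      Nat.card {g : G | ∃ h : G, ∃ y ∈ S, g = h * y * h⁻¹} * Nat.card N
        = Nat.card G * Nat.card S) :
    ∃ k : ℕ, 1 ≤ k ∧ k ≤ b - 1 ∧ Nat.card (X G b) * (b * k) = 2 * q * a * b * (b - 1) := by
  classical
  have hbpos : 0 < b := by have := H.hb; omega
  have hcardT : Nat.card (Subgroup.zpowers x) = b := by rw [Nat.card_zpowers, hx]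
  have hxT : x ∈ Subgroup.zpowers x := Subgroup.mem_zpowers x
  have hx1 : x ≠ 1 := by
    rintro rfl
    rw [orderOf_one] at hx
    have := H.hb
    omega
  obtain ⟨S, hS⟩ : ∃ S : Set G, S = {y | y ∈ Subgroup.zpowers x ∧ y ≠ 1} := ⟨_, rfl⟩
  have hSmem : ∀ y, y ∈ S ↔ y ∈ Subgroup.zpowers x ∧ y ≠ 1 := by
    intro y
    rw [hS]
    exact Iff.rfl
  have hTN : Subgroup.zpowers x ≤ Subgroup.normalizer ((Subgroup.zpowers x : Subgroup G) : Set G) :=
    Subgroup.le_normalizer
  have h1 : ∀ k ∈ Subgroup.normalizer ((Subgroup.zpowers x : Subgroup G) : Set G), ∀ y ∈ S,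
      k * y * k⁻¹ ∈ S := by
    intro k hk y hy
    rw [hSmem] at hy ⊢
    refine ⟨(Subgroup.mem_normalizer_iff.mp hk y).mp hy.1, ?_⟩
    intro h
    exact hy.2 (conj_eq_one_iff.mp h)
  have hcentiff : ∀ y ∈ S, ∀ t : G, t ∈ Subgroup.zpowers x ↔ y * t = t * y := by
    intro y hy t
    rw [hSmem] at hy
    rw [← To_cent H hcb x hx y hy.1 hy.2, Subgroup.mem_centralizer_iff]
    constructor
    · intro h
      exact h y rfl
    · intro h z hz
      rw [Set.mem_singleton_iff] at hz
      rw [hz]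
      exact h
  have h2 : ∀ k : G, ∀ y ∈ S, k * y * k⁻¹ ∈ S →
      k ∈ Subgroup.normalizer ((Subgroup.zpowers x : Subgroup G) : Set G) := by
    intro k y hy hky
    rw [Subgroup.mem_normalizer_iff]
    intro t
    rw [hcentiff y hy t, hcentiff (k * y * k⁻¹) hky (k * t * k⁻¹), osd_conj_mul, osd_conj_mul]
    constructor
    · intro h
      rw [h]
    · intro h
      exact mul_left_cancel (mul_right_cancel h)
  have hmain := hTI S (Subgroup.normalizer ((Subgroup.zpowers x : Subgroup G) : Set G)) h1 h2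
  have hU : {g : G | ∃ h : G, ∃ y ∈ S, g = h * y * h⁻¹} = X G b := by
    ext g
    constructor
    · rintro ⟨h, y, hy, rfl⟩
      rw [hSmem] at hy
      refine ⟨fun h1 => hy.2 (conj_eq_one_iff.mp h1), ?_⟩
      have e : orderOf (h * y * h⁻¹) = orderOf y := (MulAut.conj h).orderOf_eq y
      rw [e]
      exact hx ▸ orderOf_dvd_of_mem_zpowers hy.1
    · intro hg
      obtain ⟨h, hh⟩ := To_conj H hcb x hx g hg
      refine ⟨h⁻¹, h * g * h⁻¹, ?_, by group⟩
      rw [hSmem]
      exact ⟨hh, fun h1 => hg.1 (conj_eq_one_iff.mp h1)⟩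
  have hScard : Nat.card S = b - 1 := by
    have e : S = ((Subgroup.zpowers x : Subgroup G) : Set G) \ {1} := by
      ext y
      rw [hSmem]
      simp
    rw [e, Nat.card_coe_set_eq,
      Set.ncard_sdiff_singleton_of_mem (Subgroup.one_mem _) ,
      ← Nat.card_coe_set_eq]
    exact congrArg (fun n => n - 1) hcardT
  have hNcard := osd_card_mul_relIndex hTN
  rw [hcardT] at hNcard
  -- the bound on the index
  have hidx : (Subgroup.zpowers x).relIndex
      (Subgroup.normalizer ((Subgroup.zpowers x : Subgroup G) : Set G)) ≤ b - 1 := by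
    rw [Subgroup.relIndex, Subgroup.index_eq_card, ← hScard]
    have hresp : ∀ n n' : ↥(Subgroup.normalizer ((Subgroup.zpowers x : Subgroup G) : Set G)),
        (QuotientGroup.leftRel ((Subgroup.zpowers x).subgroupOf
          (Subgroup.normalizer ((Subgroup.zpowers x : Subgroup G) : Set G)))) n n' →
        (⟨(n : G) * x * (n : G)⁻¹, h1 n n.2 x ((hSmem x).mpr ⟨hxT, hx1⟩)⟩ : ↥S) =
          ⟨(n' : G) * x * (n' : G)⁻¹, h1 n' n'.2 x ((hSmem x).mpr ⟨hxT, hx1⟩)⟩ := by
      intro n n' hrel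
      rw [QuotientGroup.leftRel_apply, Subgroup.mem_subgroupOf] at hrel
      have hc : x * ((n : G)⁻¹ * (n' : G)) = ((n : G)⁻¹ * (n' : G)) * x :=
        (hcentiff x ((hSmem x).mpr ⟨hxT, hx1⟩) _).mp (by simpa using hrel)
      apply Subtype.ext
      show (n : G) * x * (n : G)⁻¹ = (n' : G) * x * (n' : G)⁻¹
      have e1 : (n' : G) * x * (n' : G)⁻¹ =
          (n : G) * (((n : G)⁻¹ * (n' : G)) * x) * ((n : G)⁻¹ * (n' : G))⁻¹ * (n : G)⁻¹ := by
        group
      rw [e1, ← hc]
      group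
    refine Nat.card_le_card_of_injective (Quotient.lift (fun n => (⟨(n : G) * x * (n : G)⁻¹,
      h1 n n.2 x ((hSmem x).mpr ⟨hxT, hx1⟩)⟩ : ↥S)) hresp) ?_
    intro c c'
    refine Quotient.inductionOn₂ c c' ?_
    intro n n' hF
    have hF' : (n : G) * x * (n : G)⁻¹ = (n' : G) * x * (n' : G)⁻¹ := congrArg Subtype.val hF
    apply Quotient.sound
    show (QuotientGroup.leftRel _) n n'
    rw [QuotientGroup.leftRel_apply, Subgroup.mem_subgroupOf]
    have hmem : ((n : G)⁻¹ * (n' : G)) ∈ Subgroup.zpowers x := by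
      rw [hcentiff x ((hSmem x).mpr ⟨hxT, hx1⟩)]
      have e2 : x * ((n : G)⁻¹ * (n' : G)) =
          (n : G)⁻¹ * ((n : G) * x * (n : G)⁻¹) * (n' : G) := by group
      rw [e2, hF']
      group
    simpa using hmem
  have hkpos : 1 ≤ (Subgroup.zpowers x).relIndex
      (Subgroup.normalizer ((Subgroup.zpowers x : Subgroup G) : Set G)) := by
    rcases Nat.eq_zero_or_pos ((Subgroup.zpowers x).relIndex
      (Subgroup.normalizer ((Subgroup.zpowers x : Subgroup G) : Set G))) with h0 | hpos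
    · rw [h0, mul_zero] at hNcard
      have := Nat.card_pos (α := ↥(Subgroup.normalizer ((Subgroup.zpowers x : Subgroup G) : Set G)))
      omega
    · exact hpos
  refine ⟨_, hkpos, hidx, ?_⟩
  rw [hU, hNcard, H.hcard, hScard] at hmain
  exact hmain

end Cfsg.Agent.Lib.Helper14.OS
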