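import Mathlib
import Cfsg.Agent.Lib.Helper15.FH0

set_option autoImplicit false

namespace Cfsg.Agent.Lib.Helper34

open Cfsg Cfsg.Agent.Lib.Helper8 Cfsg.Agent.Lib.Helper15.FH

universe u

theorem matA_sq (u : ℝ) :
    matA u * matA u = u • (1 : Matrix (Fin 2) (Fin 2) ℝ) + (u - 1) • matA u := by
  rw [matA_def]
  ext i j
  fin_cases i <;> fin_cases j <;> simp [Matrix.mul_apply, Fin.sum_univ_two] <;> ring

theorem matB_sq (u v θ : ℝ) :
    matB u v θ * matB u v θ = v • (1 : Matrix (Fin 2) (Fin 2) ℝ) + (v - 1) • matB u v θ := by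
  rw [matB_def]
  generalize fhA u v θ = a
  ext i j
  fin_cases i <;> fin_cases j <;> simp [Matrix.mul_apply, Fin.sum_univ_two] <;> ring

theorem mat_comm_scalar (u v θ : ℝ) (hu : u + 1 ≠ 0) (M : Matrix (Fin 2) (Fin 2) ℝ)
    (hA : M * matA u = matA u * M) (hB : M * matB u v θ = matB u v θ * M) :
    ∃ c : ℝ, M = c • (1 : Matrix (Fin 2) (Fin 2) ℝ) := by
  rw [matA_def] at hA
  rw [matB_def] at hB
  generalize fhA u v θ = a at hB
  have h01 := congrFun (congrFun hA 0) 1
  have h10 := congrFun (congrFun hA 1) 0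
  have hB01 := congrFun (congrFun hB 0) 1
  simp [Matrix.mul_apply, Fin.sum_univ_two] at h01 h10 hB01
  have e01 : M 0 1 = 0 := by
    have : (u + 1) * M 0 1 = 0 := by linarith
    rcases mul_eq_zero.mp this with h | h
    · exact absurd h hu
    · exact h
  have e10 : M 1 0 = 0 := by
    have : (u + 1) * M 1 0 = 0 := by linarith
    rcases mul_eq_zero.mp this with h | h
    · exact absurd h hu
    · exact h
  have e11 : M 1 1 = M 0 0 := by
    rw [e01] at hB01
    linarith
  refine ⟨M 0 0, ?_⟩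
  ext i j
  fin_cases i <;> fin_cases j <;> simp [e01, e10, e11]

end Cfsg.Agent.Lib.Helper34
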