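import Mathlib
import Cfsg.Agent.Lib.Helper18.CTDefs

/-!
# Project CT (S4699), piece NILP

The Frobenius identity `(ρ x - 1) ^ (p ^ k) = ρ (x ^ (p ^ k)) - 1` in characteristic `p`,
nilpotent endomorphisms die at the dimension, and faithfulness keeps lower powers nonzero.
-/

set_option autoImplicit false

namespace Cfsg.Agent.Lib.Helper18.CT

variable {G : Type*} [Group G] {F : Type*} [Field F] {V : Type*} [AddCommGroup V] [Module F V]

private theorem nilp_frob (p : ℕ) [Fact p.Prime] [CharP F p] (f : Module.End F V) (k : ℕ) :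
    (f - 1) ^ (p ^ k) = f ^ (p ^ k) - 1 := by
  have h : ((Polynomial.X : Polynomial F) - 1) ^ (p ^ k) = Polynomial.X ^ (p ^ k) - 1 := by
    rw [sub_pow_char_pow, one_pow]
  have h2 := congrArg (Polynomial.aeval f) h
  simpa using h2

private theorem nilp_frob_rep (p : ℕ) [Fact p.Prime] [CharP F p] (ρ : Representation F G V)
    (x : G) (k : ℕ) : (ρ x - 1) ^ (p ^ k) = ρ (x ^ (p ^ k)) - 1 := by
  rw [nilp_frob p (ρ x) k, map_pow]

theorem y_pow_zero (p : ℕ) [Fact p.Prime] [CharP F p] (ρ : Representation F G V) (x : G) (n : ℕ)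
    (hx : x ^ (p ^ n) = 1) : (ρ x - 1) ^ (p ^ n) = 0 := by
  rw [nilp_frob_rep p ρ x n, hx, map_one, sub_self]

theorem y_pow_finrank [FiniteDimensional F V] (y : Module.End F V) (hy : IsNilpotent y) :
    y ^ Module.finrank F V = 0 := by
  have h1 := IsNilpotent.charpoly_eq_X_pow_finrank hy
  have h2 := LinearMap.aeval_self_charpoly y
  rw [h1] at h2
  simpa using h2

theorem faith_contra (p : ℕ) [Fact p.Prime] [CharP F p] (ρ : Representation F G V)
    (hfaith : Function.Injective ρ) (x : G) (n m : ℕ) (hm : m < n) (hord : orderOf x = p ^ n) :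
    (ρ x - 1) ^ (p ^ m) ≠ 0 := by
  intro h0
  rw [nilp_frob_rep p ρ x m, sub_eq_zero] at h0
  have h1 : x ^ (p ^ m) = 1 := hfaith (by rw [h0, map_one])
  have h2 : p ^ n ∣ p ^ m := by
    rw [← hord]
    exact orderOf_dvd_of_pow_eq_one h1
  have hp : 1 < p := (Fact.out : p.Prime).one_lt
  have h3 : n ≤ m := (Nat.pow_dvd_pow_iff_le_right hp).mp h2
  omega

end Cfsg.Agent.Lib.Helper18.CT
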