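import Cfsg.Agent.Lib.Helper82.TGModDefs
import Cfsg.Agent.Lib.Helper82.CharCore
import Cfsg.Agent.Lib.Helper22.SchurSum
import Cfsg.Agent.Lib.Helper4.CharExp2

/-!
# TG-MOD, piece ID (helper34): the central idempotents `Ecoef` of `F[H]`

Complex character identities pushed along a ring homomorphism `f : R →+* F`.
-/

set_option autoImplicit false

namespace Cfsg.Agent.Lib.Helper34.TGM

open Cfsg Cfsg.Agent.Lib.Helper82.TGM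
open scoped ComplexConjugate

section cplx

variable {H : Type*} [Group H] [Fintype H]

omit [Fintype H] in
theorem c_class (ξ : IrrCharacter H) (x h : H) :
    (ξ : H → ℂ) (x * h * x⁻¹)⁻¹ = (ξ : H → ℂ) h⁻¹ := by
  have h1 : (x * h * x⁻¹)⁻¹ = x * h⁻¹ * x⁻¹ := by group
  rw [h1]
  exact Cfsg.Agent.Lib.Helper4.isClassFunction_irr ξ h⁻¹ x

theorem c_norm (ξ : IrrCharacter H) :
    ∑ g : H, (ξ : H → ℂ) g⁻¹ * (ξ : H → ℂ) g = (Nat.card H : ℂ) := by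
  have h4 := Cfsg.Agent.Lib.Helper4.classInner_irr ξ ξ
  rw [if_pos rfl] at h4
  unfold classInner at h4
  have hn : (Nat.card H : ℂ) ≠ 0 := by exact_mod_cast (Nat.card_pos (α := H)).ne'
  rw [inv_mul_eq_one₀ hn] at h4
  rw [h4]
  refine Finset.sum_congr rfl fun g _ => ?_
  rw [Cfsg.Agent.Lib.Helper4.irr_inv, mul_comm]

theorem c_idem (ξ : IrrCharacter H) (g : H) :
    (charDegree (ξ : H → ℂ) : ℂ) * ∑ h : H, (ξ : H → ℂ) h⁻¹ * (ξ : H → ℂ) (h⁻¹ * g)⁻¹ =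
      (Nat.card H : ℂ) * (ξ : H → ℂ) g⁻¹ := by
  have h1 := (Cfsg.Agent.Lib.Helper82.irr_charDegree ξ).1
  have h0 := Cfsg.Agent.Lib.Helper4.irr_one_ne_zero ξ
  have hcl := Cfsg.Agent.Lib.Helper4.isClassFunction_irr ξ
  have he : IsClassFunction H (fun w => (ξ : H → ℂ) w⁻¹) := fun w k => c_class ξ k w
  have h2 := Cfsg.Agent.Lib.Helper22.sum_classFn_mul_irr ξ _ he g⁻¹
  have h3 : Cfsg.Agent.Lib.Helper21.omega (ξ : H → ℂ) (fun w => (ξ : H → ℂ) w⁻¹) =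
      (Nat.card H : ℂ) / (ξ : H → ℂ) 1 := by
    rw [Cfsg.Agent.Lib.Helper21.omega_def, c_norm]
  have h6 : ∀ h : H, (ξ : H → ℂ) (h⁻¹ * g)⁻¹ = (ξ : H → ℂ) (h * g⁻¹) := by
    intro h
    have h7 : (h⁻¹ * g)⁻¹ = g⁻¹ * (h * g⁻¹) * (g⁻¹)⁻¹ := by group
    rw [h7]
    exact hcl _ _
  simp_rw [h6]
  rw [h2, h3, h1]
  field_simp

theorem c_cent (ξ : IrrCharacter H) (h g : H) :
    (charDegree (ξ : H → ℂ) : ℂ) * ∑ x : H, (ξ : H → ℂ) ((x * h * x⁻¹)⁻¹ * g)⁻¹ =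
      (Nat.card H : ℂ) * (ξ : H → ℂ) h * (ξ : H → ℂ) g⁻¹ := by
  have h1 := (Cfsg.Agent.Lib.Helper82.irr_charDegree ξ).1
  have h0 := Cfsg.Agent.Lib.Helper4.irr_one_ne_zero ξ
  have hcl := Cfsg.Agent.Lib.Helper4.isClassFunction_irr ξ
  have h6 : ∀ x : H, (ξ : H → ℂ) ((x * h * x⁻¹)⁻¹ * g)⁻¹ =
      (ξ : H → ℂ) (x * h * x⁻¹ * g⁻¹) := by
    intro x
    have h7 : ((x * h * x⁻¹)⁻¹ * g)⁻¹ = g⁻¹ * (x * h * x⁻¹ * g⁻¹) * (g⁻¹)⁻¹ := by group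
    rw [h7]
    exact hcl _ _
  simp_rw [h6]
  rw [Cfsg.Agent.Lib.Helper22.irr_sum_conj_mul ξ h g⁻¹, h1]
  field_simp

theorem c_reg_one [Fintype (IrrCharacter H)] :
    ∑ ξ : IrrCharacter H, (charDegree (ξ : H → ℂ) : ℂ) * (ξ : H → ℂ) (1 : H)⁻¹ =
      (Nat.card H : ℂ) := by
  have h := Cfsg.Agent.Lib.Helper4.col_orth_one (G := H) 1
  rw [if_pos rfl] at h
  rw [← h]
  refine Finset.sum_congr rfl fun ξ _ => ?_
  rw [(Cfsg.Agent.Lib.Helper82.irr_charDegree ξ).1, inv_one]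

theorem c_reg_ne [Fintype (IrrCharacter H)] (g : H) (hg : g ≠ 1) :
    ∑ ξ : IrrCharacter H, (charDegree (ξ : H → ℂ) : ℂ) * (ξ : H → ℂ) g⁻¹ = 0 := by
  have h := Cfsg.Agent.Lib.Helper4.col_orth_one (G := H) g⁻¹
  rw [if_neg (fun e => hg (inv_eq_one.1 e))] at h
  rw [← h]
  refine Finset.sum_congr rfl fun ξ _ => ?_
  rw [(Cfsg.Agent.Lib.Helper82.irr_charDegree ξ).1, mul_comm]

end cplx

section push

variable {H : Type*} [Group H] [Fintype H] (R : Subring ℂ) {F : Type*} [Field F] (f : R →+* F)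

omit [Fintype H] in
theorem push_eq {a b : R} (h : (a : ℂ) = (b : ℂ)) : f a = f b := by
  rw [Subtype.ext h]

omit [Fintype H] in
theorem deg_ne_zero [Finite H] (hH : (Nat.card H : F) ≠ 0) (ξ : IrrCharacter H) :
    (charDegree (ξ : H → ℂ) : F) ≠ 0 := by
  obtain ⟨k, hk⟩ := Cfsg.Agent.Lib.Helper82.irr_degree_dvd_card ξ
  intro h0
  apply hH
  rw [hk, Nat.cast_mul, h0, zero_mul]

theorem p_idem (ξ : IrrCharacter H) (hv : ∀ h : H, (ξ : H → ℂ) h ∈ R) (g : H) :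
    (charDegree (ξ : H → ℂ) : F) *
      f (∑ h : H, (⟨(ξ : H → ℂ) h⁻¹, hv h⁻¹⟩ : R) * ⟨(ξ : H → ℂ) (h⁻¹ * g)⁻¹, hv _⟩) =
      (Nat.card H : F) * f ⟨(ξ : H → ℂ) g⁻¹, hv g⁻¹⟩ := by
  have h := push_eq R f
    (a := (charDegree (ξ : H → ℂ) : R) *
      ∑ h : H, (⟨(ξ : H → ℂ) h⁻¹, hv h⁻¹⟩ : R) * ⟨(ξ : H → ℂ) (h⁻¹ * g)⁻¹, hv _⟩)
    (b := (Nat.card H : R) * ⟨(ξ : H → ℂ) g⁻¹, hv g⁻¹⟩)
    (by push_cast; exact c_idem ξ g)
  rwa [map_mul, map_mul, map_natCast, map_natCast] at h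

theorem p_cent (ξ : IrrCharacter H) (hv : ∀ h : H, (ξ : H → ℂ) h ∈ R) (h g : H) :
    (charDegree (ξ : H → ℂ) : F) *
      f (∑ x : H, (⟨(ξ : H → ℂ) ((x * h * x⁻¹)⁻¹ * g)⁻¹, hv _⟩ : R)) =
      (Nat.card H : F) * f ⟨(ξ : H → ℂ) h, hv h⟩ * f ⟨(ξ : H → ℂ) g⁻¹, hv g⁻¹⟩ := by
  have h' := push_eq R f
    (a := (charDegree (ξ : H → ℂ) : R) *
      ∑ x : H, (⟨(ξ : H → ℂ) ((x * h * x⁻¹)⁻¹ * g)⁻¹, hv _⟩ : R))
    (b := (Nat.card H : R) * ⟨(ξ : H → ℂ) h, hv h⟩ * ⟨(ξ : H → ℂ) g⁻¹, hv g⁻¹⟩)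
    (by push_cast; exact c_cent ξ h g)
  rwa [map_mul, map_mul, map_mul, map_natCast, map_natCast] at h'

theorem p_reg_one [Fintype (IrrCharacter H)]
    (hval : ∀ (ξ : IrrCharacter H) (h : H), (ξ : H → ℂ) h ∈ R) :
    ∑ ξ : IrrCharacter H, (charDegree (ξ : H → ℂ) : F) *
      f ⟨(ξ : H → ℂ) (1 : H)⁻¹, hval ξ _⟩ = (Nat.card H : F) := by
  have h' := push_eq R f
    (a := ∑ ξ : IrrCharacter H, (charDegree (ξ : H → ℂ) : R) *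
      ⟨(ξ : H → ℂ) (1 : H)⁻¹, hval ξ _⟩)
    (b := (Nat.card H : R))
    (by push_cast; exact c_reg_one)
  rw [map_sum, map_natCast] at h'
  rw [← h']
  refine Finset.sum_congr rfl fun ξ _ => ?_
  rw [map_mul, map_natCast]

theorem p_reg_ne [Fintype (IrrCharacter H)]
    (hval : ∀ (ξ : IrrCharacter H) (h : H), (ξ : H → ℂ) h ∈ R) (g : H) (hg : g ≠ 1) :
    ∑ ξ : IrrCharacter H, (charDegree (ξ : H → ℂ) : F) *
      f ⟨(ξ : H → ℂ) g⁻¹, hval ξ _⟩ = 0 := by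
  have h' := push_eq R f
    (a := ∑ ξ : IrrCharacter H, (charDegree (ξ : H → ℂ) : R) *
      ⟨(ξ : H → ℂ) g⁻¹, hval ξ _⟩)
    (b := 0)
    (by push_cast; exact c_reg_ne g hg)
  rw [map_sum, map_zero] at h'
  rw [← h']
  refine Finset.sum_congr rfl fun ξ _ => ?_
  rw [map_mul, map_natCast]

end push

/-- PIECE ID (complex characters): the central idempotents of F[H]. -/
theorem ecoef_props {H : Type*} [Group H] [Fintype H] (R : Subring ℂ) {F : Type*} [Field F]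
    (f : R →+* F) (hH : (Nat.card H : F) ≠ 0)
    (hval : ∀ (ξ : IrrCharacter H) (h : H), (ξ : H → ℂ) h ∈ R) :
    (∀ (ξ : IrrCharacter H) (x h : H),
      Ecoef R f ξ (hval ξ) (x * h * x⁻¹) = Ecoef R f ξ (hval ξ) h) ∧
    (∀ (ξ : IrrCharacter H) (g : H),
      ∑ h : H, Ecoef R f ξ (hval ξ) h * Ecoef R f ξ (hval ξ) (h⁻¹ * g) =
        Ecoef R f ξ (hval ξ) g) ∧
    (∀ (ξ : IrrCharacter H) (c : H → F), (∀ x h : H, c (x * h * x⁻¹) = c h) →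
      ∃ l : F, ∀ g : H, ∑ h : H, c h * Ecoef R f ξ (hval ξ) (h⁻¹ * g) =
        l * Ecoef R f ξ (hval ξ) g) ∧
    (∑ᶠ ξ : IrrCharacter H, Ecoef R f ξ (hval ξ) 1 = 1) ∧
    (∀ g : H, g ≠ 1 → ∑ᶠ ξ : IrrCharacter H, Ecoef R f ξ (hval ξ) g = 0) := by
  have hfin : Finite (IrrCharacter H) := Cfsg.Agent.Lib.Helper4.irr_finite
  letI : Fintype (IrrCharacter H) := Fintype.ofFinite _
  refine ⟨?_, ?_, ?_, ?_, ?_⟩
  · intro ξ x h
    have h1 : (⟨(ξ : H → ℂ) (x * h * x⁻¹)⁻¹, hval ξ _⟩ : R) = ⟨(ξ : H → ℂ) h⁻¹, hval ξ _⟩ :=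
      Subtype.ext (c_class ξ x h)
    unfold Ecoef
    rw [h1]
  · intro ξ g
    have hd := deg_ne_zero (F := F) hH ξ
    have key := p_idem R f ξ (hval ξ) g
    unfold Ecoef
    have h1 : ∑ h : H, (charDegree (ξ : H → ℂ) : F) / (Nat.card H : F) *
          f ⟨(ξ : H → ℂ) h⁻¹, hval ξ h⁻¹⟩ *
        ((charDegree (ξ : H → ℂ) : F) / (Nat.card H : F) *
          f ⟨(ξ : H → ℂ) (h⁻¹ * g)⁻¹, hval ξ (h⁻¹ * g)⁻¹⟩) =
        (charDegree (ξ : H → ℂ) : F) / (Nat.card H : F) *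
          (((charDegree (ξ : H → ℂ) : F) *
            f (∑ h : H, (⟨(ξ : H → ℂ) h⁻¹, hval ξ h⁻¹⟩ : R) *
              ⟨(ξ : H → ℂ) (h⁻¹ * g)⁻¹, hval ξ _⟩)) / (Nat.card H : F)) := by
      rw [map_sum, Finset.mul_sum, Finset.sum_div, Finset.mul_sum]
      refine Finset.sum_congr rfl fun h _ => ?_
      rw [map_mul]
      ring
    rw [h1, key, mul_div_cancel_left₀ _ hH]
  · intro ξ c hc
    have hd := deg_ne_zero (F := F) hH ξ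
    refine ⟨(∑ h : H, c h * f ⟨(ξ : H → ℂ) h, hval ξ h⟩) / (charDegree (ξ : H → ℂ) : F), ?_⟩
    intro g
    -- S := ∑ h, c h * f ⟨ξ (h⁻¹ g)⁻¹⟩
    have hA : ∀ x : H, ∑ h : H, c h * f ⟨(ξ : H → ℂ) (h⁻¹ * g)⁻¹, hval ξ _⟩ =
        ∑ h : H, c h * f ⟨(ξ : H → ℂ) ((x * h * x⁻¹)⁻¹ * g)⁻¹, hval ξ _⟩ := by
      intro x
      rw [← Equiv.sum_comp (MulAut.conj x).toEquiv
        (fun h => c h * f ⟨(ξ : H → ℂ) (h⁻¹ * g)⁻¹, hval ξ _⟩)]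
      refine Finset.sum_congr rfl fun h _ => ?_
      simp only [MulEquiv.toEquiv_eq_coe, EquivLike.coe_coe, MulAut.conj_apply]
      rw [hc x h]
    have hB : (Nat.card H : F) * ∑ h : H, c h * f ⟨(ξ : H → ℂ) (h⁻¹ * g)⁻¹, hval ξ _⟩ =
        ∑ h : H, c h * f (∑ x : H, (⟨(ξ : H → ℂ) ((x * h * x⁻¹)⁻¹ * g)⁻¹, hval ξ _⟩ : R)) := by
      have h1 : (Nat.card H : F) * ∑ h : H, c h * f ⟨(ξ : H → ℂ) (h⁻¹ * g)⁻¹, hval ξ _⟩ =
          ∑ x : H, ∑ h : H, c h * f ⟨(ξ : H → ℂ) ((x * h * x⁻¹)⁻¹ * g)⁻¹, hval ξ _⟩ := by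
        rw [← Finset.sum_congr rfl (fun x _ => hA x), Finset.sum_const, Finset.card_univ,
          nsmul_eq_mul, Nat.card_eq_fintype_card]
      rw [h1, Finset.sum_comm]
      refine Finset.sum_congr rfl fun h _ => ?_
      rw [map_sum, Finset.mul_sum]
    have hC : (charDegree (ξ : H → ℂ) : F) *
        ((Nat.card H : F) * ∑ h : H, c h * f ⟨(ξ : H → ℂ) (h⁻¹ * g)⁻¹, hval ξ _⟩) =
        (Nat.card H : F) * ((∑ h : H, c h * f ⟨(ξ : H → ℂ) h, hval ξ h⟩) *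
          f ⟨(ξ : H → ℂ) g⁻¹, hval ξ g⁻¹⟩) := by
      rw [hB, Finset.mul_sum, Finset.sum_mul, Finset.mul_sum]
      refine Finset.sum_congr rfl fun h _ => ?_
      have := p_cent R f ξ (hval ξ) h g
      calc (charDegree (ξ : H → ℂ) : F) *
            (c h * f (∑ x : H, (⟨(ξ : H → ℂ) ((x * h * x⁻¹)⁻¹ * g)⁻¹, hval ξ _⟩ : R)))
          = c h * ((charDegree (ξ : H → ℂ) : F) *
            f (∑ x : H, (⟨(ξ : H → ℂ) ((x * h * x⁻¹)⁻¹ * g)⁻¹, hval ξ _⟩ : R))) := by ring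
        _ = _ := by rw [this]; ring
    have hS : ∑ h : H, c h * f ⟨(ξ : H → ℂ) (h⁻¹ * g)⁻¹, hval ξ _⟩ =
        (∑ h : H, c h * f ⟨(ξ : H → ℂ) h, hval ξ h⟩) / (charDegree (ξ : H → ℂ) : F) *
          f ⟨(ξ : H → ℂ) g⁻¹, hval ξ g⁻¹⟩ := by
      have h2 : (charDegree (ξ : H → ℂ) : F) *
          ∑ h : H, c h * f ⟨(ξ : H → ℂ) (h⁻¹ * g)⁻¹, hval ξ _⟩ =
          (∑ h : H, c h * f ⟨(ξ : H → ℂ) h, hval ξ h⟩) *
            f ⟨(ξ : H → ℂ) g⁻¹, hval ξ g⁻¹⟩ := by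
        apply mul_left_cancel₀ hH
        rw [← hC]
        ring
      rw [div_mul_eq_mul_div, eq_div_iff hd, mul_comm, h2]
    unfold Ecoef
    calc ∑ h : H, c h * ((charDegree (ξ : H → ℂ) : F) / (Nat.card H : F) *
          f ⟨(ξ : H → ℂ) (h⁻¹ * g)⁻¹, hval ξ (h⁻¹ * g)⁻¹⟩)
        = (charDegree (ξ : H → ℂ) : F) / (Nat.card H : F) *
          ∑ h : H, c h * f ⟨(ξ : H → ℂ) (h⁻¹ * g)⁻¹, hval ξ _⟩ := by
          rw [Finset.mul_sum]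
          refine Finset.sum_congr rfl fun h _ => ?_
          ring
      _ = _ := by rw [hS]; ring
  · rw [finsum_eq_sum_of_fintype]
    unfold Ecoef
    have h1 := p_reg_one R f hval
    calc ∑ ξ : IrrCharacter H, (charDegree (ξ : H → ℂ) : F) / (Nat.card H : F) *
          f ⟨(ξ : H → ℂ) (1 : H)⁻¹, hval ξ _⟩
        = (∑ ξ : IrrCharacter H, (charDegree (ξ : H → ℂ) : F) *
          f ⟨(ξ : H → ℂ) (1 : H)⁻¹, hval ξ _⟩) / (Nat.card H : F) := by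
          rw [Finset.sum_div]
          refine Finset.sum_congr rfl fun ξ _ => ?_
          ring
      _ = 1 := by rw [h1, div_self hH]
  · intro g hg
    rw [finsum_eq_sum_of_fintype]
    unfold Ecoef
    have h1 := p_reg_ne R f hval g hg
    calc ∑ ξ : IrrCharacter H, (charDegree (ξ : H → ℂ) : F) / (Nat.card H : F) *
          f ⟨(ξ : H → ℂ) g⁻¹, hval ξ _⟩
        = (∑ ξ : IrrCharacter H, (charDegree (ξ : H → ℂ) : F) *
          f ⟨(ξ : H → ℂ) g⁻¹, hval ξ _⟩) / (Nat.card H : F) := by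
          rw [Finset.sum_div]
          refine Finset.sum_congr rfl fun ξ _ => ?_
          ring
      _ = 0 := by rw [h1, zero_div]

end Cfsg.Agent.Lib.Helper34.TGM
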