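import Cfsg.Agent.Lib.Helper34.TGSIDE0
import Cfsg.Agent.Lib.Helper83.TGCLIFF
import Cfsg.Agent.Lib.Helper83.TGORTH
import Cfsg.Agent.Lib.Helper48.TGCJ

/-!
# TG project, piece SIDE (helper34): `side_core` with only the piece MOD as a hypothesis.
-/

set_option autoImplicit false

namespace Cfsg.Agent.Lib.Helper34.TG

open Cfsg Cfsg.Agent.Lib.Helper22.TG
open scoped ComplexConjugate

/-- PIECE SIDE, with the conclusion of `mod_main` (for `H := ↥N₀`, `V := Q`) as the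
hypothesis `MOD`. -/
theorem side_core_of_mod {G : Type*} [Group G] [Fintype G] (p : ℕ) [Fact p.Prime]
    (K N₀ : Subgroup G) [Fintype ↥K] [Fintype ↥N₀] (hKN : K ≤ N₀) (hpN : ¬ p ∣ Nat.card N₀)
    (hnorm : ∀ h ∈ N₀, ∀ y ∈ K, h * y * h⁻¹ ∈ K)
    (hcyc : ∃ g ∈ N₀, ∀ h ∈ N₀, ∃ (i : ℕ), ∃ y ∈ K, h = g ^ i * y)
    (m : ℕ) (hm0 : 0 < m) (hexp : ∀ h ∈ N₀, h ^ m = 1)
    (ω : ℂ) (hω : IsPrimitiveRoot ω m) (θ : IrrCharacter K)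
    {Q : Type*} [AddCommGroup Q] (hQ : ∀ v : Q, (p : ℤ) • v = 0)
    (ρQ : ↥N₀ →* (Q →ₗ[ℤ] Q))
    (φQ : Subring.closure ({ω} : Set ℂ) →+* (Q →ₗ[ℤ] Q))
    (hφρ : ∀ a h, φQ a ∘ₗ ρQ h = ρQ h ∘ₗ φQ a)
    (hΘ : ∀ y : K, Tht K (θ : K → ℂ) N₀ y ∈ Subring.closure ({ω} : Set ℂ))
    (hE : ∀ v : Q, (charDegree (θ : K → ℂ) : ℤ) •
      (∑ y : K, φQ ⟨Tht K (θ : K → ℂ) N₀ y⁻¹, hΘ y⁻¹⟩ (ρQ ⟨(y : G), hKN y.2⟩ v)) =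
        (Nat.card K : ℤ) • v)
    (MOD : ∀ (hval : ∀ (ξ : IrrCharacter ↥N₀) (h : ↥N₀),
        (ξ : ↥N₀ → ℂ) h ∈ Subring.closure ({ω} : Set ℂ)),
      ∃ (ξ : IrrCharacter ↥N₀) (π : Q →ₗ[ℤ] Q), π ∘ₗ π = π ∧ π ≠ 0 ∧
      (∀ h, π ∘ₗ ρQ h = ρQ h ∘ₗ π) ∧ (∀ a, π ∘ₗ φQ a = φQ a ∘ₗ π) ∧
      Nat.card (LinearMap.range π) =
        p ^ (orderOf ((p : ZMod m)) * charDegree (ξ : ↥N₀ → ℂ)) ∧
      ∀ v ∈ LinearMap.range π,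
        (charDegree (ξ : ↥N₀ → ℂ) : ℤ) •
          (∑ h : ↥N₀, φQ ⟨(ξ : ↥N₀ → ℂ) h⁻¹, hval ξ h⁻¹⟩ (ρQ h v)) =
            (Nat.card ↥N₀ : ℤ) • v) :
    ∃ π : Q →ₗ[ℤ] Q, π ∘ₗ π = π ∧ (∀ h, π ∘ₗ ρQ h = ρQ h ∘ₗ π) ∧
      (∀ a, π ∘ₗ φQ a = φQ a ∘ₗ π) ∧
      Nat.card (LinearMap.range π) = p ^ (orderOf ((p : ZMod m)) *
        (Nat.card (orb K (θ : K → ℂ) N₀) * charDegree (θ : K → ℂ))) := by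
  have hexp' : ∀ h : ↥N₀, h ^ m = 1 := fun h => Subtype.ext (by simpa using hexp h h.2)
  have hval : ∀ (ξ : IrrCharacter ↥N₀) (h : ↥N₀),
      (ξ : ↥N₀ → ℂ) h ∈ Subring.closure ({ω} : Set ℂ) :=
    fun ξ h => char_mem_closure m hm0 ω hω _ ξ.2 h (hexp' h)
  have hn1 : ∀ n ∈ N₀, ∀ y ∈ K, n⁻¹ * y * n ∈ K := fun n hn y hy => by
    simpa using hnorm n⁻¹ (N₀.inv_mem hn) y hy
  exact side_core_of p K N₀ hKN hpN m ω θ hQ ρQ φQ hφρ hΘ hE hval (MOD hval)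
    (fun θ' ξ hne => Cfsg.Agent.Lib.Helper83.TG.cliff_cyc N₀ K hKN hnorm hcyc θ' ξ hne)
    (fun ξ f hf h0 x => Cfsg.Agent.Lib.Helper83.TG.orth_res N₀ K hKN ξ f hf h0 x)
    (fun n hn => Cfsg.Agent.Lib.Helper48.TG.cj_irr K _ θ.2 n (hn1 n hn) (hnorm n hn))
    (fun n _ n' hn' => Cfsg.Agent.Lib.Helper48.TG.cj_cj K _ n n' (hn1 n' hn'))

end Cfsg.Agent.Lib.Helper34.TG
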