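import Mathlib
import Cfsg.Agent.Lib.Helper26.GrossDefs
import Cfsg.Agent.Lib.Helper26.FrobMod

set_option autoImplicit false

open scoped commutatorElement
open Cfsg.Agent.Lib.Helper26

universe u

namespace Cfsg.Agent.Lib.Helper34

namespace GrossG2

variable {k : Type*} [Field k] {W : Type*} [AddCommGroup W] [Module k W]

/-- conjugation action of units on `End W`, as linear endomorphisms of `End W` -/
def cj0 : (Module.End k W)ˣ →* Module.End k (Module.End k W) where
  toFun x :=
    { toFun := fun f => (x : Module.End k W) * f * ((x⁻¹ : (Module.End k W)ˣ) : Module.End k W)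
      map_add' := fun f g => by
        show (x : Module.End k W) * (f + g) * ((x⁻¹ : (Module.End k W)ˣ) : Module.End k W) =
          (x : Module.End k W) * f * ((x⁻¹ : (Module.End k W)ˣ) : Module.End k W) +
          (x : Module.End k W) * g * ((x⁻¹ : (Module.End k W)ˣ) : Module.End k W)
        rw [mul_add, add_mul]
      map_smul' := fun c f => by
        show (x : Module.End k W) * (c • f) * ((x⁻¹ : (Module.End k W)ˣ) : Module.End k W) =
          c • ((x : Module.End k W) * f * ((x⁻¹ : (Module.End k W)ˣ) : Module.End k W))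
        rw [mul_smul_comm, smul_mul_assoc] }
  map_one' := by
    refine LinearMap.ext (fun f => ?_)
    show ((1 : (Module.End k W)ˣ) : Module.End k W) * f *
      (((1 : (Module.End k W)ˣ)⁻¹ : (Module.End k W)ˣ) : Module.End k W) = f
    simp
  map_mul' := fun x y => by
    refine LinearMap.ext (fun f => ?_)
    show ((x * y : (Module.End k W)ˣ) : Module.End k W) * f *
      (((x * y)⁻¹ : (Module.End k W)ˣ) : Module.End k W) =
      (x : Module.End k W) * ((y : Module.End k W) * f *
        ((y⁻¹ : (Module.End k W)ˣ) : Module.End k W)) *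
        ((x⁻¹ : (Module.End k W)ˣ) : Module.End k W)
    rw [mul_inv_rev, Units.val_mul, Units.val_mul]
    simp only [mul_assoc]

/-- conjugation action of units on `End W`, as units of `End (End W)` -/
def cj : (Module.End k W)ˣ →* (Module.End k (Module.End k W))ˣ := cj0.toHomUnits

theorem cj_smul (x : (Module.End k W)ˣ) (f : Module.End k W) :
    cj x • f = (x : Module.End k W) * f * ((x⁻¹ : (Module.End k W)ˣ) : Module.End k W) := rfl

theorem cj_fix_iff (x : (Module.End k W)ˣ) (f : Module.End k W) :
    cj x • f = f ↔ (x : Module.End k W) * f = f * (x : Module.End k W) := by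
  rw [cj_smul]
  constructor
  · intro h
    calc (x : Module.End k W) * f
        = (x : Module.End k W) * f * ((x⁻¹ : (Module.End k W)ˣ) : Module.End k W) *
            (x : Module.End k W) := by
          rw [mul_assoc ((x : Module.End k W) * f), Units.inv_mul, mul_one]
      _ = f * x := by rw [h]
  · intro h
    rw [h, mul_assoc, Units.mul_inv, mul_one]

theorem cj_eq_one_iff (x : (Module.End k W)ˣ) :
    cj x = 1 ↔ ∀ f : Module.End k W, (x : Module.End k W) * f = f * (x : Module.End k W) := by
  constructor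
  · intro h f
    rw [← cj_fix_iff, h, one_smul]
  · intro h
    refine Units.ext (LinearMap.ext (fun f => ?_))
    exact (cj_fix_iff x f).mpr (h f)

end GrossG2

open GrossG2 in
theorem gross_hh_G2 {k : Type*} [Field k] [Finite k] {W : Type*} [AddCommGroup W] [Module k W]
    [Module.Finite k W]
    (Q : Subgroup (Module.End k W)ˣ) (t : (Module.End k W)ˣ) (a : ℕ) (hord : orderOf t = a)
    (ha : 1 < a)
    (hnorm : ∀ x ∈ Q, t * x * t⁻¹ ∈ Q)
    (hsc : ∀ z ∈ Q, (∀ w ∈ Q, z * w = w * z) → ∃ c : k, ∀ v : W, (z : Module.End k W) v = c • v)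
    (hfpf : ∀ s ∈ Subgroup.zpowers t, s ≠ 1 → ∀ x ∈ Q,
      (∀ w ∈ Q, (x⁻¹ * (s * x * s⁻¹)) * w = w * (x⁻¹ * (s * x * s⁻¹))) → ∀ w ∈ Q, x * w = w * x)
    (hnc : ∃ x ∈ Q, ∃ y ∈ Q, x * y ≠ y * x)
    (hcQ : (Nat.card Q).Coprime (Nat.card k)) (hca : a.Coprime (Nat.card k)) :
    a * Module.finrank k ↥(grossComm ({t} : Set (Module.End k W)ˣ)) +
        Module.finrank k ↥(grossComm (Q : Set (Module.End k W)ˣ)) ≤
      a * Module.finrank k ↥(grossComm (Q : Set (Module.End k W)ˣ)) +
        Module.finrank k (Module.End k W) := by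
  classical
  haveI hfinM : Finite (Module.End k W) := gross_finite_end
  haveI hfinU : Finite (Module.End k W)ˣ := gross_finite_units
  haveI hfinΓ : Finite (Module.End k (Module.End k W))ˣ := gross_finite_units
  -- nat power representation
  have hzp : ∀ s ∈ Subgroup.zpowers t, ∃ m : ℕ, s = t ^ m := by
    intro s hs
    rw [← mem_powers_iff_mem_zpowers] at hs
    obtain ⟨m, hm⟩ := hs
    exact ⟨m, hm.symm⟩
  -- zpowers t normalizes Q
  have hnormP : ∀ m : ℕ, ∀ x ∈ Q, t ^ m * x * (t ^ m)⁻¹ ∈ Q := by
    intro m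
    induction m with
    | zero => intro x hx; simpa using hx
    | succ m ih =>
      intro x hx
      have := hnorm _ (ih x hx)
      have e : t ^ (m + 1) * x * (t ^ (m + 1))⁻¹ = t * (t ^ m * x * (t ^ m)⁻¹) * t⁻¹ := by
        rw [pow_succ']; group
      rw [e]; exact this
  have hnormZ : ∀ s ∈ Subgroup.zpowers t, ∀ x ∈ Q, s * x * s⁻¹ ∈ Q := by
    intro s hs x hx
    obtain ⟨m, rfl⟩ := hzp s hs
    exact hnormP m x hx
  -- central elements of Q act trivially
  have hcent : ∀ x ∈ Q, (∀ w ∈ Q, x * w = w * x) → cj x = 1 := by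
    intro x hx hxc
    obtain ⟨c, hc⟩ := hsc x hx hxc
    rw [cj_eq_one_iff]
    intro f
    apply LinearMap.ext
    intro v
    show (x : Module.End k W) (f v) = f ((x : Module.End k W) v)
    rw [hc, hc, map_smul]
  -- injectivity on zpowers t
  have hinj : ∀ s ∈ Subgroup.zpowers t, cj s = 1 → s = 1 := by
    intro s hs hs1
    by_contra hne
    obtain ⟨x, hx, y, hy, hxy⟩ := hnc
    apply hxy
    apply hfpf s hs hne x hx _ y hy
    intro w hw
    have hsx : s * x * s⁻¹ = x := by
      have h1 := (cj_eq_one_iff s).mp hs1 (x : Module.End k W)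
      have h2 : s * x = x * s := Units.ext (by rw [Units.val_mul, Units.val_mul]; exact h1)
      rw [h2]; group
    rw [hsx]; group
  obtain ⟨U, hU⟩ : ∃ U : Subgroup ((Module.End k (Module.End k W))ˣ), U = Q.map cj := ⟨_, rfl⟩
  obtain ⟨E, hE⟩ : ∃ E : Subgroup ((Module.End k (Module.End k W))ˣ),
      E = (Subgroup.zpowers t).map cj := ⟨_, rfl⟩
  have hEU : ∀ e ∈ E, ∀ u ∈ U, e * u * e⁻¹ ∈ U := by
    intro e he u hu
    rw [hE] at he; rw [hU] at hu ⊢
    obtain ⟨s, hs, rfl⟩ := he
    obtain ⟨x, hx, rfl⟩ := hu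
    refine ⟨s * x * s⁻¹, hnormZ s hs x hx, ?_⟩
    rw [map_mul, map_mul, map_inv]
  have hfpf' : ∀ e ∈ E, e ≠ 1 → ∀ u ∈ U, e * u = u * e → u = 1 := by
    intro e he hne u hu hcomm
    rw [hE] at he; rw [hU] at hu
    obtain ⟨s, hs, rfl⟩ := he
    obtain ⟨x, hx, rfl⟩ := hu
    have hs1 : s ≠ 1 := by
      rintro rfl; exact hne (map_one _)
    apply hcent x hx
    apply hfpf s hs hs1 x hx
    intro w hw
    have h1 : cj (x⁻¹ * (s * x * s⁻¹)) = (1 : (Module.End k (Module.End k W))ˣ) := by
      rw [map_mul, map_mul, map_mul, map_inv, map_inv, hcomm]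
      group
    have h2 := (cj_eq_one_iff _).mp h1 (w : Module.End k W)
    exact Units.ext (by rw [Units.val_mul, Units.val_mul]; exact h2)
  have hKpos : 1 < Nat.card k := Finite.one_lt_card
  have hcardM : Nat.card (Module.End k W) = Nat.card k ^ Module.finrank k (Module.End k W) :=
    Module.natCard_eq_pow_finrank
  have hcU : (Nat.card U).Coprime (Nat.card (Module.End k W)) := by
    rw [hcardM]
    apply Nat.Coprime.pow_right
    have : Nat.card U ∣ Nat.card Q := by rw [hU]; exact Subgroup.card_map_dvd Q cj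
    exact Nat.Coprime.coprime_dvd_left this hcQ
  have hEcard : Nat.card E = a := by
    have h1 := frob_card_map_ker cj (Subgroup.zpowers t)
    have h2 : Subgroup.zpowers t ⊓ cj.ker = ⊥ := by
      rw [eq_bot_iff]
      intro s hs
      obtain ⟨hs1, hsk⟩ := Subgroup.mem_inf.mp hs
      exact Subgroup.mem_bot.mpr (hinj s hs1 (MonoidHom.mem_ker.mp hsk))
    rw [h2, Subgroup.card_bot, mul_one, Nat.card_zpowers, hord] at h1
    rw [hE]; exact h1
  have hcE : (Nat.card E).Coprime (Nat.card (Module.End k W)) := by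
    rw [hEcard, hcardM]; exact Nat.Coprime.pow_right _ hca
  have key := frob_mod (V := Module.End k W) U E hEU hfpf' hcU hcE
  rw [hEcard] at key
  have hFixU : Nat.card ↥(frobFix (Module.End k W) (U : Set ((Module.End k (Module.End k W))ˣ))) =
      Nat.card k ^ Module.finrank k ↥(grossComm (Q : Set (Module.End k W)ˣ)) := by
    rw [← Module.natCard_eq_pow_finrank (K := k)
      (V := ↥(grossComm (Q : Set (Module.End k W)ˣ)))]
    apply Nat.card_congr
    apply Equiv.subtypeEquivRight
    intro f
    constructor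
    · intro h x hx
      have := h (cj x) (by rw [hU]; exact ⟨x, hx, rfl⟩)
      exact (cj_fix_iff x f).mp this
    · intro h g hg
      rw [hU] at hg
      obtain ⟨x, hx, rfl⟩ := hg
      exact (cj_fix_iff x f).mpr (h x hx)
  have hFixE : Nat.card ↥(frobFix (Module.End k W) (E : Set ((Module.End k (Module.End k W))ˣ))) =
      Nat.card k ^ Module.finrank k ↥(grossComm ({t} : Set (Module.End k W)ˣ)) := by
    rw [← Module.natCard_eq_pow_finrank (K := k)
      (V := ↥(grossComm ({t} : Set (Module.End k W)ˣ)))]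
    apply Nat.card_congr
    apply Equiv.subtypeEquivRight
    intro f
    constructor
    · intro h x hx
      rw [Set.mem_singleton_iff] at hx
      subst hx
      have := h (cj x) (by rw [hE]; exact ⟨x, Subgroup.mem_zpowers x, rfl⟩)
      exact (cj_fix_iff x f).mp this
    · intro h g hg
      rw [hE] at hg
      obtain ⟨s, hs, rfl⟩ := hg
      obtain ⟨m, rfl⟩ := hzp s hs
      apply (cj_fix_iff _ f).mpr
      rw [Units.val_pow_eq_pow_val]
      exact ((show Commute (t : Module.End k W) f from h t (Set.mem_singleton t)).pow_left m).eq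
  have hFixUE : Nat.card ↥(frobFix (Module.End k W)
      ((U ⊔ E : Subgroup ((Module.End k (Module.End k W))ˣ)) : Set ((Module.End k (Module.End k W))ˣ))) ≤
      Nat.card ↥(frobFix (Module.End k W) (U : Set ((Module.End k (Module.End k W))ˣ))) := by
    apply Nat.card_le_card_of_injective
      (fun f : ↥(frobFix (Module.End k W)
        ((U ⊔ E : Subgroup ((Module.End k (Module.End k W))ˣ)) : Set ((Module.End k (Module.End k W))ˣ))) =>
        (⟨f.1, fun g hg => f.2 g ((le_sup_left : U ≤ U ⊔ E) hg)⟩ :
          ↥(frobFix (Module.End k W) (U : Set ((Module.End k (Module.End k W))ˣ)))))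
    intro f g h
    have h' := Subtype.ext_iff.mp h
    exact Subtype.ext h'
  rw [hFixE, hFixU, hcardM] at key
  have h3 : Nat.card k ^ (a * Module.finrank k ↥(grossComm ({t} : Set (Module.End k W)ˣ)) +
        Module.finrank k ↥(grossComm (Q : Set (Module.End k W)ˣ))) ≤
      Nat.card k ^ (a * Module.finrank k ↥(grossComm (Q : Set (Module.End k W)ˣ)) +
        Module.finrank k (Module.End k W)) := by
    rw [pow_add, pow_mul', ← key, pow_add, pow_mul']
    exact Nat.mul_le_mul_right _ (Nat.pow_le_pow_left (hFixUE.trans_eq hFixU) a)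
  exact (Nat.pow_le_pow_iff_right hKpos).mp h3

end Cfsg.Agent.Lib.Helper34
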