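import Cfsg.Agent.Lib.Helper27.ChevDyn
import Cfsg.Agent.Lib.Helper24.ChevGL

set_option autoImplicit false

namespace Cfsg.Agent.Lib.Helper34.ChevDynP

open Cfsg.Lie Cfsg.Agent.Lib.Helper27.PslnOut Cfsg.Agent.Lib.Helper27.DynOut
  Cfsg.Agent.Lib.Helper27.ChevDyn
open Cfsg.Agent.Lib.Helper24

variable {F : Type*} [Field F] (D : ChevalleyDatum)

theorem pu_xg_val (hD : D ∈ lst) (r : ℕ) (a : F) :
    ((xg D r a : GL D.Idx F) : Matrix D.Idx D.Idx F) = D.x F r a := by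
  have hD' : D ∈ chevList := hD
  have hex : ∃ g : ↥(D.group F), ((g : GL D.Idx F) : Matrix D.Idx D.Idx F) = D.x F r a :=
    ⟨⟨xGL D hD' r a, xGL_mem_group D hD' r a⟩, xGL_val D hD' r a⟩
  unfold xg
  rw [dif_pos hex]
  exact hex.choose_spec

/-- an automorphism permuting the root elements along `ρ` preserves the subgroup generated by
the root elements of a `ρ`-stable set of roots -/
theorem pu_aux [Finite F] (hD : D ∈ lst) (φ : ↥(D.group F) ≃* ↥(D.group F)) (ρ : ℕ → ℕ)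
    (P : ℕ → Prop) (hP : ∀ r, P r → r < D.nroots) (hρ : ∀ r, P r → P (ρ r))
    (hφ : ∀ r, r < D.nroots → ∀ a : F, ∃ a' : F, φ (xg D r a) = xg D (ρ r) a') :
    ∀ g : ↥(D.group F),
      φ g ∈ (Subgroup.closure {g : GL D.Idx F | ∃ (r : ℕ) (t : F), P r ∧
        (g : Matrix D.Idx D.Idx F) = D.x F r t}).subgroupOf (D.group F) ↔
      g ∈ (Subgroup.closure {g : GL D.Idx F | ∃ (r : ℕ) (t : F), P r ∧
        (g : Matrix D.Idx D.Idx F) = D.x F r t}).subgroupOf (D.group F) := by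
  have hD' : D ∈ chevList := hD
  obtain ⟨K, hK⟩ : ∃ K : Subgroup ↥(D.group F), K =
      (Subgroup.closure {g : GL D.Idx F | ∃ (r : ℕ) (t : F), P r ∧
        (g : Matrix D.Idx D.Idx F) = D.x F r t}).subgroupOf (D.group F) := ⟨_, rfl⟩
  rw [← hK]
  -- `φ` maps `K` into `K`
  have hmap : ∀ x : GL D.Idx F, x ∈ Subgroup.closure {g : GL D.Idx F | ∃ (r : ℕ) (t : F), P r ∧
      (g : Matrix D.Idx D.Idx F) = D.x F r t} →
      ∃ hxG : x ∈ D.group F, φ ⟨x, hxG⟩ ∈ K := by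
    intro x hx
    induction hx using Subgroup.closure_induction with
    | mem x hx =>
      obtain ⟨r, t, hr, hx⟩ := hx
      refine ⟨mem_group_of_val_x D hD' x r t hx, ?_⟩
      have e1 : (⟨x, mem_group_of_val_x D hD' x r t hx⟩ : ↥(D.group F)) = xg D r t := by
        apply Subtype.ext
        apply Units.ext
        show (x : Matrix D.Idx D.Idx F) = ((xg D r t : GL D.Idx F) : Matrix D.Idx D.Idx F)
        rw [pu_xg_val D hD, hx]
      obtain ⟨a', ha'⟩ := hφ r (hP r hr) t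
      rw [e1, ha', hK]
      apply Subgroup.mem_subgroupOf.2
      exact Subgroup.subset_closure ⟨ρ r, a', hρ r hr, pu_xg_val D hD (ρ r) a'⟩
    | one =>
      refine ⟨one_mem _, ?_⟩
      have e1 : (⟨1, one_mem _⟩ : ↥(D.group F)) = 1 := rfl
      rw [e1, map_one]
      exact one_mem _
    | mul x y _ _ ihx ihy =>
      obtain ⟨hxG, hx⟩ := ihx
      obtain ⟨hyG, hy⟩ := ihy
      refine ⟨mul_mem hxG hyG, ?_⟩
      have e1 : (⟨x * y, mul_mem hxG hyG⟩ : ↥(D.group F)) = ⟨x, hxG⟩ * ⟨y, hyG⟩ := rfl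
      rw [e1, map_mul]
      exact mul_mem hx hy
    | inv x _ ihx =>
      obtain ⟨hxG, hx⟩ := ihx
      refine ⟨inv_mem hxG, ?_⟩
      have e1 : (⟨x⁻¹, inv_mem hxG⟩ : ↥(D.group F)) = (⟨x, hxG⟩ : ↥(D.group F))⁻¹ := rfl
      rw [e1, map_inv]
      exact inv_mem hx
  have hle : K.map φ.toMonoidHom ≤ K := by
    rintro _ ⟨g, hg, rfl⟩
    have hg' : (g : GL D.Idx F) ∈ Subgroup.closure {g : GL D.Idx F | ∃ (r : ℕ) (t : F), P r ∧
        (g : Matrix D.Idx D.Idx F) = D.x F r t} := by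
      rw [hK] at hg; exact Subgroup.mem_subgroupOf.1 hg
    obtain ⟨hxG, hx⟩ := hmap _ hg'
    exact hx
  have heq : K.map φ.toMonoidHom = K :=
    Subgroup.eq_of_le_of_card_ge hle
      (le_of_eq (Subgroup.card_map_of_injective φ.injective).symm)
  intro g
  constructor
  · intro h
    rw [← heq] at h
    exact (Subgroup.mem_map_iff_mem (f := φ.toMonoidHom) φ.injective).1 h
  · intro h
    rw [← heq]
    exact (Subgroup.mem_map_iff_mem (f := φ.toMonoidHom) φ.injective).2 h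

/-- PU: an automorphism permuting the root subgroups by a map of the roots that preserves
positive and negative roots preserves `U` and `V` -/
theorem pieceU [Finite F] (hD : D ∈ lst) (φ : ↥(D.group F) ≃* ↥(D.group F)) (ρ : ℕ → ℕ)
    (hρ : ∀ r, D.IsPosRoot r → D.IsPosRoot (ρ r)) (hρ' : ∀ r, D.IsNegRoot r → D.IsNegRoot (ρ r))
    (hφ : ∀ r, r < D.nroots → ∀ a : F, ∃ a' : F, φ (xg D r a) = xg D (ρ r) a') :
    (∀ g, φ g ∈ Ug F D ↔ g ∈ Ug F D) ∧ (∀ g, φ g ∈ Vg F D ↔ g ∈ Vg F D) :=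
  ⟨pu_aux D hD φ ρ D.IsPosRoot (fun r hr => hr.1) hρ hφ,
    pu_aux D hD φ ρ D.IsNegRoot (fun r hr => hr.1) hρ' hφ⟩

end Cfsg.Agent.Lib.Helper34.ChevDynP
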