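import Cfsg.Agent.Lib.Helper27.ChevDyn
import Cfsg.Agent.Lib.Helper25.ChevBnB
import Cfsg.Agent.Lib.Helper24.ChevBorel
import Cfsg.Agent.Lib.Helper24.ChevGL

set_option autoImplicit false

namespace Cfsg.Agent.Lib.Helper34.ChevDynP

open Cfsg.Lie Cfsg.Agent.Lib.Helper27.PslnOut Cfsg.Agent.Lib.Helper27.DynOut
  Cfsg.Agent.Lib.Helper27.ChevDyn
open Cfsg.Agent.Lib.Helper24 Cfsg.Agent.Lib.Helper25

variable {F : Type*} [Field F] (D : ChevalleyDatum)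

/-- PT3: `B = U H` -/
theorem pieceT_borel (hD : D ∈ lst) (t : ↥(D.group F)) (ht : t ∈ Bg F D) :
    ∃ u ∈ Ug F D, ∃ h ∈ Hg F D, t = u * h := by
  have hD' : D ∈ chevList := hD
  have hHU : D.diagonalSubgroup F ≤
      Subgroup.normalizer (D.posUnipotent F : Set (GL D.Idx F)) :=
    diagonal_le_normalizer_rootGen D hD' D.IsPosRoot (fun r hr => hr.1)
  have ht' : (t : GL D.Idx F) ∈ D.posUnipotent F ⊔ D.diagonalSubgroup F :=
    Subgroup.mem_subgroupOf.1 ht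
  obtain ⟨u, hu, h, hh, e⟩ := mem_sup_of_le_normalizer _ _ hHU _ ht'
  refine ⟨⟨u, posUnipotent_le_group D hD' hu⟩, Subgroup.mem_subgroupOf.2 hu,
    ⟨h, diagonalSubgroup_le_group D hD' hh⟩, Subgroup.mem_subgroupOf.2 hh, ?_⟩
  exact Subtype.ext e

end Cfsg.Agent.Lib.Helper34.ChevDynP
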