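import Cfsg.Agent.Lib.Helper27.ChevDyn
import Cfsg.Agent.Lib.Helper25.ChevBruhat
import Cfsg.Agent.Lib.Helper25.ChevW0Data
import Cfsg.Agent.Lib.Helper25.ChevOrbData

set_option autoImplicit false

namespace Cfsg.Agent.Lib.Helper34.ChevDynP

open Cfsg.Lie Cfsg.Agent.Lib.Helper27.PslnOut Cfsg.Agent.Lib.Helper27.DynOut
  Cfsg.Agent.Lib.Helper27.ChevDyn
open Cfsg.Agent.Lib.Helper24 Cfsg.Agent.Lib.Helper25

variable {F : Type*} [Field F] (D : ChevalleyDatum)

/-- the matrix of a conjugate of a root element -/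
theorem pb3_conj_val (n g₀ : GL D.Idx F) (r s : ℕ) (t c : F)
    (hg : (g₀ : Matrix D.Idx D.Idx F) = D.x F r t)
    (hc : (n : Matrix D.Idx D.Idx F) * D.x F r t =
      D.x F s (c * t) * (n : Matrix D.Idx D.Idx F)) :
    ((n * g₀ * n⁻¹ : GL D.Idx F) : Matrix D.Idx D.Idx F) = D.x F s (c * t) := by
  rw [Units.val_mul, Units.val_mul, hg, hc, Matrix.mul_assoc, ← Units.val_mul, mul_inv_cancel,
    Units.val_one, Matrix.mul_one]

/-- a monomial element `n` with `n U n⁻¹ ⊓ U = 1` conjugates `U` onto `V` -/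
theorem pb3_map_conj_eq_neg [Finite F] (hD : D ∈ lst) (n : GL D.Idx F)
    (hn : n ∈ D.monomialSubgroup F)
    (h : ∀ k ∈ D.posUnipotent F, n * k * n⁻¹ ∈ D.posUnipotent F → k = 1) :
    (D.posUnipotent F).map (MulAut.conj n).toMonoidHom = D.negUnipotent F := by
  have hD1 : D ∈ [chevG2, chevB2, chevD4, chevF4, chevE6, chevE7, chevE8] := hD
  have hD' : D ∈ chevList := hD
  obtain ⟨L, hL, hact⟩ := monomial_act D hD1 (orb_all D hD1) n hn
  have hneg : ∀ r, D.IsPosRoot r → D.IsNegRoot (wPi D L r) := by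
    intro r hr
    have hπ : wPi D L r < D.nroots := wPi_lt D hD1 L hL r hr.1
    rcases (sign_facts D hD1 _ hπ).1 with hp | hq
    · exfalso
      obtain ⟨c, hc0, hc⟩ := hact r hr.1
      have hk : xGL D hD' r (1 : F) ∈ D.posUnipotent F :=
        Subgroup.subset_closure ⟨r, 1, hr, xGL_val D hD' r 1⟩
      have hk2 : n * xGL D hD' r (1 : F) * n⁻¹ ∈ D.posUnipotent F :=
        Subgroup.subset_closure ⟨wPi D L r, c * 1, hp,
          pb3_conj_val D n _ r _ 1 c (xGL_val D hD' r 1) (hc 1)⟩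
      have h1 := h _ hk hk2
      apply x_ne_one D hD1 r hr.1 (1 : F) one_ne_zero
      rw [← xGL_val D hD' r 1, h1, Units.val_one]
    · exact hq
  have hle : (D.posUnipotent F).map (MulAut.conj n).toMonoidHom ≤ D.negUnipotent F := by
    unfold ChevalleyDatum.posUnipotent
    rw [MonoidHom.map_closure, Subgroup.closure_le]
    rintro _ ⟨g₀, ⟨r, t, hr, hg₀⟩, rfl⟩
    obtain ⟨c, hc0, hc⟩ := hact r hr.1
    show n * g₀ * n⁻¹ ∈ D.negUnipotent F
    exact Subgroup.subset_closure ⟨wPi D L r, c * t, hneg r hr,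
      pb3_conj_val D n g₀ r _ t c hg₀ (hc t)⟩
  obtain ⟨n0, hn0, hn0e⟩ := exists_w0_conj (F := F) D hD1
  have hinj : ∀ m : GL D.Idx F, Function.Injective (MulAut.conj m).toMonoidHom :=
    fun m => (MulAut.conj m).injective
  have hcard : Nat.card ↥(D.negUnipotent F) ≤
      Nat.card ↥((D.posUnipotent F).map (MulAut.conj n).toMonoidHom) := by
    rw [← hn0e, Subgroup.card_map_of_injective (hinj n0),
      Subgroup.card_map_of_injective (hinj n)]
  exact Subgroup.eq_of_le_of_card_ge hle hcard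

/-- PB3 -/
theorem pieceB_opp [Finite F] (hD : D ∈ lst) :
    ∀ g : ↥(D.group F), (∀ k, k ∈ Ug F D → g * k * g⁻¹ ∈ Ug F D → k = 1) →
      ∃ u ∈ Bg F D, ∀ k, k ∈ Ug F D ↔ u⁻¹ * (g * k * g⁻¹) * u ∈ Vg F D := by
  intro g hg
  have hD1 : D ∈ [chevG2, chevB2, chevD4, chevF4, chevE6, chevE7, chevE8] := hD
  have hD' : D ∈ chevList := hD
  obtain ⟨b, hb, n, hn, u', hu', e⟩ := bruhat_exists D hD1 (g : GL D.Idx F) g.2
  have hu'U : u' ∈ D.posUnipotent F := by
    have hle : Subgroup.closure {x : GL D.Idx F | ∃ (r : ℕ) (t : F), D.IsPosRoot r ∧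
        (D.rootSubgroup F r).map (MulAut.conj n).toMonoidHom ≤ D.negUnipotent F ∧
        (x : Matrix D.Idx D.Idx F) = D.x F r t} ≤ D.posUnipotent F := by
      unfold ChevalleyDatum.posUnipotent
      apply Subgroup.closure_mono
      rintro x ⟨r, t, hr, _, hx⟩
      exact ⟨r, t, hr, hx⟩
    exact hle hu'
  have hHU : D.diagonalSubgroup F ≤
      Subgroup.normalizer (D.posUnipotent F : Set (GL D.Idx F)) :=
    diagonal_le_normalizer_rootGen D hD' D.IsPosRoot (fun r hr => hr.1)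
  have hBU : D.borelSubgroup F ≤
      Subgroup.normalizer (D.posUnipotent F : Set (GL D.Idx F)) :=
    sup_le Subgroup.le_normalizer hHU
  have hbconj : ∀ x ∈ D.posUnipotent F, b * x * b⁻¹ ∈ D.posUnipotent F := fun x hx =>
    ((Subgroup.mem_set_normalizer_iff.1 (hBU hb)) x).1 hx
  have hUG := posUnipotent_le_group (F := F) D hD'
  have hBG := borelSubgroup_le_group (F := F) D hD'
  -- the hypothesis for `n`
  have hnU : ∀ k ∈ D.posUnipotent F, n * k * n⁻¹ ∈ D.posUnipotent F → k = 1 := by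
    intro k hk hnk
    have hk' : u'⁻¹ * k * u' ∈ D.posUnipotent F :=
      mul_mem (mul_mem (inv_mem hu'U) hk) hu'U
    have hmem1 : (⟨u'⁻¹ * k * u', hUG hk'⟩ : ↥(D.group F)) ∈ Ug F D :=
      Subgroup.mem_subgroupOf.2 hk'
    have hmem2 : g * (⟨u'⁻¹ * k * u', hUG hk'⟩ : ↥(D.group F)) * g⁻¹ ∈ Ug F D := by
      apply Subgroup.mem_subgroupOf.2
      show (g : GL D.Idx F) * (u'⁻¹ * k * u') * (g : GL D.Idx F)⁻¹ ∈ D.posUnipotent F
      have e2 : (g : GL D.Idx F) * (u'⁻¹ * k * u') * (g : GL D.Idx F)⁻¹ =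
          b * (n * k * n⁻¹) * b⁻¹ := by
        rw [e]; group
      rw [e2]; exact hbconj _ hnk
    have h1 := hg _ hmem1 hmem2
    have h2 : u'⁻¹ * k * u' = 1 := congrArg Subtype.val h1
    calc k = u' * (u'⁻¹ * k * u') * u'⁻¹ := by group
      _ = 1 := by rw [h2]; group
  have hmap := pb3_map_conj_eq_neg D hD n hn hnU
  refine ⟨⟨b, hBG hb⟩, Subgroup.mem_subgroupOf.2 hb, fun k => ?_⟩
  have e3 : (((⟨b, hBG hb⟩ : ↥(D.group F))⁻¹ * (g * k * g⁻¹) * ⟨b, hBG hb⟩ : ↥(D.group F)) :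
      GL D.Idx F) = (MulAut.conj n).toMonoidHom (u' * (k : GL D.Idx F) * u'⁻¹) := by
    show b⁻¹ * ((g : GL D.Idx F) * (k : GL D.Idx F) * (g : GL D.Idx F)⁻¹) * b =
      n * (u' * (k : GL D.Idx F) * u'⁻¹) * n⁻¹
    rw [e]; group
  unfold Ug Vg
  rw [Subgroup.mem_subgroupOf, Subgroup.mem_subgroupOf, e3, ← hmap,
    Subgroup.mem_map_iff_mem (MulAut.conj n).injective]
  constructor
  · intro hk; exact mul_mem (mul_mem hu'U hk) (inv_mem hu'U)
  · intro hk
    have e4 : (k : GL D.Idx F) = u'⁻¹ * (u' * (k : GL D.Idx F) * u'⁻¹) * u' := by group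
    rw [e4]; exact mul_mem (mul_mem (inv_mem hu'U) hk) hu'U

end Cfsg.Agent.Lib.Helper34.ChevDynP
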