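import Cfsg.Agent.Lib.Helper27.ChevDyn
import Cfsg.Agent.Lib.Helper24.CommFAll
import Cfsg.Agent.Lib.Helper25.ChevNConjAll
import Cfsg.Agent.Lib.Helper25.ChevBnB
import Cfsg.Agent.Lib.Helper25.ChevBN
import Cfsg.Agent.S1032

set_option autoImplicit false

namespace Cfsg.Agent.Lib.Helper34.ChevDynP

open Cfsg.Lie Cfsg.Agent.Lib.Helper27.PslnOut Cfsg.Agent.Lib.Helper27.DynOut
  Cfsg.Agent.Lib.Helper27.ChevDyn
open Cfsg.Agent.Lib.Helper24 Cfsg.Agent.Lib.Helper25

/-! ### table conditions -/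

/-- table condition at a double bond (`s` short, `l` long) -/
def phP2 (D : ChevalleyDatum) (s l : ℕ) : Prop :=
  (D.reflectRoot s (D.simple l) ≠ D.simple l ∧
    D.reflectRoot s (D.simple l) ≠ D.neg (D.simple l) ∧
    D.commTerms (D.simple l) (D.reflectRoot s (D.simple l)) = []) ∧
  (D.reflectRoot l (D.simple s) ≠ D.simple s ∧
    D.reflectRoot l (D.simple s) ≠ D.neg (D.simple s) ∧
    ∃ c ∈ D.commTerms (D.simple s) (D.reflectRoot l (D.simple s)),
      D.commTerms (D.simple s) (D.reflectRoot l (D.simple s)) = [c] ∧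
      c.1 < D.nroots ∧ (c.2.1 = 2 ∨ c.2.1 = -2) ∧ c.2.2.1 = 1 ∧ c.2.2.2 = 1)

instance (D : ChevalleyDatum) (s l : ℕ) : Decidable (phP2 D s l) := by
  unfold phP2; infer_instance

/-- table condition at a triple bond (`s` short, `l` long) -/
def phP3 (D : ChevalleyDatum) (s l : ℕ) : Prop :=
  (D.reflectRoot l (D.reflectRoot s (D.simple l)) ≠ D.simple l ∧
    D.reflectRoot l (D.reflectRoot s (D.simple l)) ≠ D.neg (D.simple l) ∧
    D.commTerms (D.simple l) (D.reflectRoot l (D.reflectRoot s (D.simple l))) = []) ∧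
  (D.reflectRoot s (D.reflectRoot l (D.simple s)) ≠ D.simple s ∧
    D.reflectRoot s (D.reflectRoot l (D.simple s)) ≠ D.neg (D.simple s) ∧
    ∃ c ∈ D.commTerms (D.simple s) (D.reflectRoot s (D.reflectRoot l (D.simple s))),
      D.commTerms (D.simple s) (D.reflectRoot s (D.reflectRoot l (D.simple s))) = [c] ∧
      c.1 < D.nroots ∧ (c.2.1 = 3 ∨ c.2.1 = -3) ∧ c.2.2.1 = 1 ∧ c.2.2.2 = 1)

instance (D : ChevalleyDatum) (s l : ℕ) : Decidable (phP3 D s l) := by
  unfold phP3; infer_instance

/-- the table check for `pieceH` -/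
def phChk (D : ChevalleyDatum) : Bool :=
  (List.range D.rank).all fun s => (List.range D.rank).all fun l =>
    (s == l) ||
    ((!(decide ((D.bonds s l).toNat = 2)) || D.isLong (D.simple s) ||
        !(D.isLong (D.simple l)) || decide (phP2 D s l)) &&
      (!(decide ((D.bonds s l).toNat = 3)) || D.isLong (D.simple s) ||
        !(D.isLong (D.simple l)) || decide (phP3 D s l)))

theorem phChk_G2 : phChk chevG2 = true := by decide +kernel
theorem phChk_B2 : phChk chevB2 = true := by decide +kernel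
theorem phChk_D4 : phChk chevD4 = true := by decide +kernel
theorem phChk_F4 : phChk chevF4 = true := by decide +kernel
theorem phChk_E6 : phChk chevE6 = true := by decide +kernel
theorem phChk_E7 : phChk chevE7 = true := by decide +kernel
theorem phChk_E8 : phChk chevE8 = true := by decide +kernel

theorem phChk_all (D : ChevalleyDatum) (hD : D ∈ lst) : phChk D = true := by
  simp only [lst, List.mem_cons, List.not_mem_nil, or_false] at hD
  rcases hD with rfl | rfl | rfl | rfl | rfl | rfl | rfl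
  · exact phChk_G2
  · exact phChk_B2
  · exact phChk_D4
  · exact phChk_F4
  · exact phChk_E6
  · exact phChk_E7
  · exact phChk_E8

theorem phChk_spec (D : ChevalleyDatum) (h : phChk D = true) (s l : Fin D.rank) (hsl : s ≠ l)
    (hs : longD D s = false) (hl : longD D l = true) :
    (bondD D s l = 2 → phP2 D s l) ∧ (bondD D s l = 3 → phP3 D s l) := by
  unfold phChk at h
  simp only [List.all_eq_true, List.mem_range, Bool.or_eq_true, Bool.and_eq_true, beq_iff_eq,
    Bool.not_eq_true', decide_eq_false_iff_not, decide_eq_true_eq] at h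
  have h1 := h s.val s.2 l.val l.2
  have hne : s.val ≠ l.val := fun e => hsl (Fin.ext e)
  unfold longD at hs hl
  unfold bondD
  rw [if_neg hsl]
  rcases h1 with h1 | ⟨h2, h3⟩
  · exact absurd h1 hne
  · constructor
    · intro hb
      rcases h2 with ((h2 | h2) | h2) | h2
      · exact absurd hb h2
      · rw [hs] at h2; exact absurd h2 (by decide)
      · rw [hl] at h2; exact absurd h2 (by decide)
      · exact h2
    · intro hb
      rcases h3 with ((h3 | h3) | h3) | h3
      · exact absurd hb h3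
      · rw [hs] at h3; exact absurd h3 (by decide)
      · rw [hl] at h3; exact absurd h3 (by decide)
      · exact h3

/-! ### root elements in the group -/

variable {F : Type*} [Field F] (D : ChevalleyDatum)

theorem ph_xg_val (hD : D ∈ lst) (r : ℕ) (a : F) :
    ((xg D r a : GL D.Idx F) : Matrix D.Idx D.Idx F) = D.x F r a := by
  have hD' : D ∈ chevList := hD
  have hex : ∃ g : ↥(D.group F), ((g : GL D.Idx F) : Matrix D.Idx D.Idx F) = D.x F r a :=
    ⟨⟨xGL D hD' r a, xGL_mem_group D hD' r a⟩, xGL_val D hD' r a⟩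
  unfold xg
  rw [dif_pos hex]
  exact hex.choose_spec

theorem ph_nn_val (hD : D ∈ lst) (i : Fin D.rank) (c : F) :
    (((nn (xs D) (ys D) i c : ↥(D.group F)) : GL D.Idx F) : Matrix D.Idx D.Idx F) =
      D.nMat F (D.simple i) c := by
  rw [nMat_eq]
  show ((xg D (D.simple i) c : GL D.Idx F) : Matrix D.Idx D.Idx F) *
      ((xg D (D.neg (D.simple i)) (-c⁻¹) : GL D.Idx F) : Matrix D.Idx D.Idx F) *
      ((xg D (D.simple i) c : GL D.Idx F) : Matrix D.Idx D.Idx F) = _
  rw [ph_xg_val D hD, ph_xg_val D hD, Matrix.mul_assoc]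

/-- `n_i(c) x_s(t) = x_{w_i s}(e t) n_i(c)` -/
theorem ph_nc (hD : D ∈ lst) (i : ℕ) (hi : i < D.rank) (s : ℕ) (hs : s < D.nroots) (c : F)
    (hc : c ≠ 0) :
    ∃ e : F, (c = 1 → e = 1 ∨ e = -1) ∧ ∀ t : F,
      D.nMat F (D.simple i) c * D.x F s t =
        D.x F (D.reflectRoot i s) (e * t) * D.nMat F (D.simple i) c := by
  have hD1 : D ∈ [chevG2, chevB2, chevD4, chevF4, chevE6, chevE7, chevE8] := hD
  have hD' : D ∈ chevList := hD
  have hr : D.reflectRoot i s < D.nroots := reflectRoot_lt D hD1 i hi s hs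
  refine ⟨c ^ (D.cartan i (D.reflectRoot i s)) * ((nEta D i s : ℤ) : F), ?_, fun t => ?_⟩
  · rintro rfl
    rw [one_zpow, one_mul]
    rcases nEta_cases D i s with h | h <;> rw [h] <;> simp
  · have h1 := nMat_eq_hMat_mul D hD1 (D.simple i) (simple_lt D hD' i hi) c
    have h2 := n_simple_conj D hD1 i hi s hs t
    have h3 := Cfsg.Agent.S1032.result D hD1 i (D.reflectRoot i s) hi hr c hc
      (((nEta D i s : ℤ) : F) * t)
    calc D.nMat F (D.simple i) c * D.x F s t
        = D.hMat F (D.simple i) c * (D.nMat F (D.simple i) 1 * D.x F s t) := by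
          rw [h1, Matrix.mul_assoc]
      _ = (D.hMat F (D.simple i) c * D.x F (D.reflectRoot i s) (((nEta D i s : ℤ) : F) * t)) *
            D.nMat F (D.simple i) 1 := by rw [h2, Matrix.mul_assoc]
      _ = D.x F (D.reflectRoot i s)
            (c ^ (D.cartan i (D.reflectRoot i s)) * ((nEta D i s : ℤ) : F) * t) *
            D.nMat F (D.simple i) c := by
          rw [h3, h1, Matrix.mul_assoc, mul_assoc]

theorem ph_conj (hD : D ∈ lst) (N : ↥(D.group F)) (r r' : ℕ) (t e : F)
    (h : ((N : GL D.Idx F) : Matrix D.Idx D.Idx F) * D.x F r t =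
      D.x F r' (e * t) * ((N : GL D.Idx F) : Matrix D.Idx D.Idx F)) :
    N * xg D r t * N⁻¹ = xg D r' (e * t) := by
  apply Subtype.ext
  apply Units.ext
  show ((N : GL D.Idx F) : Matrix D.Idx D.Idx F) *
      ((xg D r t : GL D.Idx F) : Matrix D.Idx D.Idx F) *
      (((N : GL D.Idx F)⁻¹ : GL D.Idx F) : Matrix D.Idx D.Idx F) =
    ((xg D r' (e * t) : GL D.Idx F) : Matrix D.Idx D.Idx F)
  rw [ph_xg_val D hD, ph_xg_val D hD, h, Matrix.mul_assoc, ← Units.val_mul, mul_inv_cancel,
    Units.val_one, Matrix.mul_one]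

theorem ph_nn_conj (hD : D ∈ lst) (i : Fin D.rank) (s : ℕ) (hs : s < D.nroots) (c : F)
    (hc : c ≠ 0) :
    ∃ e : F, (c = 1 → e = 1 ∨ e = -1) ∧ ∀ t : F,
      nn (xs D) (ys D) i c * xg D s t * (nn (xs D) (ys D) i c)⁻¹ =
        xg D (D.reflectRoot i s) (e * t) := by
  obtain ⟨e, he, h⟩ := ph_nc D hD i i.2 s hs c hc
  refine ⟨e, he, fun t => ph_conj D hD _ s _ t e ?_⟩
  rw [ph_nn_val D hD]
  exact h t

theorem ph_comm (hD : D ∈ lst) (r s : ℕ) (hr : r < D.nroots) (hs : s < D.nroots)
    (hrs : s ≠ r) (hneg : s ≠ D.neg r) (hterms : D.commTerms r s = []) (t u : F) :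
    xg D r t * xg D s u = xg D s u * xg D r t := by
  have hD' : D ∈ chevList := hD
  have h := comm_formula (F := F) D hD' r s hr hs hrs hneg t u
  have hw : D.commWord F r s t u = [] := by
    unfold ChevalleyDatum.commWord; rw [hterms]; rfl
  rw [hw, wordMat_nil, Matrix.mul_one] at h
  apply Subtype.ext
  apply Units.ext
  show ((xg D r t : GL D.Idx F) : Matrix D.Idx D.Idx F) *
      ((xg D s u : GL D.Idx F) : Matrix D.Idx D.Idx F) =
    ((xg D s u : GL D.Idx F) : Matrix D.Idx D.Idx F) *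
      ((xg D r t : GL D.Idx F) : Matrix D.Idx D.Idx F)
  rw [ph_xg_val D hD, ph_xg_val D hD]
  exact h.symm

theorem ph_ncomm (hD : D ∈ lst) (r s : ℕ) (hr : r < D.nroots) (hs : s < D.nroots)
    (hrs : s ≠ r) (hneg : s ≠ D.neg r) (k : ℕ) (C : ℤ) (hk : k < D.nroots)
    (hterms : D.commTerms r s = [(k, C, 1, 1)]) (t u : F)
    (hcomm : xg D r t * xg D s u = xg D s u * xg D r t) : (C : F) * (-t) * u = 0 := by
  have hD1 : D ∈ [chevG2, chevB2, chevD4, chevF4, chevE6, chevE7, chevE8] := hD
  have hD' : D ∈ chevList := hD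
  have h := comm_formula (F := F) D hD' r s hr hs hrs hneg t u
  have hw : D.commWord F r s t u = [(k, (C : F) * (-t) * u)] := by
    unfold ChevalleyDatum.commWord
    rw [hterms]
    simp only [List.map_cons, List.map_nil, pow_one]
  rw [hw, wordMat_cons, wordMat_nil, Matrix.mul_one] at h
  have hc : D.x F r t * D.x F s u = D.x F s u * D.x F r t := by
    have h2 : (((xg D r t * xg D s u : ↥(D.group F)) : GL D.Idx F) : Matrix D.Idx D.Idx F) =
        (((xg D s u * xg D r t : ↥(D.group F)) : GL D.Idx F) : Matrix D.Idx D.Idx F) := by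
      rw [hcomm]
    have h3 : ((xg D r t : GL D.Idx F) : Matrix D.Idx D.Idx F) *
        ((xg D s u : GL D.Idx F) : Matrix D.Idx D.Idx F) =
      ((xg D s u : GL D.Idx F) : Matrix D.Idx D.Idx F) *
        ((xg D r t : GL D.Idx F) : Matrix D.Idx D.Idx F) := h2
    rwa [ph_xg_val D hD, ph_xg_val D hD] at h3
  by_contra hv
  apply x_ne_one D hD1 k hk _ hv
  have hP : (xGL D hD' s u * xGL D hD' r t : GL D.Idx F) =
      xGL D hD' s u * xGL D hD' r t * xGL D hD' k ((C : F) * (-t) * u) := by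
    apply Units.ext
    rw [Units.val_mul, Units.val_mul, Units.val_mul, xGL_val, xGL_val, xGL_val]
    exact h.trans (by rw [hc])
  have h1 : xGL D hD' k ((C : F) * (-t) * u) = 1 := by
    have h4 : xGL D hD' s u * xGL D hD' r t * xGL D hD' k ((C : F) * (-t) * u) =
        xGL D hD' s u * xGL D hD' r t * 1 := by rw [mul_one]; exact hP.symm
    exact mul_left_cancel h4
  rw [← xGL_val D hD' k, h1, Units.val_one]

/-! ### PH -/

/-- PH -/
theorem pieceH (hD : D ∈ lst) :
    (∀ s l : Fin D.rank, s ≠ l → bondD D s l = 2 → longD D s = false → longD D l = true →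
      (∀ t u c : F, c ≠ 0 →
        xs D l t * (nn (xs D) (ys D) s c * xs D l u * (nn (xs D) (ys D) s c)⁻¹) =
        (nn (xs D) (ys D) s c * xs D l u * (nn (xs D) (ys D) s c)⁻¹) * xs D l t) ∧
      (xs D s (1 : F) * (nn (xs D) (ys D) l 1 * xs D s 1 * (nn (xs D) (ys D) l 1)⁻¹) =
        (nn (xs D) (ys D) l 1 * xs D s 1 * (nn (xs D) (ys D) l 1)⁻¹) * xs D s 1 → (2 : F) = 0)) ∧
    (∀ s l : Fin D.rank, s ≠ l → bondD D s l = 3 → longD D s = false → longD D l = true →
      (∀ t u c d : F, c ≠ 0 → d ≠ 0 →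
        xs D l t * ((nn (xs D) (ys D) l c * nn (xs D) (ys D) s d) * xs D l u *
          (nn (xs D) (ys D) l c * nn (xs D) (ys D) s d)⁻¹) =
        ((nn (xs D) (ys D) l c * nn (xs D) (ys D) s d) * xs D l u *
          (nn (xs D) (ys D) l c * nn (xs D) (ys D) s d)⁻¹) * xs D l t) ∧
      (xs D s (1 : F) * ((nn (xs D) (ys D) s 1 * nn (xs D) (ys D) l 1) * xs D s 1 *
          (nn (xs D) (ys D) s 1 * nn (xs D) (ys D) l 1)⁻¹) =
        ((nn (xs D) (ys D) s 1 * nn (xs D) (ys D) l 1) * xs D s 1 *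
          (nn (xs D) (ys D) s 1 * nn (xs D) (ys D) l 1)⁻¹) * xs D s 1 → (3 : F) = 0)) := by
  have hD1 : D ∈ [chevG2, chevB2, chevD4, chevF4, chevE6, chevE7, chevE8] := hD
  have hD' : D ∈ chevList := hD
  have hchk := phChk_all D hD
  have hsimp : ∀ i : Fin D.rank, D.simple i < D.nroots := fun i => simple_lt D hD' i i.2
  have hrefl : ∀ (i : Fin D.rank) (r : ℕ), r < D.nroots → D.reflectRoot i r < D.nroots :=
    fun i r hr => reflectRoot_lt D hD1 i i.2 r hr
  constructor
  · intro s l hsl hb hs hl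
    obtain ⟨⟨h1, h2, h3⟩, h4, h5, ⟨k, C, i, j⟩, -, h6, hk, hC, hi, hj⟩ :=
      (phChk_spec D hchk s l hsl hs hl).1 hb
    constructor
    · intro t u c hc
      obtain ⟨e, -, he⟩ := ph_nn_conj D hD s (D.simple l) (hsimp l) c hc
      show xg D (D.simple l) t * (nn (xs D) (ys D) s c * xg D (D.simple l) u *
          (nn (xs D) (ys D) s c)⁻¹) =
        (nn (xs D) (ys D) s c * xg D (D.simple l) u * (nn (xs D) (ys D) s c)⁻¹) *
          xg D (D.simple l) t
      rw [he u]
      exact ph_comm D hD _ _ (hsimp l) (hrefl s _ (hsimp l)) h1 h2 h3 t (e * u)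
    · intro hcomm
      obtain ⟨e, he1, he⟩ := ph_nn_conj D hD l (D.simple s) (hsimp s) (1 : F) one_ne_zero
      have hcomm' : xg D (D.simple s) (1 : F) * xg D (D.reflectRoot l (D.simple s)) (e * 1) =
          xg D (D.reflectRoot l (D.simple s)) (e * 1) * xg D (D.simple s) 1 := by
        rw [← he 1]; exact hcomm
      simp only at hi hj
      subst hi; subst hj
      have h0 := ph_ncomm D hD _ _ (hsimp s) (hrefl l _ (hsimp s)) h4 h5 k C hk h6 (1 : F)
        (e * 1) hcomm'
      rcases he1 rfl with rfl | rfl <;> rcases hC with rfl | rfl <;> push_cast at h0 <;>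
        first | linear_combination h0 | linear_combination (-1 : F) * h0
  · intro s l hsl hb hs hl
    obtain ⟨⟨h1, h2, h3⟩, h4, h5, ⟨k, C, i, j⟩, -, h6, hk, hC, hi, hj⟩ :=
      (phChk_spec D hchk s l hsl hs hl).2 hb
    constructor
    · intro t u c d hc hd
      obtain ⟨e1, -, he1⟩ := ph_nn_conj D hD s (D.simple l) (hsimp l) d hd
      obtain ⟨e2, -, he2⟩ := ph_nn_conj D hD l (D.reflectRoot s (D.simple l))
        (hrefl s _ (hsimp l)) c hc
      have hcj : (nn (xs D) (ys D) l c * nn (xs D) (ys D) s d) * xg D (D.simple l) u *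
          (nn (xs D) (ys D) l c * nn (xs D) (ys D) s d)⁻¹ =
          xg D (D.reflectRoot l (D.reflectRoot s (D.simple l))) (e2 * (e1 * u)) := by
        rw [← he2, ← he1]; group
      show xg D (D.simple l) t * ((nn (xs D) (ys D) l c * nn (xs D) (ys D) s d) *
          xg D (D.simple l) u * (nn (xs D) (ys D) l c * nn (xs D) (ys D) s d)⁻¹) =
        ((nn (xs D) (ys D) l c * nn (xs D) (ys D) s d) * xg D (D.simple l) u *
          (nn (xs D) (ys D) l c * nn (xs D) (ys D) s d)⁻¹) * xg D (D.simple l) t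
      rw [hcj]
      exact ph_comm D hD _ _ (hsimp l) (hrefl l _ (hrefl s _ (hsimp l))) h1 h2 h3 t _
    · intro hcomm
      obtain ⟨e1, he1s, he1⟩ := ph_nn_conj D hD l (D.simple s) (hsimp s) (1 : F) one_ne_zero
      obtain ⟨e2, he2s, he2⟩ := ph_nn_conj D hD s (D.reflectRoot l (D.simple s))
        (hrefl l _ (hsimp s)) (1 : F) one_ne_zero
      have hcj : (nn (xs D) (ys D) s (1 : F) * nn (xs D) (ys D) l 1) * xg D (D.simple s) 1 *
          (nn (xs D) (ys D) s (1 : F) * nn (xs D) (ys D) l 1)⁻¹ =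
          xg D (D.reflectRoot s (D.reflectRoot l (D.simple s))) (e2 * (e1 * 1)) := by
        rw [← he2, ← he1]; group
      have hcomm' : xg D (D.simple s) (1 : F) *
          xg D (D.reflectRoot s (D.reflectRoot l (D.simple s))) (e2 * (e1 * 1)) =
          xg D (D.reflectRoot s (D.reflectRoot l (D.simple s))) (e2 * (e1 * 1)) *
            xg D (D.simple s) 1 := by
        rw [← hcj]; exact hcomm
      simp only at hi hj
      subst hi; subst hj
      have h0 := ph_ncomm D hD _ _ (hsimp s) (hrefl s _ (hrefl l _ (hsimp s))) h4 h5 k C hk h6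
        (1 : F) (e2 * (e1 * 1)) hcomm'
      rcases he1s rfl with rfl | rfl <;> rcases he2s rfl with rfl | rfl <;>
        rcases hC with rfl | rfl <;> push_cast at h0 <;>
        first | linear_combination h0 | linear_combination (-1 : F) * h0

end Cfsg.Agent.Lib.Helper34.ChevDynP
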