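import Mathlib
import Cfsg.Agent.Lib.Helper34.Rank2
import Cfsg.Agent.Lib.Helper31.PGrp

/-!
# Narrow p-groups, part 1 (helper34): generic tools

* `card_le_mul_of_fibers`, `card_le_inf_mul_of_fibers` : fibre counting
* `eq_or_eq_of_prime_index`
* `cmod K` : the elements central modulo a normal subgroup `K`; `le_cmod_of_card`
* `fix_of_fix_section` : a `p'`-automorphism fixing `K` and acting trivially on `Y / K` fixes `Y`
* `secAut` : the action of `MulAut R` on a characteristic section; `section_comm_pow`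
* `uniserial` : uniqueness of normal subgroups of each order
* `char_of_unique`
-/

set_option autoImplicit false

namespace Cfsg.Agent.Lib.Helper34

open Cfsg

section narrow1

variable {R : Type*} [Group R]

/-- fibre counting -/
theorem card_le_mul_of_fibers {α β : Type*} [Finite α] [Finite β] (f : α → β) (n : ℕ)
    (h : ∀ b, Nat.card {a // f a = b} ≤ n) : Nat.card α ≤ n * Nat.card β := by
  classical
  haveI := Fintype.ofFinite β
  rw [← Nat.card_congr (Equiv.sigmaFiberEquiv f), Nat.card_sigma]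
  calc ∑ b, Nat.card {a // f a = b} ≤ ∑ _b : β, n := Finset.sum_le_sum (fun b _ => h b)
    _ = n * Nat.card β := by
      rw [Finset.sum_const, Finset.card_univ, smul_eq_mul, Nat.card_eq_fintype_card, mul_comm]

/-- coset-fibre counting -/
theorem card_le_inf_mul_of_fibers [Finite R] {β : Type*} [Finite β] (M H : Subgroup R)
    (f : ↥M → β) (h : ∀ m m' : ↥M, f m = f m' → (m : R)⁻¹ * (m' : R) ∈ H) :
    Nat.card ↥M ≤ Nat.card ↥(M ⊓ H) * Nat.card β := by
  apply card_le_mul_of_fibers f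
  intro b
  rcases isEmpty_or_nonempty {a // f a = b} with he | ⟨⟨m₀, hm₀⟩⟩
  · rw [Nat.card_of_isEmpty]; exact Nat.zero_le _
  · refine Nat.card_le_card_of_injective
      (fun a : {a // f a = b} => (⟨(m₀ : R)⁻¹ * (a.1 : R),
        ⟨M.mul_mem (M.inv_mem m₀.2) a.1.2, h m₀ a.1 (hm₀.trans a.2.symm)⟩⟩ : ↥(M ⊓ H))) ?_
    intro a a' haa
    have h1 : (m₀ : R)⁻¹ * (a.1 : R) = (m₀ : R)⁻¹ * (a'.1 : R) := congrArg Subtype.val haa
    exact Subtype.ext (Subtype.ext (mul_left_cancel h1))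

/-- `K ≤ D ≤ N` with `|N| = p |K|`: `D = K` or `D = N`. -/
theorem eq_or_eq_of_prime_index [Finite R] {p : ℕ} (hp : p.Prime) {K D N : Subgroup R}
    (hKD : K ≤ D) (hDN : D ≤ N) (hc : Nat.card N = p * Nat.card K) : D = K ∨ D = N := by
  obtain ⟨a, ha⟩ := Subgroup.card_dvd_of_le hKD
  have h2 := Subgroup.card_dvd_of_le hDN
  have hKpos : 0 < Nat.card K := Nat.card_pos
  rw [ha, hc, mul_comm p] at h2
  have h3 : a ∣ p := Nat.dvd_of_mul_dvd_mul_left hKpos h2
  rcases (Nat.dvd_prime hp).mp h3 with h | h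
  · left; exact (Subgroup.eq_of_le_of_card_ge hKD (by rw [ha, h, mul_one])).symm
  · right; exact Subgroup.eq_of_le_of_card_ge hDN (by rw [ha, h, hc, mul_comm])

/-- the elements central modulo `K` -/
def cmod (K : Subgroup R) [K.Normal] : Subgroup R :=
  (Subgroup.center (R ⧸ K)).comap (QuotientGroup.mk' K)

theorem mem_cmod {K : Subgroup R} [K.Normal] {n : R} :
    n ∈ cmod K ↔ ∀ r, n * r * n⁻¹ * r⁻¹ ∈ K := by
  unfold cmod
  rw [Subgroup.mem_comap, Subgroup.mem_center_iff]
  constructor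
  · intro h r
    rw [← QuotientGroup.eq_one_iff]
    have h1 := h (r : R ⧸ K)
    simp only [QuotientGroup.mk'_apply] at h1
    rw [QuotientGroup.mk_mul, QuotientGroup.mk_mul, QuotientGroup.mk_mul, QuotientGroup.mk_inv,
      QuotientGroup.mk_inv, ← h1]
    group
  · intro h q
    induction q using QuotientGroup.induction_on with
    | H r =>
      have h1 := (QuotientGroup.eq_one_iff _).mpr (h r)
      simp only [QuotientGroup.mk'_apply]
      rw [QuotientGroup.mk_mul, QuotientGroup.mk_mul, QuotientGroup.mk_mul, QuotientGroup.mk_inv,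
        QuotientGroup.mk_inv] at h1
      calc (r : R ⧸ K) * (n : R ⧸ K)
          = ((n : R ⧸ K) * (r : R ⧸ K) * (n : R ⧸ K)⁻¹ * (r : R ⧸ K)⁻¹)⁻¹ *
              ((n : R ⧸ K) * (r : R ⧸ K)) := by group
        _ = (n : R ⧸ K) * (r : R ⧸ K) := by rw [h1, inv_one, one_mul]

theorem le_cmod_self (K : Subgroup R) [hK : K.Normal] : K ≤ cmod K := by
  intro k hk
  rw [mem_cmod]
  intro r
  have e : k * r * k⁻¹ * r⁻¹ = k * (r * k⁻¹ * r⁻¹) := by group
  rw [e]
  exact K.mul_mem hk (hK.conj_mem _ (K.inv_mem hk) r)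

/-- a normal subgroup of a `p`-group covering a normal subgroup with index `p` is central
modulo it -/
theorem le_cmod_of_card [Finite R] {p : ℕ} [Fact p.Prime] (hR : IsPGroup p R)
    {N K : Subgroup R} [N.Normal] [K.Normal] (hKN : K ≤ N)
    (hc : Nat.card N = p * Nat.card K) : N ≤ cmod K := by
  have hnil : Group.IsNilpotent R := hR.isNilpotent
  have hne : ¬ N ≤ K := by
    intro h
    have h1 := Subgroup.card_le_of_le h
    rw [hc] at h1
    have hp1 : 1 < p := (Fact.out : p.Prime).one_lt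
    have h2 : 0 < Nat.card K := Nat.card_pos
    nlinarith
  obtain ⟨x, hxN, hxK, hx⟩ := Cfsg.Agent.Lib.Helper31.exists_central_mod hne
  rcases eq_or_eq_of_prime_index Fact.out (le_inf (le_cmod_self K) hKN) inf_le_right hc
    with h | h
  · exfalso; apply hxK; rw [← h]; exact ⟨mem_cmod.mpr hx, hxN⟩
  · rw [← h]; exact inf_le_left

/-- a `p'`-automorphism fixing `K` pointwise and acting trivially modulo `K` on `Y` fixes `Y`
pointwise -/
theorem fix_of_fix_section {p : ℕ} (hR : IsPGroup p R) (β : MulAut R)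
    (hβ : (orderOf β).Coprime p) {Y K : Subgroup R} (h1 : ∀ y ∈ Y, y⁻¹ * β y ∈ K)
    (h2 : ∀ k ∈ K, β k = k) : ∀ y ∈ Y, β y = y := by
  intro y hy
  have hz := h2 _ (h1 y hy)
  have hpow : ∀ k : ℕ, (β ^ k) y = y * (y⁻¹ * β y) ^ k := by
    intro k
    induction k with
    | zero => simp
    | succ k ih =>
      rw [pow_succ', MulAut.mul_apply, ih, map_mul, map_pow, hz, pow_succ', ← mul_assoc y,
        mul_inv_cancel_left]
  have h3 := hpow (orderOf β)
  rw [pow_orderOf_eq_one, MulAut.one_apply] at h3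
  have h4 : (y⁻¹ * β y) ^ orderOf β = 1 := by
    have : y * (y⁻¹ * β y) ^ orderOf β = y * 1 := by rw [mul_one]; exact h3.symm
    exact mul_left_cancel this
  obtain ⟨n, hn⟩ := hR (y⁻¹ * β y)
  have h5 : orderOf (y⁻¹ * β y) ∣ 1 := by
    have := Nat.dvd_gcd (orderOf_dvd_of_pow_eq_one h4) (orderOf_dvd_of_pow_eq_one hn)
    rwa [Nat.Coprime.gcd_eq_one (Nat.Coprime.pow_right n hβ)] at this
  have h6 : y⁻¹ * β y = 1 := orderOf_eq_one_iff.mp (Nat.dvd_one.mp h5)
  exact (inv_mul_eq_one.mp h6).symm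

/-- the action of `MulAut R` on a characteristic section `Y / K` -/
def secAut (Y K : Subgroup R) [hY : Y.Characteristic] [hK : K.Characteristic] :
    MulAut R →* MulAut (↥Y ⧸ K.subgroupOf Y) where
  toFun α := QuotientGroup.congr (K.subgroupOf Y) (K.subgroupOf Y) (resChar Y hY α) (by
    ext y
    constructor
    · rintro ⟨x, hx, rfl⟩
      exact mem_of_char hK α hx
    · intro hy
      refine ⟨(resChar Y hY α⁻¹) y, mem_of_char hK α⁻¹ hy, ?_⟩
      apply Subtype.ext
      show α (α⁻¹ (y : R)) = y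
      simp)
  map_one' := by
    ext q
    induction q using QuotientGroup.induction_on with
    | H y => rfl
  map_mul' := by
    intro α β
    ext q
    induction q using QuotientGroup.induction_on with
    | H y => rfl

theorem secAut_mk (Y K : Subgroup R) [hY : Y.Characteristic] [hK : K.Characteristic]
    (α : MulAut R) (y : ↥Y) :
    secAut Y K α (QuotientGroup.mk y) = QuotientGroup.mk (resChar Y hY α y) := rfl

/-- on a characteristic section of prime order, commutators and `(p-1)`-th powers of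
automorphisms act trivially -/
theorem section_comm_pow [Finite R] {p : ℕ} [Fact p.Prime] (Y K : Subgroup R)
    [hY : Y.Characteristic] [hK : K.Characteristic] (hKY : K ≤ Y)
    (hc : Nat.card Y = p * Nat.card K) :
    (∀ α β : MulAut R, ∀ y ∈ Y, y⁻¹ * (α * β * α⁻¹ * β⁻¹) y ∈ K) ∧
      (∀ α : MulAut R, ∀ y ∈ Y, y⁻¹ * (α ^ (p - 1)) y ∈ K) := by
  have hQ : Nat.card (↥Y ⧸ K.subgroupOf Y) = p := by
    have h1 := Subgroup.card_eq_card_quotient_mul_card_subgroup (K.subgroupOf Y)
    rw [Nat.card_congr (Subgroup.subgroupOfEquivOfLe hKY).toEquiv, hc] at h1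
    have h2 : 0 < Nat.card K := Nat.card_pos
    exact (Nat.eq_of_mul_eq_mul_right h2 h1).symm
  haveI : IsCyclic (↥Y ⧸ K.subgroupOf Y) := isCyclic_of_prime_card hQ
  have hcardA : Nat.card (MulAut (↥Y ⧸ K.subgroupOf Y)) = p - 1 := by
    rw [IsCyclic.card_mulAut, hQ, Nat.totient_prime Fact.out]
  have key : ∀ γ : MulAut R, secAut Y K γ = 1 → ∀ y ∈ Y, y⁻¹ * γ y ∈ K := by
    intro γ hγ y hy
    have h1 := secAut_mk Y K γ ⟨y, hy⟩
    rw [hγ, MulAut.one_apply] at h1
    have h2 := QuotientGroup.eq.mp h1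
    exact h2
  constructor
  · intro α β y hy
    refine key _ ?_ y hy
    rw [map_mul, map_mul, map_mul, map_inv, map_inv]
    have hcomm : ∀ a b : MulAut (↥Y ⧸ K.subgroupOf Y), a * b = b * a := by
      intro a b
      apply (IsCyclic.mulAutMulEquiv _).injective
      rw [map_mul, map_mul, mul_comm]
    rw [hcomm (secAut Y K α)]
    group
  · intro α y hy
    refine key _ ?_ y hy
    rw [map_pow, ← hcardA]
    exact pow_card_eq_one'

/-- **Uniseriality.** If `X ∩ H` has at most `p` elements, where `H` contains the centralizer of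
an element `s`, then `X` contains at most one normal subgroup of each order. -/
theorem uniserial [Finite R] {p : ℕ} [Fact p.Prime] (hR : IsPGroup p R) (X : Subgroup R)
    (s : R) (H : Subgroup R) (hH : ∀ g : R, g * s = s * g → g ∈ H)
    (hXH : Nat.card ↥(X ⊓ H) ≤ p) :
    ∀ k : ℕ, ∀ Y Y' : Subgroup R, Y.Normal → Y'.Normal → Y ≤ X → Y' ≤ X →
      Nat.card Y = p ^ k → Nat.card Y' = p ^ k → Y = Y' := by
  have hp := (Fact.out : p.Prime)
  intro k
  induction k with
  | zero =>
    intro Y Y' _ _ _ _ hY hY'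
    rw [pow_zero] at hY hY'
    rw [Subgroup.eq_bot_of_card_eq Y hY, Subgroup.eq_bot_of_card_eq Y' hY']
  | succ k ih =>
    intro Y Y' hYn hY'n hYX hY'X hY hY'
    by_contra hne
    haveI := hYn
    haveI := hY'n
    obtain ⟨D, hDY, hDn, hD⟩ := Cfsg.Agent.Lib.Helper31.exists_normal_le_card_eq hR (N := Y)
      (k := k) (by rw [hY]; exact Nat.pow_le_pow_right hp.pos (Nat.le_succ k))
    obtain ⟨D', hD'Y, hD'n, hD'⟩ := Cfsg.Agent.Lib.Helper31.exists_normal_le_card_eq hR (N := Y')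
      (k := k) (by rw [hY']; exact Nat.pow_le_pow_right hp.pos (Nat.le_succ k))
    have hDD' : D = D' := ih D D' hDn hD'n (hDY.trans hYX) (hD'Y.trans hY'X) hD hD'
    subst hDD'
    haveI := hDn
    have h1 : Y ≤ cmod D := le_cmod_of_card hR hDY (by rw [hY, hD, pow_succ'])
    have h2 : Y' ≤ cmod D := le_cmod_of_card hR hD'Y (by rw [hY', hD, pow_succ'])
    have hM : Y ⊔ Y' ≤ cmod D := sup_le h1 h2
    have hf : ∀ m : ↥(Y ⊔ Y'), (m : R) * s * (m : R)⁻¹ * s⁻¹ ∈ D :=
      fun m => mem_cmod.mp (hM m.2) s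
    have h3 := card_le_inf_mul_of_fibers (Y ⊔ Y') H (fun m => (⟨_, hf m⟩ : ↥D)) (by
      intro m m' hmm
      apply hH
      have e : (m : R) * s * (m : R)⁻¹ * s⁻¹ = (m' : R) * s * (m' : R)⁻¹ * s⁻¹ :=
        congrArg Subtype.val hmm
      have e2 : (m : R) * s * (m : R)⁻¹ = (m' : R) * s * (m' : R)⁻¹ := mul_right_cancel e
      calc (m : R)⁻¹ * (m' : R) * s
          = (m : R)⁻¹ * ((m' : R) * s * (m' : R)⁻¹) * (m' : R) := by group
        _ = (m : R)⁻¹ * ((m : R) * s * (m : R)⁻¹) * (m' : R) := by rw [e2]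
        _ = s * ((m : R)⁻¹ * (m' : R)) := by group)
    have h4 : Nat.card ↥((Y ⊔ Y') ⊓ H) ≤ p :=
      (Subgroup.card_le_of_le (inf_le_inf_right H (sup_le hYX hY'X))).trans hXH
    have h5 : Nat.card ↥(Y ⊔ Y') ≤ p * p ^ k := by
      calc Nat.card ↥(Y ⊔ Y') ≤ Nat.card ↥((Y ⊔ Y') ⊓ H) * Nat.card ↥D := h3
        _ ≤ p * p ^ k := by rw [hD]; exact Nat.mul_le_mul_right _ h4
    have h6 : Y = Y ⊔ Y' :=
      Subgroup.eq_of_le_of_card_ge le_sup_left (by rw [hY, pow_succ']; exact h5)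
    have h7 : Y' ≤ Y := by rw [h6]; exact le_sup_right
    exact hne (Subgroup.eq_of_le_of_card_ge h7 (by rw [hY, hY'])).symm

/-- uniqueness form of `uniserial` -/
theorem uniserial' [Finite R] {p : ℕ} [Fact p.Prime] (hR : IsPGroup p R) (X : Subgroup R)
    (s : R) (H : Subgroup R) (hH : ∀ g : R, g * s = s * g → g ∈ H)
    (hXH : Nat.card ↥(X ⊓ H) ≤ p) :
    ∀ Y Y' : Subgroup R, Y.Normal → Y'.Normal → Y ≤ X → Y' ≤ X →
      Nat.card Y = Nat.card Y' → Y = Y' := by
  intro Y Y' hYn hY'n hYX hY'X hc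
  obtain ⟨k, hk⟩ := IsPGroup.iff_card.mp (hR.to_subgroup Y)
  exact uniserial hR X s H hH hXH k Y Y' hYn hY'n hYX hY'X hk (hc ▸ hk)

theorem char_of_unique [Finite R] (X : Subgroup R) (hX : X.Characteristic)
    (huniq : ∀ Y Y' : Subgroup R, Y.Normal → Y'.Normal → Y ≤ X → Y' ≤ X →
      Nat.card Y = Nat.card Y' → Y = Y')
    (Y : Subgroup R) (hYn : Y.Normal) (hYX : Y ≤ X) : Y.Characteristic := by
  rw [Subgroup.characteristic_iff_map_eq]
  intro ϕ
  apply huniq
  · exact hYn.map ϕ.toMonoidHom ϕ.surjective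
  · exact hYn
  · rintro _ ⟨y, hy, rfl⟩
    exact mem_of_char hX ϕ (hYX hy)
  · exact hYX
  · exact Subgroup.card_map_of_injective ϕ.injective

end narrow1

end Cfsg.Agent.Lib.Helper34
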