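import Mathlib
import Cfsg.Agent.Lib.Helper34.Narrow1
import Cfsg.Agent.Lib.Helper34.Rank2b
import Cfsg.Agent.Lib.Helper34.Rank2d
import Cfsg.Agent.Lib.Helper69.MetaCyc
import Cfsg.Agent.S0096

/-!
# Rank-2 p-groups with `[R, A] = R`, part 1 (helper34)

* `hgen_of_comm` : the abstract form of `⁅R, A⁆ = R`
* `fixed_mod` : an element fixed modulo `F ⊇ R'` by a `p'`-group `H` with `[R, H] = R` lies in `F`
* `metacyclic_comm_of_action` : a metacyclic `p`-group (`p` odd) with `[R, H] = R` for a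
  `p'`-group `H` is abelian.
-/

set_option autoImplicit false

namespace Cfsg.Agent.Lib.Helper34

open Cfsg

open scoped commutatorElement

section blk1

universe u v

theorem hgen_of_comm {G : Type*} [Group G] (R A : Subgroup G)
    (hA : A ≤ Subgroup.normalizer (R : Set G)) (hRA : ⁅R, A⁆ = R) :
    ∀ N : Subgroup ↥R, (∀ (r : ↥R) (h : ↥A), r * (conjAut R A hA h r)⁻¹ ∈ N) → N = ⊤ := by
  intro N hN
  rw [eq_top_iff]
  have h1 : ⁅R, A⁆ ≤ N.map R.subtype := by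
    rw [Subgroup.commutator_le]
    intro r hr a ha
    refine ⟨⟨r, hr⟩ * (conjAut R A hA ⟨a, ha⟩ ⟨r, hr⟩)⁻¹, hN _ _, ?_⟩
    show r * (a * r * a⁻¹)⁻¹ = ⁅r, a⁆
    rw [commutatorElement_def]
    group
  intro r _
  have h2 : (r : G) ∈ N.map R.subtype := h1 (by rw [hRA]; exact r.2)
  obtain ⟨r', hr', e⟩ := h2
  have h3 : r' = r := Subtype.ext e
  rwa [h3] at hr'

theorem fixed_mod {Rt : Type u} [Group Rt] [Finite Rt] {p : ℕ} [Fact p.Prime]
    (hR : IsPGroup p Rt) {H : Type v} [Group H] [Finite H] (θ : H →* MulAut Rt)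
    (hHp : (Nat.card H).Coprime p)
    (hgen : ∀ N : Subgroup Rt, (∀ (r : Rt) (h : H), r * (θ h r)⁻¹ ∈ N) → N = ⊤)
    (F : Subgroup Rt) (hF : commutator Rt ≤ F) (u : Rt) (hu : ∀ h : H, u⁻¹ * θ h u ∈ F) :
    u ∈ F := by
  classical
  haveI := Fintype.ofFinite H
  let τ : Rt →* Abelianization Rt := ∏ h : H, (Abelianization.of.comp (θ h).toMonoidHom)
  have hτ : ∀ r : Rt, τ r = ∏ h : H, Abelianization.of (θ h r) := by
    intro r
    show (∏ h : H, (Abelianization.of.comp (θ h).toMonoidHom)) r = _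
    rw [MonoidHom.finsetProd_apply]
    rfl
  have hker : τ.ker = ⊤ := by
    apply hgen
    intro r h
    rw [MonoidHom.mem_ker, map_mul, map_inv, mul_inv_eq_one, hτ, hτ]
    rw [← Equiv.prod_comp (Equiv.mulRight h) (fun h' => Abelianization.of (θ h' r))]
    apply Finset.prod_congr rfl
    intro h' _
    show Abelianization.of (θ (h' * h) r) = Abelianization.of (θ h' (θ h r))
    rw [map_mul]
    rfl
  have hτu : τ u = 1 := by
    have h0 : u ∈ τ.ker := by rw [hker]; exact Subgroup.mem_top u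
    exact h0
  rw [hτ] at hτu
  have h1 : ∏ h : H, Abelianization.of (θ h u) =
      Abelianization.of u ^ Fintype.card H * ∏ h : H, Abelianization.of (u⁻¹ * θ h u) := by
    rw [← Finset.card_univ, ← Finset.prod_const, ← Finset.prod_mul_distrib]
    apply Finset.prod_congr rfl
    intro h _
    rw [← map_mul, mul_inv_cancel_left]
  have h2 : ∏ h : H, Abelianization.of (u⁻¹ * θ h u) ∈ F.map Abelianization.of :=
    Subgroup.prod_mem _ (fun h _ => ⟨_, hu h, rfl⟩)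
  obtain ⟨f, hf, hfe⟩ := h2
  rw [h1, ← hfe, ← map_pow, ← map_mul] at hτu
  have h3 : u ^ Fintype.card H * f ∈ commutator Rt := by
    rw [← Abelianization.ker_of]
    exact hτu
  have h4 : u ^ Fintype.card H ∈ F := by
    have h5 := F.mul_mem (hF h3) (F.inv_mem hf)
    rwa [mul_inv_cancel_right] at h5
  obtain ⟨k, hk⟩ := hR u
  rw [← Nat.card_eq_fintype_card] at h4
  exact mem_of_pow_mem_of_coprime' F u (Nat.card H) (p ^ k) (Nat.Coprime.pow_right k hHp) h4 hk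

end blk1

section pairing

variable {Rt : Type*} [Group Rt]

/-- the commutator pairing to the power `q`, in a group whose commutators are central,
as a homomorphism in the second variable -/
def kap (q : ℕ) (hcen : ∀ g h x : Rt, (g * h * g⁻¹ * h⁻¹) * x = x * (g * h * g⁻¹ * h⁻¹))
    (g : Rt) : Rt →* Rt where
  toFun h := (g * h * g⁻¹ * h⁻¹) ^ q
  map_one' := by simp
  map_mul' h₁ h₂ := by
    have e : g * (h₁ * h₂) * g⁻¹ * (h₁ * h₂)⁻¹ =
        (g * h₁ * g⁻¹ * h₁⁻¹) * (g * h₂ * g⁻¹ * h₂⁻¹) := by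
      have h3 := hcen g h₂ h₁
      calc g * (h₁ * h₂) * g⁻¹ * (h₁ * h₂)⁻¹
          = (g * h₁ * g⁻¹ * h₁⁻¹) * (h₁ * (g * h₂ * g⁻¹ * h₂⁻¹)) * h₁⁻¹ := by group
        _ = (g * h₁ * g⁻¹ * h₁⁻¹) * ((g * h₂ * g⁻¹ * h₂⁻¹) * h₁) * h₁⁻¹ := by rw [h3]
        _ = _ := by group
    show (g * (h₁ * h₂) * g⁻¹ * (h₁ * h₂)⁻¹) ^ q = _
    rw [e]
    exact (show Commute (g * h₁ * g⁻¹ * h₁⁻¹) (g * h₂ * g⁻¹ * h₂⁻¹) from hcen g h₁ _).mul_pow q

variable (q : ℕ) (hcen : ∀ g h x : Rt, (g * h * g⁻¹ * h⁻¹) * x = x * (g * h * g⁻¹ * h⁻¹))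

theorem kap_apply (g h : Rt) : kap q hcen g h = (g * h * g⁻¹ * h⁻¹) ^ q := rfl

theorem kap_self (g : Rt) : kap q hcen g g = 1 := by
  rw [kap_apply]
  simp

theorem kap_swap (g h : Rt) : kap q hcen h g = (kap q hcen g h)⁻¹ := by
  rw [kap_apply, kap_apply, ← inv_pow]
  congr 1
  group

theorem kap_mul_left (g₁ g₂ h : Rt) :
    kap q hcen (g₁ * g₂) h = kap q hcen g₁ h * kap q hcen g₂ h := by
  rw [kap_swap q hcen h (g₁ * g₂), map_mul, mul_inv_rev, ← kap_swap, ← kap_swap]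
  rw [kap_apply, kap_apply]
  exact ((show Commute (g₂ * h * g₂⁻¹ * h⁻¹) (g₁ * h * g₁⁻¹ * h⁻¹) from hcen g₂ h _).pow_pow
    q q).eq

theorem kap_one_left (h : Rt) : kap q hcen 1 h = 1 := by
  rw [kap_apply]
  simp

theorem kap_pow_left (g h : Rt) (n : ℕ) : kap q hcen (g ^ n) h = (kap q hcen g h) ^ n := by
  induction n with
  | zero => rw [pow_zero, pow_zero, kap_one_left]
  | succ n ih => rw [pow_succ, pow_succ, kap_mul_left, ih]

theorem kap_inv_left (g h : Rt) : kap q hcen g⁻¹ h = (kap q hcen g h)⁻¹ := by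
  rw [kap_swap q hcen h g⁻¹, map_inv, ← kap_swap]

theorem kap_map (φ : MulAut Rt) (g h : Rt) : φ (kap q hcen g h) = kap q hcen (φ g) (φ h) := by
  rw [kap_apply, kap_apply, map_pow, map_mul, map_mul, map_mul, map_inv, map_inv]

theorem eq_of_pow_eq_of_coprime {x y : Rt} (hxy : Commute x y) {p : ℕ} (hx : x ^ p = 1)
    (hy : y ^ p = 1) (t : ℕ) (ht : Nat.Coprime t p) (h : x ^ t = y ^ t) : x = y := by
  have h1 : (x * y⁻¹) ^ t ∈ (⊥ : Subgroup Rt) := by
    rw [Subgroup.mem_bot, (hxy.inv_right).mul_pow, h, inv_pow, mul_inv_cancel]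
  have h2 : (x * y⁻¹) ^ p = 1 := by
    rw [(hxy.inv_right).mul_pow, hx, inv_pow, hy, inv_one, mul_one]
  have h3 := mem_of_pow_mem_of_coprime' (⊥ : Subgroup Rt) (x * y⁻¹) t p ht h1 h2
  rw [Subgroup.mem_bot, mul_inv_eq_one] at h3
  exact h3

end pairing

end Cfsg.Agent.Lib.Helper34
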