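import Mathlib
import Cfsg.Agent.Lib.Helper34.Blk1

/-!
# Rank-2 p-groups with `[R, A] = R`, part 2 (helper34): the metacyclic case

`metacyclic_comm_of_action` : a metacyclic `p`-group (`p` odd) with `[R, H] = R` for a
`p'`-group `H` of operators is abelian.
-/

set_option autoImplicit false

namespace Cfsg.Agent.Lib.Helper34

open Cfsg Cfsg.Agent.Lib.Helper69

open scoped commutatorElement

section blk2

universe u v

theorem metacyclic_comm_of_action {Rt : Type u} [Group Rt] [Finite Rt] {p : ℕ} [Fact p.Prime]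
    (hp2 : p ≠ 2) (hR : IsPGroup p Rt) (hmc : IsMetacyclic Rt)
    {H : Type v} [Group H] [Finite H] (θ : H →* MulAut Rt) (hHp : (Nat.card H).Coprime p)
    (hgen : ∀ N : Subgroup Rt, (∀ (r : Rt) (h : H), r * (θ h r)⁻¹ ∈ N) → N = ⊤) :
    ∀ x y : Rt, x * y = y * x := by
  classical
  have hpp : p.Prime := Fact.out
  obtain ⟨M⟩ := exists_MC hR hmc
  by_contra hnc
  have hc1 : M.c ≠ 1 := by
    intro h1
    apply hnc
    intro x y
    have h2 : ⁅x, y⁆ ∈ commutator Rt :=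
      Subgroup.commutator_mem_commutator (Subgroup.mem_top _) (Subgroup.mem_top _)
    rw [M.commutator_eq, h1, Subgroup.zpowers_one_eq_bot, Subgroup.mem_bot] at h2
    exact (commutatorElement_eq_one_iff_commute.mp h2).eq
  have hcomm_mem : ∀ g h : Rt, g * h * g⁻¹ * h⁻¹ ∈ Subgroup.zpowers M.c := by
    intro g h
    rw [← M.commutator_eq, ← commutatorElement_def]
    exact Subgroup.commutator_mem_commutator (Subgroup.mem_top _) (Subgroup.mem_top _)
  -- Step 1: `c` is central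
  have hφc : ∀ h : H, θ h M.c ∈ Subgroup.zpowers M.c := by
    intro h
    have h1 : θ h M.c = θ h M.b * θ h M.a * (θ h M.b)⁻¹ * (θ h M.a)⁻¹ := by
      rw [M.c_eq, commutatorElement_def, map_mul, map_mul, map_mul, map_inv, map_inv]
    rw [h1]
    exact hcomm_mem _ _
  have key1 : ∀ (h : H) (r : Rt), (r⁻¹ * θ h r) * M.c = M.c * (r⁻¹ * θ h r) := by
    intro h r
    obtain ⟨m, hm⟩ := Subgroup.mem_zpowers_iff.mp (hφc h)
    obtain ⟨m', hm'⟩ := Subgroup.mem_zpowers_iff.mp (hφc h⁻¹)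
    obtain ⟨k, hk⟩ := Subgroup.mem_zpowers_iff.mp (hcomm_mem r M.c)
    have e1 : r * M.c * r⁻¹ = M.c ^ (k + 1) := by rw [zpow_add_one, hk]; group
    have e2 : θ h r * θ h M.c * (θ h r)⁻¹ = r * θ h M.c * r⁻¹ := by
      calc θ h r * θ h M.c * (θ h r)⁻¹ = θ h (r * M.c * r⁻¹) := by
            rw [map_mul, map_mul, map_inv]
        _ = (θ h M.c) ^ (k + 1) := by rw [e1, map_zpow]
        _ = (M.c ^ (k + 1)) ^ m := by rw [← hm, ← zpow_mul, ← zpow_mul, mul_comm]
        _ = r * θ h M.c * r⁻¹ := by rw [← e1, ← hm, conj_zpow]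
    have e3 : M.c = (θ h M.c) ^ m' := by
      rw [← map_zpow, hm', ← MulAut.mul_apply, ← map_mul, mul_inv_cancel, map_one]
      rfl
    have e4 : (r⁻¹ * θ h r) * θ h M.c = θ h M.c * (r⁻¹ * θ h r) := by
      calc (r⁻¹ * θ h r) * θ h M.c = r⁻¹ * (θ h r * θ h M.c * (θ h r)⁻¹) * θ h r := by group
        _ = r⁻¹ * (r * θ h M.c * r⁻¹) * θ h r := by rw [e2]
        _ = _ := by group
    rw [e3]
    exact ((show Commute (r⁻¹ * θ h r) (θ h M.c) from e4).zpow_right m').eq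
  have hcc : ∀ g : Rt, M.c * g = g * M.c := by
    have hN : Subgroup.centralizer ({M.c} : Set Rt) = ⊤ := by
      apply hgen
      intro r h
      rw [Subgroup.mem_centralizer_iff]
      intro x hx
      rw [Set.mem_singleton_iff] at hx
      subst hx
      have h1 := key1 h r⁻¹
      rw [inv_inv, map_inv] at h1
      exact h1.symm
    intro g
    have h1 : g ∈ Subgroup.centralizer ({M.c} : Set Rt) := by rw [hN]; exact Subgroup.mem_top g
    exact Subgroup.mem_centralizer_iff.mp h1 M.c rfl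
  have hcen : ∀ g h x : Rt, (g * h * g⁻¹ * h⁻¹) * x = x * (g * h * g⁻¹ * h⁻¹) := by
    intro g h x
    obtain ⟨k, hk⟩ := Subgroup.mem_zpowers_iff.mp (hcomm_mem g h)
    rw [← hk]
    exact ((show Commute M.c x from hcc x).zpow_left k).eq
  -- Step 2: the order of `c`
  obtain ⟨e, he⟩ : ∃ e : ℕ, orderOf M.c = p ^ e := by
    obtain ⟨k, hk⟩ := hR M.c
    obtain ⟨e, -, he⟩ := (Nat.dvd_prime_pow hpp).mp (orderOf_dvd_of_pow_eq_one hk)
    exact ⟨e, he⟩
  have he1 : 1 ≤ e := by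
    rcases Nat.eq_zero_or_pos e with h0 | h0
    · exfalso
      rw [h0, pow_zero, orderOf_eq_one_iff] at he
      exact hc1 he
    · exact h0
  set q : ℕ := p ^ (e - 1) with hq
  have hqp : q * p = p ^ e := by
    rw [hq, ← pow_succ]
    congr 1
    omega
  set κ := kap q hcen with hκ
  set c₁ : Rt := M.c ^ q with hc₁
  have hc₁p : c₁ ^ p = 1 := by
    rw [hc₁, ← pow_mul, hqp, ← he, pow_orderOf_eq_one]
  have hc₁ne : c₁ ≠ 1 := by
    intro h1
    have h2 := orderOf_dvd_of_pow_eq_one h1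
    rw [he, hq] at h2
    have h3 := Nat.le_of_dvd (pow_pos hpp.pos _) h2
    have h4 : p ^ (e - 1) < p ^ e := Nat.pow_lt_pow_right hpp.one_lt (by omega)
    omega
  have hc₁ord : orderOf c₁ = p := orderOf_eq_prime hc₁p hc₁ne
  have hκval : ∀ g h : Rt, ∃ i : ℕ, κ g h = c₁ ^ i := by
    intro g h
    obtain ⟨k, hk⟩ := Subgroup.mem_zpowers_iff.mp (hcomm_mem g h)
    obtain ⟨i, hi⟩ := zpow_eq_pow_of_finite M.c k
    refine ⟨i, ?_⟩
    rw [hκ, kap_apply, ← hk, hi, hc₁, ← pow_mul, ← pow_mul, mul_comm]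
  have hκp : ∀ g h : Rt, (κ g h) ^ p = 1 := by
    intro g h
    obtain ⟨i, hi⟩ := hκval g h
    rw [hi, ← pow_mul, mul_comm, pow_mul, hc₁p, one_pow]
  have hκcomm : ∀ g h g' h' : Rt, Commute (κ g h) (κ g' h') := by
    intro g h g' h'
    obtain ⟨i, hi⟩ := hκval g h
    obtain ⟨i', hi'⟩ := hκval g' h'
    rw [hi, hi']
    exact (Commute.refl c₁).pow_pow i i'
  have hκba : κ M.b M.a = c₁ := by
    rw [hκ, kap_apply, hc₁, M.c_eq, commutatorElement_def]
  have hκflip : ∀ g h : Rt, κ g h = 1 → κ h g = 1 := by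
    intro g h h1
    rw [hκ, kap_swap, ← hκ, h1, inv_one]
  -- Step 3: power maps
  have hpow : ∀ j, e ≤ j → ∀ x y : Rt, (x * y) ^ (p ^ j) = x ^ (p ^ j) * y ^ (p ^ j) := by
    intro j hj x y
    have hc : ∀ g, ⁅y, x⁆ * g = g * ⁅y, x⁆ := fun g => by
      rw [commutatorElement_def]; exact hcen y x g
    rw [Cfsg.Agent.S0096.mul_pow_class2 x y hc]
    have h1 : ⁅y, x⁆ ^ ((p ^ j).choose 2) = 1 := by
      obtain ⟨i, hi⟩ := Subgroup.mem_zpowers_iff.mp (hcomm_mem y x)
      have hd : p ^ e ∣ (p ^ j).choose 2 := by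
        obtain ⟨m, hm⟩ := (hpp.odd_of_ne_two hp2).pow (n := j)
        have h2 : (p ^ j).choose 2 = p ^ j * m := by
          rw [Nat.choose_two_right, hm]
          have h3 : (2 * m + 1) * (2 * m + 1 - 1) = (2 * m + 1) * m * 2 := by
            rw [Nat.add_sub_cancel]; ring
          rw [h3, Nat.mul_div_cancel _ (by norm_num)]
        rw [h2]
        exact Dvd.dvd.mul_right (pow_dvd_pow p hj) m
      rw [commutatorElement_def, ← hi, ← zpow_natCast, ← zpow_mul, mul_comm, zpow_mul,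
        zpow_natCast, orderOf_dvd_iff_pow_eq_one.mp (he ▸ hd), one_zpow]
    rw [h1, mul_one]
  -- Step 4/5: the last power subgroup containing `c₁`
  have hstep4 : ∃ g : Rt, g ^ (p ^ e) = c₁ := by
    obtain ⟨t', ht'⟩ := M.hr
    refine ⟨M.a ^ t', ?_⟩
    rw [hc₁, MC.c, ht', ← pow_mul, ← pow_mul, ← hqp]
    congr 1
    ring
  obtain ⟨j, hj, ⟨g₀, hg₀⟩, hjmax⟩ : ∃ j, e ≤ j ∧ (∃ g : Rt, g ^ (p ^ j) = c₁) ∧
      ∀ y : Rt, y ^ (p ^ (j + 1)) ≠ c₁ := by
    by_contra hcon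
    have hstep : ∀ j, e ≤ j → (∃ g : Rt, g ^ (p ^ j) = c₁) → ∃ y : Rt, y ^ (p ^ (j + 1)) = c₁ := by
      intro j hj hg
      by_contra hy
      exact hcon ⟨j, hj, hg, fun y hy' => hy ⟨y, hy'⟩⟩
    have hall : ∀ j, e ≤ j → ∃ g : Rt, g ^ (p ^ j) = c₁ := by
      intro j hj
      induction j, hj using Nat.le_induction with
      | base => exact hstep4
      | succ j hj ih => exact hstep j hj ih
    obtain ⟨B, hB⟩ := IsPGroup.iff_card.mp hR
    obtain ⟨g, hg⟩ := hall (max e B) (le_max_left _ _)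
    have h1 : g ^ (p ^ (max e B)) = 1 := by
      obtain ⟨d, hd⟩ := pow_dvd_pow p (le_max_right e B)
      rw [hd, pow_mul, ← hB, pow_card_eq_one', one_pow]
    rw [h1] at hg
    exact hc₁ne hg.symm
  -- the subgroup `U₀`
  let U₀ : Subgroup Rt :=
    { carrier := {g | ∃ y : Rt, g ^ (p ^ j) = y ^ (p ^ (j + 1))}
      one_mem' := ⟨1, by simp⟩
      mul_mem' := by
        rintro x y ⟨x', hx⟩ ⟨y', hy⟩
        exact ⟨x' * y', by rw [hpow j hj, hx, hy, hpow (j + 1) (by omega)]⟩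
      inv_mem' := by
        rintro x ⟨x', hx⟩
        exact ⟨x'⁻¹, by rw [inv_pow, hx, inv_pow]⟩ }
  have hU₀ : ∀ g : Rt, g ∈ U₀ ↔ ∃ y : Rt, g ^ (p ^ j) = y ^ (p ^ (j + 1)) := fun g => Iff.rfl
  have hg₀U : g₀ ∉ U₀ := by
    rintro ⟨y, hy⟩
    exact hjmax y (by rw [← hy, hg₀])
  set Rad : Subgroup Rt := ⨅ g : Rt, (κ g).ker with hRadd
  have hRad : ∀ f : Rt, f ∈ Rad ↔ ∀ g, κ g f = 1 := by
    intro f
    rw [hRadd, Subgroup.mem_iInf]
    exact Iff.rfl
  have hRadU : Rad ≤ U₀ := by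
    intro f hf
    rw [hRad] at hf
    obtain ⟨i, k, rfl⟩ := M.gen f
    have h1 := hf M.a
    rw [map_mul, map_pow, map_pow, hκ, kap_self, one_pow, one_mul, kap_swap q hcen M.b M.a,
      ← hκ, hκba, inv_pow, inv_eq_one] at h1
    have h2 := hf M.b
    rw [map_mul, map_pow, map_pow, hκ, kap_self, one_pow, mul_one, ← hκ, hκba] at h2
    obtain ⟨k', rfl⟩ : p ∣ k := by rw [← hc₁ord]; exact orderOf_dvd_of_pow_eq_one h1
    obtain ⟨i', rfl⟩ : p ∣ i := by rw [← hc₁ord]; exact orderOf_dvd_of_pow_eq_one h2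
    refine ⟨M.a ^ i' * M.b ^ k', ?_⟩
    rw [hpow j hj, hpow (j + 1) (by omega), ← pow_mul, ← pow_mul, ← pow_mul, ← pow_mul]
    congr 2 <;> ring
  have hcommRad : commutator Rt ≤ Rad := by
    rw [M.commutator_eq, Subgroup.zpowers_le, hRad]
    intro g
    rw [hκ, kap_apply]
    have h1 : g * M.c * g⁻¹ * M.c⁻¹ = 1 := by rw [← hcc g]; group
    rw [h1, one_pow]
  -- the action on `c₁`
  have hφc₁ : ∀ h : H, ∃ t : ℕ, θ h c₁ = c₁ ^ t ∧ Nat.Coprime t p := by
    intro h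
    obtain ⟨m, hm⟩ := Subgroup.mem_zpowers_iff.mp (hφc h)
    obtain ⟨t, ht⟩ := zpow_eq_pow_of_finite M.c m
    have h1 : θ h c₁ = c₁ ^ t := by
      rw [hc₁, map_pow, ← hm, ht, ← pow_mul, ← pow_mul, mul_comm]
    refine ⟨t, h1, ?_⟩
    rw [Nat.coprime_comm, hpp.coprime_iff_not_dvd]
    rintro ⟨d, rfl⟩
    rw [pow_mul, hc₁p, one_pow] at h1
    exact hc₁ne ((EmbeddingLike.map_eq_one_iff (f := θ h)).mp h1)
  have hφU : ∀ (h : H) (w : Rt), w ∈ U₀ → θ h w ∈ U₀ := by
    rintro h w ⟨y, hy⟩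
    exact ⟨θ h y, by rw [← map_pow, hy, map_pow]⟩
  have hkey : ∀ (h : H) (w : Rt), (∀ u ∈ U₀, κ u (θ h w) = 1) → κ g₀ (θ h w) = κ g₀ w := by
    intro h w hw
    obtain ⟨t, ht, htp⟩ := hφc₁ h
    have hu₀ : (g₀ ^ t)⁻¹ * θ h g₀ ∈ U₀ := by
      refine ⟨1, ?_⟩
      rw [hpow j hj, inv_pow, ← pow_mul, mul_comm t, pow_mul, ← map_pow, hg₀, ht, one_pow,
        inv_mul_cancel]
    have h1 : θ h (κ g₀ w) = (κ g₀ w) ^ t := by
      obtain ⟨i, hi⟩ := hκval g₀ w
      rw [hi, map_pow, ht]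
      exact pow_right_comm c₁ t i
    have h2 : θ h (κ g₀ w) = (κ g₀ (θ h w)) ^ t := by
      rw [hκ, kap_map, ← hκ]
      have h3 : θ h g₀ = g₀ ^ t * ((g₀ ^ t)⁻¹ * θ h g₀) := by group
      rw [h3, hκ, kap_mul_left, kap_pow_left, ← hκ, hw _ hu₀, mul_one]
    apply eq_of_pow_eq_of_coprime (hκcomm _ _ _ _) (hκp _ _) (hκp _ _) t htp
    rw [← h2, h1]
  by_cases hU : U₀ ≤ Rad
  · -- Case II
    have hN : (κ g₀).ker = ⊤ := by
      apply hgen
      intro r h
      rw [MonoidHom.mem_ker, map_mul, map_inv, mul_inv_eq_one]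
      refine (hkey h r ?_).symm
      intro u hu
      exact hκflip _ _ ((hRad u).mp (hU hu) _)
    apply hg₀U
    apply hRadU
    rw [hRad]
    intro g
    apply hκflip
    have h1 : g ∈ (κ g₀).ker := by rw [hN]; exact Subgroup.mem_top g
    exact h1
  · -- Case I
    obtain ⟨u, huU, huR⟩ := SetLike.not_le_iff_exists.mp hU
    have hcard1 : Nat.card Rt ≤ Nat.card Rad * (p * p) := by
      have h1 := card_le_inf_mul_of_fibers (⊤ : Subgroup Rt) Rad
        (β := ↥(Subgroup.zpowers c₁) × ↥(Subgroup.zpowers c₁))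
        (fun m => (⟨κ M.a (m : Rt), by
            obtain ⟨i, hi⟩ := hκval M.a (m : Rt)
            rw [hi]; exact Subgroup.pow_mem _ (Subgroup.mem_zpowers _) _⟩,
          ⟨κ M.b (m : Rt), by
            obtain ⟨i, hi⟩ := hκval M.b (m : Rt)
            rw [hi]; exact Subgroup.pow_mem _ (Subgroup.mem_zpowers _) _⟩))
        (by
          intro m m' hmm
          rw [Prod.mk.injEq, Subtype.mk.injEq, Subtype.mk.injEq] at hmm
          rw [hRad]
          intro g
          obtain ⟨i, k, rfl⟩ := M.gen g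
          rw [hκ, kap_mul_left, kap_pow_left, kap_pow_left, ← hκ, map_mul, map_mul, map_inv,
            map_inv, hmm.1, hmm.2, inv_mul_cancel, inv_mul_cancel, one_pow, one_pow, mul_one])
      rw [Subgroup.card_top, top_inf_eq, Nat.card_prod, Nat.card_zpowers, hc₁ord] at h1
      exact h1
    obtain ⟨x, hx⟩ := IsPGroup.iff_card.mp (hR.to_subgroup Rad)
    obtain ⟨y, hy⟩ := IsPGroup.iff_card.mp (hR.to_subgroup U₀)
    obtain ⟨z, hz⟩ := IsPGroup.iff_card.mp hR
    have hxy : x < y := by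
      have h1 : Nat.card Rad ≤ Nat.card U₀ := Subgroup.card_le_of_le hRadU
      have h2 : Nat.card Rad ≠ Nat.card U₀ := fun h3 =>
        huR ((Subgroup.eq_of_le_of_card_ge hRadU h3.ge) ▸ huU)
      rw [hx, hy] at h1 h2
      have h3 : p ^ x < p ^ y := lt_of_le_of_ne h1 h2
      exact (Nat.pow_lt_pow_iff_right hpp.one_lt).mp h3
    have hyz : y < z := by
      have h1 : Nat.card U₀ ≤ Nat.card Rt := Subgroup.card_le_card_group U₀
      have h2 : Nat.card U₀ ≠ Nat.card Rt := fun h3 => by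
        have h4 : U₀ = ⊤ := Subgroup.eq_top_of_card_eq _ h3
        exact hg₀U (h4 ▸ Subgroup.mem_top g₀)
      rw [hy, hz] at h1 h2
      have h3 : p ^ y < p ^ z := lt_of_le_of_ne h1 h2
      exact (Nat.pow_lt_pow_iff_right hpp.one_lt).mp h3
    have hzx : z ≤ x + 2 := by
      rw [hx, hz] at hcard1
      have h1 : p ^ z ≤ p ^ (x + 2) := by
        calc p ^ z ≤ p ^ x * (p * p) := hcard1
          _ = p ^ (x + 2) := by ring
      exact (Nat.pow_le_pow_iff_right hpp.one_lt).mp h1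
    have hy' : y = x + 1 := by omega
    have hz' : z = x + 2 := by omega
    have hU₀eq : Rad ⊔ Subgroup.zpowers u = U₀ := by
      have hc : Nat.card U₀ = p * Nat.card Rad := by rw [hx, hy, hy', pow_succ, mul_comm]
      rcases eq_or_eq_of_prime_index hpp (le_sup_left : Rad ≤ Rad ⊔ Subgroup.zpowers u)
        (sup_le hRadU (Subgroup.zpowers_le.mpr huU)) hc with h1 | h1
      · exfalso
        apply huR
        rw [← h1]
        exact (le_sup_right : Subgroup.zpowers u ≤ Rad ⊔ Subgroup.zpowers u)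
          (Subgroup.mem_zpowers u)
      · exact h1
    have hTop : U₀ ⊔ Subgroup.zpowers g₀ = ⊤ := by
      have hc : Nat.card (⊤ : Subgroup Rt) = p * Nat.card U₀ := by
        rw [Subgroup.card_top, hz, hy, hz', hy', pow_succ, mul_comm]
      rcases eq_or_eq_of_prime_index hpp (le_sup_left : U₀ ≤ U₀ ⊔ Subgroup.zpowers g₀)
        le_top hc with h1 | h1
      · exfalso
        apply hg₀U
        rw [← h1]
        exact (le_sup_right : Subgroup.zpowers g₀ ≤ U₀ ⊔ Subgroup.zpowers g₀)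
          (Subgroup.mem_zpowers g₀)
      · exact h1
    have hUu : ∀ u₂ ∈ U₀, κ u u₂ = 1 := by
      have h1 : U₀ ≤ (κ u).ker := by
        rw [← hU₀eq]
        apply sup_le
        · intro f hf
          exact (hRad f).mp hf u
        · rw [Subgroup.zpowers_le, MonoidHom.mem_ker, hκ, kap_self]
      intro u₂ hu₂
      exact h1 hu₂
    have hUU : ∀ u₁ ∈ U₀, ∀ u₂ ∈ U₀, κ u₁ u₂ = 1 := by
      intro u₁ hu₁
      have h1 : U₀ ≤ (κ u₁).ker := by
        rw [← hU₀eq]
        apply sup_le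
        · intro f hf
          exact (hRad f).mp hf u₁
        · rw [Subgroup.zpowers_le, MonoidHom.mem_ker]
          exact hκflip _ _ (hUu u₁ hu₁)
      intro u₂ hu₂
      exact h1 hu₂
    apply huR
    apply fixed_mod hR θ hHp hgen Rad hcommRad u
    intro h
    have hxU : u⁻¹ * θ h u ∈ U₀ := U₀.mul_mem (U₀.inv_mem huU) (hφU h u huU)
    rw [hRad]
    intro g
    apply hκflip
    have h1 : (⊤ : Subgroup Rt) ≤ (κ (u⁻¹ * θ h u)).ker := by
      rw [← hTop]
      apply sup_le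
      · intro f hf
        exact hUU _ hxU f hf
      · rw [Subgroup.zpowers_le, MonoidHom.mem_ker]
        apply hκflip
        rw [map_mul, map_inv, inv_mul_eq_one]
        exact (hkey h u (fun u' hu' => hUU u' hu' _ (hφU h u huU))).symm
    exact h1 (Subgroup.mem_top g)

end blk2

end Cfsg.Agent.Lib.Helper34
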