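import Mathlib
import Cfsg.Agent.Lib.Helper34.Blk1
import Cfsg.Agent.Lib.Helper59.Rk2Meta

/-!
# Rank-2 p-groups with `[R, A] = R`, part 3 (helper34): Blackburn's third family

`blk_case3` : a group of Blackburn's third family (`yz = zy`, `x⁻¹yx = y z^(s p^(n-3))`,
`x⁻¹zx = yz`, `n ≥ 4`) has no group `H` of operators of odd order with `[R, H] = R`.
-/

set_option autoImplicit false

namespace Cfsg.Agent.Lib.Helper34

open Cfsg Cfsg.Agent.Lib.Helper69

open scoped commutatorElement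

section blk3

universe u v

theorem blk_case3 {Rt : Type u} [Group Rt] [Finite Rt] {p : ℕ} [Fact p.Prime]
    (n : ℕ) (hn : 4 ≤ n) (hcard : Nat.card Rt = p ^ n)
    {H : Type v} [Group H] [Finite H] (θ : H →* MulAut Rt) (hHodd : Odd (Nat.card H))
    (hgen : ∀ N : Subgroup Rt, (∀ (r : Rt) (h : H), r * (θ h r)⁻¹ ∈ N) → N = ⊤)
    (s : ℕ) (x y z : Rt) (hs : s = 1 ∨ ¬ IsSquare (s : ZMod p))
    (hclo : Subgroup.closure ({x, y, z} : Set Rt) = ⊤)
    (hx : x ^ p = 1) (hy : y ^ p = 1) (hz : z ^ p ^ (n - 2) = 1) (hyz : y * z = z * y)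
    (hxy : x⁻¹ * y * x = y * z ^ (s * p ^ (n - 3))) (hxz : x⁻¹ * z * x = y * z) : False := by
  classical
  have hpp : p.Prime := Fact.out
  have hsp : ¬ p ∣ s := by
    rcases hs with h | h
    · rw [h]
      intro h1
      exact hpp.one_lt.ne' (Nat.dvd_one.mp h1)
    · intro hd
      apply h
      have h1 : (s : ZMod p) = 0 := (ZMod.natCast_eq_zero_iff s p).mpr hd
      rw [h1]
      exact ⟨0, by simp⟩
  obtain ⟨P, hPdef⟩ : ∃ P, P = p ^ (n - 3) := ⟨_, rfl⟩
  rw [← hPdef] at hxy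
  have hP1 : P = p * p ^ (n - 4) := by
    rw [hPdef, ← pow_succ']
    congr 1
    omega
  have hP2 : P * p = p ^ (n - 2) := by
    rw [hPdef, ← pow_succ]
    congr 1
    omega
  have hcyz : Commute y z := hyz
  have hyP : ∀ m : ℕ, y ^ (s * P * m) = 1 := by
    intro m
    have h1 : s * P * m = p * (s * p ^ (n - 4) * m) := by rw [hP1]; ring
    rw [h1, pow_mul, hy, one_pow]
  have hzPP : ∀ m : ℕ, z ^ (P * P * m) = 1 := by
    intro m
    have h1 : P * P * m = p ^ (n - 2) * (p ^ (n - 4) * m) := by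
      rw [← hP2, hP1]; ring
    rw [h1, pow_mul, hz, one_pow]
  have hmulf : ∀ a b c d : ℕ, (y ^ a * z ^ b) * (y ^ c * z ^ d) = y ^ (a + c) * z ^ (b + d) := by
    intro a b c d
    have h1 : z ^ b * y ^ c = y ^ c * z ^ b := ((hcyz.pow_pow c b).eq).symm
    rw [pow_add, pow_add, mul_assoc, ← mul_assoc (z ^ b), h1]
    simp only [mul_assoc]
  have hpowf : ∀ a b m : ℕ, (y ^ a * z ^ b) ^ m = y ^ (a * m) * z ^ (b * m) := by
    intro a b m
    rw [(hcyz.pow_pow a b).mul_pow, ← pow_mul, ← pow_mul]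
  set B : Subgroup Rt := Subgroup.closure ({y, z} : Set Rt) with hBdef
  have hyB : y ∈ B := Subgroup.subset_closure (by simp)
  have hzB : z ∈ B := Subgroup.subset_closure (by simp)
  have hBmem : ∀ j k : ℕ, y ^ j * z ^ k ∈ B := fun j k =>
    B.mul_mem (B.pow_mem hyB j) (B.pow_mem hzB k)
  have hBform : ∀ b ∈ B, ∃ j k : ℕ, b = y ^ j * z ^ k := by
    intro b hb
    induction hb using Subgroup.closure_induction with
    | mem v hv =>
      rcases hv with hv | hv
      · exact ⟨1, 0, by rw [hv]; simp⟩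
      · rw [Set.mem_singleton_iff] at hv
        exact ⟨0, 1, by rw [hv]; simp⟩
    | one => exact ⟨0, 0, by simp⟩
    | mul v v' _ _ hv hv' =>
      obtain ⟨j, k, rfl⟩ := hv
      obtain ⟨j', k', rfl⟩ := hv'
      exact ⟨_, _, hmulf j k j' k'⟩
    | inv v _ hv =>
      obtain ⟨j, k, rfl⟩ := hv
      obtain ⟨m, hm⟩ := inv_eq_pow_of_finite (y ^ j * z ^ k)
      exact ⟨_, _, by rw [hm, hpowf]⟩
  have hBcomm : ∀ a ∈ B, ∀ b ∈ B, a * b = b * a := by
    intro a ha b hb
    obtain ⟨j, k, rfl⟩ := hBform a ha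
    obtain ⟨j', k', rfl⟩ := hBform b hb
    rw [hmulf, hmulf, add_comm j, add_comm k]
  have hσ1 : ∀ j k : ℕ, x⁻¹ * (y ^ j * z ^ k) * x = y ^ (j + k) * z ^ (k + s * P * j) := by
    intro j k
    have e1 : ∀ (v : Rt) (m : ℕ), (x⁻¹ * v * x) ^ m = x⁻¹ * v ^ m * x := by
      intro v m
      have h2 := conj_pow (a := x⁻¹) (b := v) (i := m)
      rwa [inv_inv] at h2
    have h1 : x⁻¹ * (y ^ j * z ^ k) * x = (x⁻¹ * y * x) ^ j * (x⁻¹ * z * x) ^ k := by
      rw [e1, e1]; group
    rw [h1, hxy, hxz, (hcyz.pow_right (s * P)).mul_pow, hcyz.mul_pow, ← pow_mul, hmulf,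
      add_comm (s * P * j) k]
  have hσ : ∀ l : ℕ, ∃ t : ℕ, ∀ j k : ℕ, (x ^ l)⁻¹ * (y ^ j * z ^ k) * x ^ l =
      y ^ (j + l * k) * z ^ (k + s * P * (l * j + t * k)) := by
    intro l
    induction l with
    | zero => exact ⟨0, fun j k => by simp⟩
    | succ l ih =>
      obtain ⟨t, ht⟩ := ih
      refine ⟨t + l, fun j k => ?_⟩
      have h1 : (x ^ (l + 1))⁻¹ * (y ^ j * z ^ k) * x ^ (l + 1) =
          x⁻¹ * ((x ^ l)⁻¹ * (y ^ j * z ^ k) * x ^ l) * x := by rw [pow_succ]; group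
      rw [h1, ht, hσ1]
      have h2 : j + l * k + (k + s * P * (l * j + t * k)) =
          (j + (l + 1) * k) + s * P * (l * j + t * k) := by ring
      have h3 : k + s * P * (l * j + t * k) + s * P * (j + l * k) =
          k + s * P * ((l + 1) * j + (t + l) * k) := by ring
      rw [h2, h3, pow_add, hyP, mul_one]
  have hxinvN : x⁻¹ ∈ Subgroup.normalizer (B : Set Rt) := by
    apply Subgroup.mem_normalizer_fintype
    intro v hv
    obtain ⟨j, k, rfl⟩ := hBform v hv
    rw [inv_inv, hσ1]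
    exact hBmem _ _
  have hBN : B.Normal := by
    have h1 : Subgroup.normalizer (B : Set Rt) = ⊤ := by
      rw [eq_top_iff, ← hclo, Subgroup.closure_le]
      intro v hv
      rcases hv with hv | hv | hv
      · rw [hv]
        have h2 := Subgroup.inv_mem _ hxinvN
        rwa [inv_inv] at h2
      · rw [hv]; exact Subgroup.le_normalizer hyB
      · rw [Set.mem_singleton_iff] at hv
        rw [hv]; exact Subgroup.le_normalizer hzB
    exact Subgroup.normalizer_eq_top_iff.mp h1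
  have hsup : Subgroup.zpowers x ⊔ B = ⊤ := by
    rw [eq_top_iff, ← hclo, Subgroup.closure_le]
    intro v hv
    rcases hv with hv | hv | hv
    · rw [hv]
      exact (le_sup_left : Subgroup.zpowers x ≤ Subgroup.zpowers x ⊔ B) (Subgroup.mem_zpowers x)
    · rw [hv]
      exact (le_sup_right : B ≤ Subgroup.zpowers x ⊔ B) hyB
    · rw [Set.mem_singleton_iff] at hv
      rw [hv]
      exact (le_sup_right : B ≤ Subgroup.zpowers x ⊔ B) hzB
  have hform : ∀ r : Rt, ∃ l : ℕ, ∃ b ∈ B, r = x ^ l * b := by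
    intro r
    have h1 : r ∈ Subgroup.zpowers x ⊔ B := by rw [hsup]; exact Subgroup.mem_top r
    obtain ⟨a, ha, b, hb, hab⟩ := Subgroup.mem_sup_of_normal_right.mp h1
    obtain ⟨m, hm⟩ := Subgroup.mem_zpowers_iff.mp ha
    obtain ⟨l, hl⟩ := zpow_eq_pow_of_finite x m
    exact ⟨l, b, hb, by rw [← hab, ← hm, hl]⟩
  have hordz : orderOf z = p ^ (n - 2) := by
    obtain ⟨m, hm, hmo⟩ := (Nat.dvd_prime_pow hpp).mp (orderOf_dvd_of_pow_eq_one hz)
    have hsurj : Function.Surjective (fun q : Fin p × Fin p × Fin (orderOf z) =>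
        x ^ (q.1 : ℕ) * (y ^ (q.2.1 : ℕ) * z ^ (q.2.2 : ℕ))) := by
      intro r
      obtain ⟨l, b, hb, rfl⟩ := hform r
      obtain ⟨j, k, rfl⟩ := hBform b hb
      refine ⟨(⟨l % p, Nat.mod_lt _ hpp.pos⟩, ⟨j % p, Nat.mod_lt _ hpp.pos⟩,
        ⟨k % orderOf z, Nat.mod_lt _ (orderOf_pos z)⟩), ?_⟩
      show x ^ (l % p) * (y ^ (j % p) * z ^ (k % orderOf z)) = _
      rw [← pow_eq_pow_mod l hx, ← pow_eq_pow_mod j hy, pow_mod_orderOf]
    have h1 := Nat.card_le_card_of_surjective _ hsurj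
    rw [hcard, Nat.card_prod, Nat.card_prod, Nat.card_fin, Nat.card_fin, hmo] at h1
    have h2 : p ^ n ≤ p ^ (m + 2) := by
      calc p ^ n ≤ p * (p * p ^ m) := h1
        _ = p ^ (m + 2) := by ring
    have h3 := (Nat.pow_le_pow_iff_right hpp.one_lt).mp h2
    have h4 : m = n - 2 := by omega
    rw [hmo, h4]
  have hw1 : z ^ (s * P) ≠ 1 := by
    intro h1
    have h2 := orderOf_dvd_of_pow_eq_one h1
    rw [hordz, ← hP2, mul_comm s P] at h2
    have h3 : p ∣ s := Nat.dvd_of_mul_dvd_mul_left (by rw [hPdef]; exact pow_pos hpp.pos _) h2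
    exact hsp h3
  have hwp : (z ^ (s * P)) ^ p = 1 := by
    rw [← pow_mul, mul_assoc, hP2, mul_comm, pow_mul, hz, one_pow]
  have hword : orderOf (z ^ (s * P)) = p := orderOf_eq_prime hwp hw1
  have hxB : x ∉ B := by
    intro hxB'
    have h1 := hBcomm x hxB' y hyB
    have h2 : x⁻¹ * y * x = y := by rw [mul_assoc, ← h1]; group
    rw [h2] at hxy
    have h3 : y * 1 = y * z ^ (s * P) := by rw [mul_one]; exact hxy
    exact hw1 (mul_left_cancel h3).symm
  have hD : commutator Rt ≤ B := by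
    haveI : IsCyclic (Rt ⧸ B) := Cfsg.Agent.Lib.Helper59.Rk2.isCyclic_quotient_of_sup B x hsup
    have hc : ∀ a b : Rt ⧸ B, a * b = b * a := fun a b =>
      (inferInstance : IsMulCommutative (Rt ⧸ B)).is_comm.comm a b
    rw [commutator_eq_closure, Subgroup.closure_le]
    intro g hg
    obtain ⟨g₁, g₂, rfl⟩ := mem_commutatorSet_iff.mp hg
    rw [SetLike.mem_coe, ← QuotientGroup.eq_one_iff, commutatorElement_def, QuotientGroup.mk_mul,
      QuotientGroup.mk_mul, QuotientGroup.mk_mul, QuotientGroup.mk_inv, QuotientGroup.mk_inv,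
      hc (g₁ : Rt ⧸ B) (g₂ : Rt ⧸ B)]
    group
  have hφB : ∀ (h : H), ∀ v ∈ B, θ h v ∈ B := by
    intro h v hv
    obtain ⟨l, b, hb, hlb⟩ := hform (θ h v)
    have h1 : θ h v * y = y * θ h v := by
      have h2 : θ h⁻¹ y ∈ B := by
        apply hD
        have h3 : θ h⁻¹ y = ⁅θ h⁻¹ x⁻¹, θ h⁻¹ z⁆ := by
          rw [← map_commutatorElement]
          congr 1
          rw [commutatorElement_def, inv_inv, hxz]
          group
        rw [h3]
        exact Subgroup.commutator_mem_commutator (Subgroup.mem_top _) (Subgroup.mem_top _)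
      have h4 : v * θ h⁻¹ y = θ h⁻¹ y * v := hBcomm v hv _ h2
      have h5 := congrArg (θ h) h4
      rw [map_mul, map_mul] at h5
      have h6 : θ h (θ h⁻¹ y) = y := by
        rw [← MulAut.mul_apply, ← map_mul, mul_inv_cancel, map_one]
        rfl
      rwa [h6] at h5
    rw [hlb] at h1
    have h7 : (x ^ l)⁻¹ * y * x ^ l = y := by
      have h8 : b * y = y * b := hBcomm b hb y hyB
      have h9 : x ^ l * y = y * x ^ l := by
        have h10 : x ^ l * y * b = y * x ^ l * b := by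
          rw [mul_assoc, ← h8, ← mul_assoc, h1, mul_assoc]
        exact mul_right_cancel h10
      rw [mul_assoc, ← h9]
      group
    obtain ⟨t, ht⟩ := hσ l
    have h10 := ht 1 0
    rw [pow_one, pow_zero, mul_one, h7] at h10
    have h11 : z ^ (s * P * l) = 1 := by
      simp only [mul_zero, add_zero, zero_add, mul_one, pow_one] at h10
      have h14 : y * 1 = y * z ^ (s * P * l) := by rw [mul_one]; exact h10
      exact (mul_left_cancel h14).symm
    have h12 : p ∣ l := by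
      have h13 := orderOf_dvd_of_pow_eq_one (by rw [← pow_mul]; exact h11 : (z ^ (s * P)) ^ l = 1)
      rwa [hword] at h13
    obtain ⟨d, rfl⟩ := h12
    rw [hlb, pow_mul, hx, one_pow, one_mul]
    exact hb
  have hmain : ∀ h : H, ∃ l : ℕ, ∃ b₁ ∈ B, θ h x = x ^ l * b₁ ∧ l * l ≡ 1 [MOD p] := by
    intro h
    obtain ⟨l, b₁, hb₁, hl⟩ := hform (θ h x)
    refine ⟨l, b₁, hb₁, hl, ?_⟩
    obtain ⟨t, ht⟩ := hσ l
    obtain ⟨j, k, hjk⟩ := hBform (θ h z) (hφB h z hzB)
    have hconj : ∀ a c : ℕ, (θ h x)⁻¹ * (y ^ a * z ^ c) * θ h x =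
        (y ^ (l * c) * z ^ (s * P * (l * a + t * c))) * (y ^ a * z ^ c) := by
      intro a c
      have h1 : (θ h x)⁻¹ * (y ^ a * z ^ c) * θ h x =
          b₁⁻¹ * ((x ^ l)⁻¹ * (y ^ a * z ^ c) * x ^ l) * b₁ := by
        rw [hl]; group
      have h2 : b₁⁻¹ * (y ^ (a + l * c) * z ^ (c + s * P * (l * a + t * c))) * b₁ =
          y ^ (a + l * c) * z ^ (c + s * P * (l * a + t * c)) := by
        rw [mul_assoc, hBcomm _ (hBmem _ _) b₁ hb₁, inv_mul_cancel_left]
      rw [h1, ht, hmulf, h2, add_comm (l * c) a, add_comm (s * P * (l * a + t * c)) c]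
    have e1 : θ h y = y ^ (l * k) * z ^ (s * P * (l * j + t * k)) := by
      have h1 := congrArg (θ h) hxz
      simp only [map_mul, map_inv] at h1
      rw [hjk, hconj] at h1
      exact (mul_right_cancel h1).symm
    have e2 : θ h (z ^ (s * P)) = (z ^ (s * P)) ^ (l * l * k) := by
      have h1 := congrArg (θ h) hxy
      simp only [map_mul, map_inv] at h1
      rw [e1, hconj, hBcomm _ (hBmem _ _) _ (hBmem _ _)] at h1
      have h2 := mul_left_cancel h1
      rw [← h2]
      have h3 : l * (s * P * (l * j + t * k)) = s * P * (l * (l * j + t * k)) := by ring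
      have h4 : s * P * (l * (l * k) + t * (s * P * (l * j + t * k))) =
          s * P * (l * l * k) + P * P * (s * s * t * (l * j + t * k)) := by ring
      rw [h3, hyP, one_mul, h4, pow_add, hzPP, mul_one, pow_mul]
    have e3 : θ h (z ^ (s * P)) = (z ^ (s * P)) ^ k := by
      rw [map_pow, hjk, hpowf]
      have h3 : j * (s * P) = s * P * j := by ring
      rw [h3, hyP, one_mul, mul_comm k, pow_mul]
    have hk : Nat.Coprime p k := by
      rw [hpp.coprime_iff_not_dvd]
      rintro ⟨d, rfl⟩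
      rw [pow_mul (z ^ (s * P)) p d, hwp, one_pow] at e3
      exact hw1 ((EmbeddingLike.map_eq_one_iff (f := θ h)).mp e3)
    have h5 : (z ^ (s * P)) ^ (l * l * k) = (z ^ (s * P)) ^ (1 * k) := by
      rw [← e2, e3, one_mul]
    rw [pow_eq_pow_iff_modEq, hword] at h5
    exact Nat.ModEq.cancel_right_of_coprime hk h5
  have hπB : ∀ b ∈ B, (QuotientGroup.mk' B) b = 1 := fun b hb =>
    (QuotientGroup.eq_one_iff b).mpr hb
  have hπx : (QuotientGroup.mk' B) x ^ p = 1 := by rw [← map_pow, hx, map_one]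
  have hπφ : ∀ h : H, (QuotientGroup.mk' B) (θ h x) = (QuotientGroup.mk' B) x := by
    intro h
    obtain ⟨k, hk⟩ := hHodd
    obtain ⟨g, hg⟩ : ∃ g : H, g * g = h := by
      refine ⟨h ^ (k + 1), ?_⟩
      rw [← pow_add]
      have h1 : k + 1 + (k + 1) = Nat.card H + 1 := by omega
      rw [h1, pow_succ, pow_card_eq_one', one_mul]
    obtain ⟨l, b₁, hb₁, hl, hmod⟩ := hmain g
    have hh : θ h x = θ g (θ g x) := by
      rw [← hg, map_mul]
      rfl
    rw [hh, hl, map_mul, map_pow, hl]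
    simp only [map_mul, map_pow]
    rw [hπB b₁ hb₁, hπB _ (hφB _ b₁ hb₁), mul_one, mul_one, ← pow_mul]
    have h2 : (QuotientGroup.mk' B) x ^ (l * l) = (QuotientGroup.mk' B) x ^ 1 := by
      rw [pow_eq_pow_iff_modEq]
      exact Nat.ModEq.of_dvd (orderOf_dvd_of_pow_eq_one hπx) hmod
    rw [h2, pow_one]
  have hBtop : B = ⊤ := by
    apply hgen
    intro r h
    obtain ⟨l, b, hb, rfl⟩ := hform r
    rw [← QuotientGroup.eq_one_iff]
    show (QuotientGroup.mk' B) (x ^ l * b * (θ h (x ^ l * b))⁻¹) = 1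
    simp only [map_mul, map_inv, map_pow]
    rw [hπφ h, hπB b hb, hπB _ (hφB h b hb), mul_one, mul_inv_cancel]
  exact hxB (hBtop ▸ Subgroup.mem_top x)

end blk3

end Cfsg.Agent.Lib.Helper34
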