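import Mathlib
import Cfsg.Agent.Lib.Helper34.Narrow1

/-!
# Narrow p-groups, part 2 (helper34)

* `omega_char`, `omega_le`, `omega_exp` : `Ω₁` of a characteristic class-2 subgroup
* `exists_faithful_omega` : a characteristic subgroup of exponent `p` on which `p'`-automorphisms
  act faithfully
* `chain_normal_pgroup` : from a uniserial characteristic subgroup `X` of exponent `p`, faithful
  for the `p'`-automorphisms of a characteristic subgroup `S` of index `p`, a normal `p`-subgroup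
  `N` of `MulAut R` with `MulAut R / N` abelian of exponent dividing `p - 1`.
-/

set_option autoImplicit false

namespace Cfsg.Agent.Lib.Helper34

open Cfsg

section narrow2

universe u

variable {R : Type u} [Group R]

theorem omega_char (p : ℕ) (C : Subgroup R) (hC : C.Characteristic) :
    (Subgroup.closure {y : R | y ∈ C ∧ y ^ p = 1}).Characteristic := by
  rw [Subgroup.characteristic_iff_le_comap]
  intro ϕ
  rw [Subgroup.closure_le]
  intro y hy
  apply Subgroup.subset_closure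
  refine ⟨mem_of_char hC ϕ hy.1, ?_⟩
  show (ϕ y) ^ p = 1
  rw [← map_pow, hy.2, map_one]

theorem omega_le (p : ℕ) (C : Subgroup R) :
    Subgroup.closure {y : R | y ∈ C ∧ y ^ p = 1} ≤ C := by
  rw [Subgroup.closure_le]
  intro y hy
  exact hy.1

/-- `Ω₁` of a subgroup of class at most 2 has exponent `p` (`p` odd) -/
theorem omega_exp [Finite R] {p : ℕ} [Fact p.Prime] (hp : p ≠ 2) (hR : IsPGroup p R)
    (C : Subgroup R)
    (hcen : ∀ a ∈ C, ∀ b ∈ C, ∀ c ∈ C, c * (a * b * a⁻¹ * b⁻¹) = (a * b * a⁻¹ * b⁻¹) * c) :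
    ∀ w ∈ Subgroup.closure {y : R | y ∈ C ∧ y ^ p = 1}, w ^ p = 1 := by
  have hPC : IsPGroup p ↥C := hR.to_subgroup C
  have hcl : ⁅commutator ↥C, (⊤ : Subgroup ↥C)⁆ = ⊥ := by
    rw [eq_bot_iff, Subgroup.commutator_le]
    intro g₁ hg₁ g₂ _
    rw [Subgroup.mem_bot]
    have hcen' : commutator ↥C ≤ Subgroup.center ↥C := by
      rw [commutator_eq_closure, Subgroup.closure_le]
      rintro _ ⟨a, b, rfl⟩
      rw [commutatorElement_def]
      apply Subgroup.mem_center_iff.mpr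
      intro z
      apply Subtype.ext
      exact hcen a a.2 b b.2 z z.2
    have h1 := Subgroup.mem_center_iff.mp (hcen' hg₁) g₂
    rw [commutatorElement_def]
    calc g₁ * g₂ * g₁⁻¹ * g₂⁻¹ = (g₂ * g₁) * g₁⁻¹ * g₂⁻¹ := by rw [h1]
      _ = 1 := by group
  intro w hw
  have h1 : ∃ hwC : w ∈ C, (⟨w, hwC⟩ : ↥C) ∈ Subgroup.closure {x : ↥C | x ^ p = 1} := by
    induction hw using Subgroup.closure_induction with
    | mem y hy =>
      refine ⟨hy.1, Subgroup.subset_closure ?_⟩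
      show (⟨y, hy.1⟩ : ↥C) ^ p = 1
      apply Subtype.ext
      exact hy.2
    | one => exact ⟨C.one_mem, Subgroup.one_mem _⟩
    | mul a b _ _ iha ihb =>
      obtain ⟨ha1, ha2⟩ := iha
      obtain ⟨hb1, hb2⟩ := ihb
      exact ⟨C.mul_mem ha1 hb1, Subgroup.mul_mem _ ha2 hb2⟩
    | inv a _ iha =>
      obtain ⟨ha1, ha2⟩ := iha
      exact ⟨C.inv_mem ha1, Subgroup.inv_mem _ ha2⟩
  obtain ⟨hwC, hmem⟩ := h1
  have h2 := Cfsg.Agent.S0096.result hp hPC hcl ⟨w, hwC⟩ hmem
  exact congrArg Subtype.val h2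

/-- a characteristic subgroup of exponent `p` on which the `p'`-automorphisms act faithfully -/
theorem exists_faithful_omega {S : Type u} [Group S] [Finite S] (p : ℕ) [Fact p.Prime]
    (hp : p ≠ 2) (hS : IsPGroup p S) :
    ∃ W : Subgroup S, W.Characteristic ∧ (∀ w ∈ W, w ^ p = 1) ∧
      ∀ α : MulAut S, (orderOf α).Coprime p → (∀ w ∈ W, α w = w) → α = 1 := by
  obtain ⟨C, hCchar, hC1, hC2, hC3⟩ := Cfsg.Agent.S0093.result hS
  have hcomm_central : ∀ a ∈ C, ∀ b : S, ∀ c ∈ C,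
      c * (a * b * a⁻¹ * b⁻¹) = (a * b * a⁻¹ * b⁻¹) * c := by
    intro a ha b c hc
    have h1 : a * b * a⁻¹ * b⁻¹ ∈ ⁅C, (⊤ : Subgroup S)⁆ := by
      have := Subgroup.commutator_mem_commutator ha (Subgroup.mem_top b)
      rw [commutatorElement_def] at this
      exact this
    have h2 := (hC2 h1).2
    exact Subgroup.mem_centralizer_iff.mp h2 c hc
  refine ⟨Subgroup.closure {y : S | y ∈ C ∧ y ^ p = 1}, omega_char p C hCchar,
    omega_exp hp hS C (fun a ha b _ c hc => hcomm_central a ha b c hc), ?_⟩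
  intro α hα hαW
  have hPC : IsPGroup p ↥C := hS.to_subgroup C
  set γ := resChar C hCchar α with hγ
  have hγord : (orderOf γ).Coprime p :=
    Nat.Coprime.coprime_dvd_left (orderOf_map_dvd (resChar C hCchar) α) hα
  have hγ1 : γ = 1 := by
    apply Cfsg.Agent.S0120.result hp hPC γ hγord
    intro x hx
    apply Subtype.ext
    show α (x : S) = x
    apply hαW
    apply Subgroup.subset_closure
    exact ⟨x.2, congrArg Subtype.val hx⟩
  apply Cfsg.Agent.S0121.result hS C hCchar hC1 hC2 hC3 α hα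
  intro x hx
  have h1 : γ ⟨x, hx⟩ = ⟨x, hx⟩ := by rw [hγ1]; rfl
  exact congrArg Subtype.val h1

/-- the chain argument -/
theorem chain_normal_pgroup [Finite R] {p : ℕ} [Fact p.Prime] (hR : IsPGroup p R)
    (X S : Subgroup R) (hX : X.Characteristic) (hS : S.Characteristic)
    (hcS : Nat.card R = p * Nat.card S)
    (huniq : ∀ Y Y' : Subgroup R, Y.Normal → Y'.Normal → Y ≤ X → Y' ≤ X →
      Nat.card Y = Nat.card Y' → Y = Y')
    (hfaith : ∀ β : MulAut R, (orderOf β).Coprime p → (∀ x ∈ X, β x = x) → ∀ x ∈ S, β x = x) :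
    ∃ N : Subgroup (MulAut R), N.Normal ∧ IsPGroup p N ∧
      (∀ α β : MulAut R, α * β * α⁻¹ * β⁻¹ ∈ N) ∧ (∀ α : MulAut R, α ^ (p - 1) ∈ N) := by
  have hp := (Fact.out : p.Prime)
  have hchar : ∀ Y : Subgroup R, Y.Normal → Y ≤ X → Y.Characteristic :=
    char_of_unique X hX huniq
  let N : Subgroup (MulAut R) :=
    { carrier := {α | (∀ r : R, r⁻¹ * α r ∈ S) ∧ ∀ Y Y' : Subgroup R, Y.Normal → Y'.Normal →
        Y ≤ X → Y' ≤ Y → Nat.card Y = p * Nat.card Y' → ∀ y ∈ Y, y⁻¹ * α y ∈ Y'}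
      mul_mem' := by
        rintro α β ⟨hα1, hα2⟩ ⟨hβ1, hβ2⟩
        refine ⟨fun r => ?_, fun Y Y' hYn hY'n hYX hY'Y hc y hy => ?_⟩
        · have e : r⁻¹ * (α * β) r = (r⁻¹ * β r) * ((β r)⁻¹ * α (β r)) := by
            rw [MulAut.mul_apply]; group
          rw [e]
          exact S.mul_mem (hβ1 r) (hα1 (β r))
        · have e : y⁻¹ * (α * β) y = (y⁻¹ * β y) * ((β y)⁻¹ * α (β y)) := by
            rw [MulAut.mul_apply]; group
          rw [e]
          exact Y'.mul_mem (hβ2 Y Y' hYn hY'n hYX hY'Y hc y hy)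
            (hα2 Y Y' hYn hY'n hYX hY'Y hc (β y) (mem_of_char (hchar Y hYn hYX) β hy))
      one_mem' := by
        refine ⟨fun r => ?_, fun Y Y' _ _ _ _ _ y _ => ?_⟩
        · rw [MulAut.one_apply, inv_mul_cancel]; exact S.one_mem
        · rw [MulAut.one_apply, inv_mul_cancel]; exact Y'.one_mem
      inv_mem' := by
        rintro α ⟨hα1, hα2⟩
        refine ⟨fun r => ?_, fun Y Y' hYn hY'n hYX hY'Y hc y hy => ?_⟩
        · have h := hα1 (α⁻¹ r)
          rw [MulAut.apply_inv_self] at h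
          have e : r⁻¹ * α⁻¹ r = ((α⁻¹ r)⁻¹ * r)⁻¹ := by group
          rw [e]
          exact S.inv_mem h
        · have h := hα2 Y Y' hYn hY'n hYX hY'Y hc (α⁻¹ y)
            (mem_of_char (hchar Y hYn hYX) α⁻¹ hy)
          rw [MulAut.apply_inv_self] at h
          have e : y⁻¹ * α⁻¹ y = ((α⁻¹ y)⁻¹ * y)⁻¹ := by group
          rw [e]
          exact Y'.inv_mem h }
  have hNn : N.Normal := by
    constructor
    rintro α ⟨hα1, hα2⟩ γ
    refine ⟨fun r => ?_, fun Y Y' hYn hY'n hYX hY'Y hc y hy => ?_⟩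
    · have e : r⁻¹ * (γ * α * γ⁻¹) r = γ ((γ⁻¹ r)⁻¹ * α (γ⁻¹ r)) := by
        rw [MulAut.mul_apply, MulAut.mul_apply, map_mul, map_inv, MulAut.apply_inv_self]
      rw [e]
      exact mem_of_char hS γ (hα1 _)
    · have e : y⁻¹ * (γ * α * γ⁻¹) y = γ ((γ⁻¹ y)⁻¹ * α (γ⁻¹ y)) := by
        rw [MulAut.mul_apply, MulAut.mul_apply, map_mul, map_inv, MulAut.apply_inv_self]
      rw [e]
      exact mem_of_char (hchar Y' hY'n (hY'Y.trans hYX)) γ
        (hα2 Y Y' hYn hY'n hYX hY'Y hc _ (mem_of_char (hchar Y hYn hYX) γ⁻¹ hy))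
  have hcomm : ∀ α β : MulAut R, α * β * α⁻¹ * β⁻¹ ∈ N := by
    intro α β
    refine ⟨fun r => ?_, fun Y Y' hYn hY'n hYX hY'Y hc y hy => ?_⟩
    · haveI := hS
      exact (section_comm_pow (p := p) ⊤ S le_top
        (by rw [Subgroup.card_top]; exact hcS)).1 α β r (Subgroup.mem_top r)
    · haveI := hchar Y hYn hYX
      haveI := hchar Y' hY'n (hY'Y.trans hYX)
      exact (section_comm_pow (p := p) Y Y' hY'Y hc).1 α β y hy
  have hpow : ∀ α : MulAut R, α ^ (p - 1) ∈ N := by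
    intro α
    refine ⟨fun r => ?_, fun Y Y' hYn hY'n hYX hY'Y hc y hy => ?_⟩
    · haveI := hS
      exact (section_comm_pow (p := p) ⊤ S le_top
        (by rw [Subgroup.card_top]; exact hcS)).2 α r (Subgroup.mem_top r)
    · haveI := hchar Y hYn hYX
      haveI := hchar Y' hY'n (hY'Y.trans hYX)
      exact (section_comm_pow (p := p) Y Y' hY'Y hc).2 α y hy
  have hfix : ∀ β ∈ N, (orderOf β).Coprime p → β = 1 := by
    rintro β ⟨hβ1, hβ2⟩ hβ
    have step : ∀ k : ℕ, ∀ Y : Subgroup R, Y.Normal → Y ≤ X → Nat.card Y = p ^ k →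
        ∀ y ∈ Y, β y = y := by
      intro k
      induction k with
      | zero =>
        intro Y _ _ hY y hy
        rw [pow_zero] at hY
        rw [Subgroup.eq_bot_of_card_eq Y hY, Subgroup.mem_bot] at hy
        rw [hy, map_one]
      | succ k ih =>
        intro Y hYn hYX hY
        haveI := hYn
        obtain ⟨D, hDY, hDn, hD⟩ := Cfsg.Agent.Lib.Helper31.exists_normal_le_card_eq hR
          (N := Y) (k := k) (by rw [hY]; exact Nat.pow_le_pow_right hp.pos (Nat.le_succ k))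
        exact fix_of_fix_section hR β hβ
          (hβ2 Y D hYn hDn hYX hDY (by rw [hY, hD, pow_succ']))
          (ih D hDn (hDY.trans hYX) hD)
    have hXfix : ∀ x ∈ X, β x = x := by
      obtain ⟨k, hk⟩ := IsPGroup.iff_card.mp (hR.to_subgroup X)
      haveI := hX
      exact step k X inferInstance le_rfl hk
    have hSfix := hfaith β hβ hXfix
    have hall := fix_of_fix_section hR β hβ (Y := ⊤) (K := S) (fun y _ => hβ1 y) hSfix
    ext r
    exact hall r (Subgroup.mem_top r)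
  have hNp : IsPGroup p ↥N := by
    rintro ⟨α, hα⟩
    have hord : orderOf α ≠ 0 := (orderOf_pos α).ne'
    obtain ⟨e, m, hm, hem⟩ := Nat.exists_eq_pow_mul_and_not_dvd hord p hp.ne_one
    refine ⟨e, ?_⟩
    apply Subtype.ext
    show α ^ p ^ e = 1
    apply hfix _ (N.pow_mem hα _)
    have h1 : (α ^ p ^ e) ^ m = 1 := by rw [← pow_mul, ← hem, pow_orderOf_eq_one]
    exact Nat.Coprime.coprime_dvd_left (orderOf_dvd_of_pow_eq_one h1)
      ((Nat.Prime.coprime_iff_not_dvd hp).mpr hm).symm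
  exact ⟨N, hNn, hNp, hcomm, hpow⟩

end narrow2

end Cfsg.Agent.Lib.Helper34
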