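import Mathlib
import Cfsg.Agent.Lib.Helper34.Blk1
import Cfsg.Agent.Lib.Helper34.Narrow2
import Cfsg.Agent.Lib.Helper59.Rk2Meta
import Cfsg.Agent.S3771

/-!
# Rank-2 p-groups with `[R, A] = R`, part 4 (helper34): Blackburn's second family

`blk_case2` : a group of Blackburn's second family is abelian or a central product
of a non-abelian group of order `p^3` and exponent `p` with a cyclic group.
-/

set_option autoImplicit false

namespace Cfsg.Agent.Lib.Helper34

open Cfsg Cfsg.Agent.Lib.Helper69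

open scoped commutatorElement

section blk4

universe u v

/-- commutators of a subgroup generated by `S` lie in a subgroup `K` centralised by `S` as soon
as the commutators of the generators do -/
theorem comm_mem_of_gens {G : Type*} [Group G] (S : Set G) (K : Subgroup G)
    (hK : ∀ k ∈ K, ∀ s ∈ S, k * s = s * k) (hS : ∀ s ∈ S, ∀ t ∈ S, s * t * s⁻¹ * t⁻¹ ∈ K) :
    ∀ a ∈ Subgroup.closure S, ∀ b ∈ Subgroup.closure S, a * b * a⁻¹ * b⁻¹ ∈ K := by
  have hK' : ∀ k ∈ K, ∀ a ∈ Subgroup.closure S, k * a = a * k := by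
    intro k hk a ha
    have h1 : Subgroup.closure S ≤ Subgroup.centralizer {k} := by
      rw [Subgroup.closure_le]
      intro s hs
      rw [SetLike.mem_coe, Subgroup.mem_centralizer_iff]
      intro h hh
      rw [Set.mem_singleton_iff] at hh
      rw [hh]
      exact hK k hk s hs
    exact Subgroup.mem_centralizer_iff.mp (h1 ha) k rfl
  have h1 : ∀ t ∈ S, ∀ a ∈ Subgroup.closure S, a * t * a⁻¹ * t⁻¹ ∈ K := by
    intro t ht a ha
    induction ha using Subgroup.closure_induction with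
    | mem s hs => exact hS s hs t ht
    | one => simp [K.one_mem]
    | mul a a' ha ha' iha iha' =>
      have e : a * a' * t * (a * a')⁻¹ * t⁻¹ =
          (a * (a' * t * a'⁻¹ * t⁻¹) * a⁻¹) * (a * t * a⁻¹ * t⁻¹) := by group
      have e2 : a * (a' * t * a'⁻¹ * t⁻¹) * a⁻¹ = a' * t * a'⁻¹ * t⁻¹ := by
        rw [← hK' _ iha' a ha, mul_inv_cancel_right]
      rw [e, e2]
      exact K.mul_mem iha' iha
    | inv a ha iha =>
      have e : a⁻¹ * t * a⁻¹⁻¹ * t⁻¹ = a⁻¹ * (a * t * a⁻¹ * t⁻¹)⁻¹ * a := by group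
      have e2 : a⁻¹ * (a * t * a⁻¹ * t⁻¹)⁻¹ * a = (a * t * a⁻¹ * t⁻¹)⁻¹ := by
        rw [mul_assoc, hK' _ (K.inv_mem iha) a ha, inv_mul_cancel_left]
      rw [e, e2]
      exact K.inv_mem iha
  intro a ha b hb
  induction hb using Subgroup.closure_induction with
  | mem t ht => exact h1 t ht a ha
  | one => simp [K.one_mem]
  | mul b b' hb hb' ihb ihb' =>
    have e : a * (b * b') * a⁻¹ * (b * b')⁻¹ =
        (a * b * a⁻¹ * b⁻¹) * (b * (a * b' * a⁻¹ * b'⁻¹) * b⁻¹) := by group
    have e2 : b * (a * b' * a⁻¹ * b'⁻¹) * b⁻¹ = a * b' * a⁻¹ * b'⁻¹ := by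
      rw [← hK' _ ihb' b hb, mul_inv_cancel_right]
    rw [e, e2]
    exact K.mul_mem ihb ihb'
  | inv b hb ihb =>
    have e : a * b⁻¹ * a⁻¹ * b⁻¹⁻¹ = b⁻¹ * (a * b * a⁻¹ * b⁻¹)⁻¹ * b := by group
    have e2 : b⁻¹ * (a * b * a⁻¹ * b⁻¹)⁻¹ * b = (a * b * a⁻¹ * b⁻¹)⁻¹ := by
      rw [mul_assoc, hK' _ (K.inv_mem ihb) b hb, inv_mul_cancel_left]
    rw [e, e2]
    exact K.inv_mem ihb

/-- a subgroup generated by pairwise commuting elements is commutative -/
theorem comm_of_closure_comm {G : Type*} [Group G] (S : Set G)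
    (hS : ∀ s ∈ S, ∀ t ∈ S, s * t = t * s) :
    ∀ a ∈ Subgroup.closure S, ∀ b ∈ Subgroup.closure S, a * b = b * a := by
  intro a ha b hb
  have h1 := comm_mem_of_gens S ⊥ (fun k hk s _ => by rw [Subgroup.mem_bot.mp hk, one_mul, mul_one])
    (fun s hs t ht => by rw [Subgroup.mem_bot, hS s hs t ht]; group) a ha b hb
  rw [Subgroup.mem_bot] at h1
  calc a * b = (a * b * a⁻¹ * b⁻¹) * b * a := by group
    _ = b * a := by rw [h1, one_mul]

theorem blk_case2 {Rt : Type u} [Group Rt] [Finite Rt] {p : ℕ} [Fact p.Prime] (hp2 : p ≠ 2)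
    (hR : IsPGroup p Rt) (hr : PRankLE p 2 Rt)
    (n : ℕ) (hn : 3 ≤ n) (hcard : Nat.card Rt = p ^ n) (x y z : Rt)
    (hclo : Subgroup.closure ({x, y, z} : Set Rt) = ⊤)
    (hx : x ^ p = 1) (hy : y ^ p = 1) (hz : z ^ p ^ (n - 2) = 1)
    (hxz : x * z = z * x) (hyz : y * z = z * y) (hxy : x⁻¹ * y * x = y * z ^ p ^ (n - 3)) :
    (∀ a b : Rt, a * b = b * a) ∨ ∃ R₁ R₂ : Subgroup Rt, R₁ ⊔ R₂ = ⊤ ∧
      (∀ a ∈ R₁, ∀ b ∈ R₂, a * b = b * a) ∧ ¬ IsMulCommutative R₁ ∧ Nat.card R₁ = p ^ 3 ∧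
      Monoid.exponent R₁ = p ∧ IsCyclic R₂ ∧
      Subgroup.closure {v : Rt | v ∈ R₂ ∧ v ^ p = 1} = ⁅R₁, R₁⁆ := by
  classical
  have hpp : p.Prime := Fact.out
  obtain ⟨c, hc⟩ : ∃ c, c = z ^ p ^ (n - 3) := ⟨_, rfl⟩
  rw [← hc] at hxy
  have hzc : ∀ g : Rt, g * z = z * g := by
    have h1 : Subgroup.closure ({x, y, z} : Set Rt) ≤ Subgroup.centralizer {z} := by
      rw [Subgroup.closure_le]
      intro v hv
      rw [SetLike.mem_coe, Subgroup.mem_centralizer_iff]
      intro w hw
      rw [Set.mem_singleton_iff] at hw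
      rw [hw]
      rcases hv with hv | hv | hv
      · rw [hv]; exact hxz.symm
      · rw [hv]; exact hyz.symm
      · rw [Set.mem_singleton_iff] at hv; rw [hv]
    intro g
    have h2 : g ∈ Subgroup.centralizer ({z} : Set Rt) :=
      h1 (by rw [hclo]; exact Subgroup.mem_top g)
    exact (Subgroup.mem_centralizer_iff.mp h2 z rfl).symm
  have hcc : ∀ g : Rt, g * c = c * g := by
    intro g
    rw [hc]
    exact ((show Commute g z from hzc g).pow_right _).eq
  have hyx : y * x = x * y * c := by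
    calc y * x = x * (x⁻¹ * y * x) := by group
      _ = x * (y * c) := by rw [hxy]
      _ = x * y * c := by rw [mul_assoc]
  have hyxc : y * x * y⁻¹ * x⁻¹ = c := by
    rw [hyx, hcc (x * y)]
    group
  by_cases hc1 : c = 1
  · left
    have hxy' : x * y = y * x := by rw [hyx, hc1, mul_one]
    have h1 := comm_of_closure_comm ({x, y, z} : Set Rt) (by
      intro s hs t ht
      rcases hs with hs | hs | hs <;> rcases ht with ht | ht | ht
      · rw [hs, ht]
      · rw [hs, ht]; exact hxy'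
      · rw [Set.mem_singleton_iff] at ht; rw [hs, ht]; exact hxz
      · rw [hs, ht]; exact hxy'.symm
      · rw [hs, ht]
      · rw [Set.mem_singleton_iff] at ht; rw [hs, ht]; exact hyz
      · rw [Set.mem_singleton_iff] at hs; rw [hs, ht]; exact hxz.symm
      · rw [Set.mem_singleton_iff] at hs; rw [hs, ht]; exact hyz.symm
      · rw [Set.mem_singleton_iff] at hs ht; rw [hs, ht])
    intro a b
    exact h1 a (by rw [hclo]; exact Subgroup.mem_top a) b (by rw [hclo]; exact Subgroup.mem_top b)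
  · right
    have hcp : c ^ p = 1 := by
      rw [hc, ← pow_mul, ← pow_succ]
      have h1 : n - 3 + 1 = n - 2 := by omega
      rw [h1, hz]
    have hcord : orderOf c = p := orderOf_eq_prime hcp hc1
    obtain ⟨K, hK⟩ : ∃ K : Subgroup Rt, K = Subgroup.zpowers c := ⟨_, rfl⟩
    have hKc : ∀ k ∈ K, ∀ g : Rt, k * g = g * k := by
      intro k hk g
      rw [hK] at hk
      obtain ⟨m, rfl⟩ := Subgroup.mem_zpowers_iff.mp hk
      exact ((show Commute c g from (hcc g).symm).zpow_left m).eq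
    have hcK : c ∈ K := by rw [hK]; exact Subgroup.mem_zpowers c
    have hS : ∀ s ∈ ({x, y} : Set Rt), ∀ t ∈ ({x, y} : Set Rt), s * t * s⁻¹ * t⁻¹ ∈ K := by
      intro s hs t ht
      rcases hs with hs | hs <;> rcases ht with ht | ht
      · rw [hs, ht]
        simp [K.one_mem]
      · rw [Set.mem_singleton_iff] at ht
        rw [hs, ht]
        have h1 : x * y * x⁻¹ * y⁻¹ = (y * x * y⁻¹ * x⁻¹)⁻¹ := by group
        rw [h1, hyxc]
        exact K.inv_mem hcK
      · rw [Set.mem_singleton_iff] at hs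
        rw [hs, ht, hyxc]
        exact hcK
      · rw [Set.mem_singleton_iff] at hs ht
        rw [hs, ht]
        simp [K.one_mem]
    obtain ⟨R₁, hR₁⟩ : ∃ R₁ : Subgroup Rt, R₁ = Subgroup.closure ({x, y} : Set Rt) := ⟨_, rfl⟩
    have hxR : x ∈ R₁ := by rw [hR₁]; exact Subgroup.subset_closure (by simp)
    have hyR : y ∈ R₁ := by rw [hR₁]; exact Subgroup.subset_closure (by simp)
    have hcomK : ∀ a ∈ R₁, ∀ b ∈ R₁, a * b * a⁻¹ * b⁻¹ ∈ K := by
      rw [hR₁]
      exact comm_mem_of_gens ({x, y} : Set Rt) K (fun k hk s _ => hKc k hk s) hS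
    have hcR₁ : c ∈ R₁ := by
      rw [← hyxc]
      exact R₁.mul_mem (R₁.mul_mem (R₁.mul_mem hyR hxR) (R₁.inv_mem hyR)) (R₁.inv_mem hxR)
    have hexp : ∀ w ∈ R₁, w ^ p = 1 := by
      have h1 := omega_exp hp2 hR R₁ (by
        intro a ha b hb d _
        exact (hKc _ (hcomK a ha b hb) d).symm)
      have h2 : ∀ v ∈ ({x, y} : Set Rt),
          v ∈ Subgroup.closure {v : Rt | v ∈ R₁ ∧ v ^ p = 1} := by
        intro v hv
        rcases hv with hv | hv
        · rw [hv]; exact Subgroup.subset_closure ⟨hxR, hx⟩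
        · rw [Set.mem_singleton_iff] at hv
          rw [hv]; exact Subgroup.subset_closure ⟨hyR, hy⟩
      have h3 : R₁ ≤ Subgroup.closure {v : Rt | v ∈ R₁ ∧ v ^ p = 1} := by
        conv_lhs => rw [hR₁]
        exact (Subgroup.closure_le _).mpr h2
      intro w hw
      exact h1 w (h3 hw)
    have hncomm : x * y ≠ y * x := by
      intro h
      apply hc1
      rw [← hyxc, ← h]
      group
    have hsup : R₁ ⊔ Subgroup.zpowers z = ⊤ := by
      rw [eq_top_iff, ← hclo, Subgroup.closure_le]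
      intro v hv
      rcases hv with hv | hv | hv
      · rw [hv]
        exact (le_sup_left : R₁ ≤ R₁ ⊔ Subgroup.zpowers z) hxR
      · rw [hv]
        exact (le_sup_left : R₁ ≤ R₁ ⊔ Subgroup.zpowers z) hyR
      · rw [Set.mem_singleton_iff] at hv
        rw [hv]
        exact (le_sup_right : Subgroup.zpowers z ≤ R₁ ⊔ Subgroup.zpowers z)
          (Subgroup.mem_zpowers z)
    have hPR₁ : IsPGroup p ↥R₁ := hR.to_subgroup R₁
    have hcardR₁ : Nat.card R₁ = p ^ 3 := by
      apply le_antisymm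
      · exact Cfsg.Agent.S3771.result hPR₁
          (prankLE_of_injective p 2 R₁.subtype (Subgroup.subtype_injective R₁) hr)
          (fun w => Subtype.ext (by rw [Subgroup.coe_pow]; exact hexp w w.2))
      · by_contra hlt
        push Not at hlt
        obtain ⟨k, hk⟩ := IsPGroup.iff_card.mp hPR₁
        rw [hk] at hlt
        have h1 : k < 3 := (Nat.pow_lt_pow_iff_right hpp.one_lt).mp hlt
        have h2 : Nat.card R₁ ≤ p ^ 2 := by
          rw [hk]
          exact Nat.pow_le_pow_right hpp.pos (by omega)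
        have h3 := Cfsg.Agent.Lib.Helper59.Rk2.comm_of_card_le_sq hPR₁ h2 ⟨x, hxR⟩ ⟨y, hyR⟩
        exact hncomm (congrArg Subtype.val h3)
    have hordz : orderOf z = p ^ (n - 2) := by
      obtain ⟨m, hm, hmo⟩ := (Nat.dvd_prime_pow hpp).mp (orderOf_dvd_of_pow_eq_one hz)
      haveI hN : (Subgroup.zpowers z).Normal := ⟨fun v hv g => by
        obtain ⟨k, rfl⟩ := Subgroup.mem_zpowers_iff.mp hv
        have h1 : g * z ^ k * g⁻¹ = z ^ k := by
          rw [((show Commute g z from hzc g).zpow_right k).eq, mul_inv_cancel_right]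
        rw [h1]
        exact Subgroup.zpow_mem_zpowers z k⟩
      have h1 := card_sup_mul_card_inf R₁ (Subgroup.zpowers z)
      rw [hsup, Subgroup.card_top, hcard, hcardR₁, Nat.card_zpowers, hmo] at h1
      have h2 : p ∣ Nat.card ↥(R₁ ⊓ Subgroup.zpowers z) := by
        have hcm : c ∈ R₁ ⊓ Subgroup.zpowers z :=
          ⟨hcR₁, by rw [hc]; exact Subgroup.pow_mem _ (Subgroup.mem_zpowers z) _⟩
        have h3 := Subgroup.orderOf_dvd_natCard _ hcm
        rwa [hcord] at h3
      obtain ⟨d, hd⟩ := h2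
      rw [hd] at h1
      have h4 : p ^ (n + 1) ∣ p ^ (3 + m) := ⟨d, by rw [pow_add, ← h1]; ring⟩
      have h5 := (Nat.pow_dvd_pow_iff_le_right hpp.one_lt).mp h4
      have h6 : m = n - 2 := by omega
      rw [hmo, h6]
    have hcomm_eq : ⁅R₁, R₁⁆ = K := by
      apply le_antisymm
      · rw [Subgroup.commutator_le]
        intro a ha b hb
        rw [commutatorElement_def]
        exact hcomK a ha b hb
      · rw [hK, Subgroup.zpowers_le, ← hyxc, ← commutatorElement_def]
        exact Subgroup.commutator_mem_commutator hyR hxR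
    have hΩ : Subgroup.closure {v : Rt | v ∈ Subgroup.zpowers z ∧ v ^ p = 1} = K := by
      apply le_antisymm
      · rw [Subgroup.closure_le]
        rintro v ⟨hv, hvp⟩
        obtain ⟨k', rfl⟩ := Subgroup.mem_zpowers_iff.mp hv
        obtain ⟨k, hk⟩ := zpow_eq_pow_of_finite z k'
        rw [hk] at hvp ⊢
        rw [← pow_mul] at hvp
        have h1 := orderOf_dvd_of_pow_eq_one hvp
        rw [hordz] at h1
        have h2 : p ^ (n - 3) ∣ k := by
          have h3 : p ^ (n - 2) = p ^ (n - 3) * p := by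
            rw [← pow_succ]
            congr 1
            omega
          rw [h3] at h1
          exact Nat.dvd_of_mul_dvd_mul_right hpp.pos h1
        obtain ⟨d, rfl⟩ := h2
        rw [SetLike.mem_coe, pow_mul, ← hc, hK]
        exact Subgroup.pow_mem _ (Subgroup.mem_zpowers c) d
      · rw [hK, Subgroup.zpowers_le]
        apply Subgroup.subset_closure
        exact ⟨by rw [hc]; exact Subgroup.pow_mem _ (Subgroup.mem_zpowers z) _, hcp⟩
    refine ⟨R₁, Subgroup.zpowers z, hsup, ?_, ?_, hcardR₁, ?_, inferInstance, by rw [hΩ, hcomm_eq]⟩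
    · intro a _ b hb
      obtain ⟨m, rfl⟩ := Subgroup.mem_zpowers_iff.mp hb
      exact ((show Commute a z from hzc a).zpow_right m).eq
    · intro hcm
      exact hncomm (congrArg Subtype.val (hcm.is_comm.comm ⟨x, hxR⟩ ⟨y, hyR⟩))
    · have h1 : Monoid.exponent ↥R₁ ∣ p := by
        rw [Monoid.exponent_dvd_iff_forall_pow_eq_one]
        intro w
        exact Subtype.ext (by rw [Subgroup.coe_pow]; exact hexp w w.2)
      rcases (Nat.dvd_prime hpp).mp h1 with h2 | h2
      · exfalso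
        rw [Monoid.exp_eq_one_iff] at h2
        have h3 : (⟨x, hxR⟩ : ↥R₁) = ⟨y, hyR⟩ := Subsingleton.elim _ _
        have h4 : x = y := congrArg Subtype.val h3
        exact hncomm (by rw [h4])
      · exact h2

end blk4

end Cfsg.Agent.Lib.Helper34
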