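import Mathlib
import Cfsg.Agent.Lib.Helper34.Blk1
import Cfsg.Agent.Lib.Helper59.Rk2Meta
import Cfsg.Agent.S3771

/-!
# Helpers for narrow `p`-groups with an odd group of operators (helper34)

* `pCore_of_commutator_pgroup` : if `A'` is a `p`-group then `A' ≤ O_p(A)` and `|A : O_p(A)|` is
  prime to `p`
* `mem_sup_of_commute` : elements of a central product
* `aut_cyclic_trivial` : a group of prime order `q ∤ p (p - 1)` centralises every cyclic
  `p`-subgroup that it normalises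
* `card_cube_of_action` : a non-abelian central product `R₁ * R₂` (`R₁` of exponent `p`, `R₂`
  cyclic) of rank at most two with `[R, A] = R` for such a group `A` has order `p ^ 3`
-/

set_option autoImplicit false

namespace Cfsg.Agent.Lib.Helper34

open Cfsg

open scoped commutatorElement

section blk5

universe u v

theorem pCore_of_commutator_pgroup {A : Type*} [Group A] [Finite A] (p : ℕ) [Fact p.Prime]
    (h : IsPGroup p (commutator A)) :
    commutator A ≤ pCore p A ∧ ((pCore p A).index).Coprime p := by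
  have hpp : p.Prime := Fact.out
  have h1 : commutator A ≤ pCore p A := le_sSup ⟨inferInstance, h⟩
  refine ⟨h1, ?_⟩
  obtain ⟨P⟩ : Nonempty (Sylow p A) := inferInstance
  have hPC : IsPGroup p ↥((P : Subgroup A) ⊔ commutator A) :=
    IsPGroup.to_sup_of_normal_right P.isPGroup' h
  have hN : ((P : Subgroup A) ⊔ commutator A).Normal := by
    constructor
    intro n hn g
    have e : g * n * g⁻¹ = (g * n * g⁻¹ * n⁻¹) * n := by group
    rw [e]
    apply Subgroup.mul_mem _ _ hn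
    apply (le_sup_right : commutator A ≤ (P : Subgroup A) ⊔ commutator A)
    rw [← commutatorElement_def]
    exact Subgroup.commutator_mem_commutator (Subgroup.mem_top _) (Subgroup.mem_top _)
  have h2 : (P : Subgroup A) ≤ pCore p A := le_trans le_sup_left (le_sSup ⟨hN, hPC⟩)
  have h3 : (pCore p A).index ∣ (P : Subgroup A).index := Subgroup.index_dvd_of_le h2
  rw [Nat.coprime_comm, hpp.coprime_iff_not_dvd]
  intro h4
  exact P.not_dvd_index (dvd_trans h4 h3)

theorem mem_sup_of_commute {G : Type*} [Group G] (H K : Subgroup G)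
    (hc : ∀ a ∈ H, ∀ b ∈ K, a * b = b * a) :
    ∀ x ∈ H ⊔ K, ∃ a ∈ H, ∃ b ∈ K, x = a * b := by
  intro x hx
  rw [Subgroup.sup_eq_closure_mul] at hx
  induction hx using Subgroup.closure_induction with
  | mem v hv =>
    obtain ⟨a, ha, b, hb, rfl⟩ := Set.mem_mul.mp hv
    exact ⟨a, ha, b, hb, rfl⟩
  | one => exact ⟨1, H.one_mem, 1, K.one_mem, by simp⟩
  | mul v w _ _ hv hw =>
    obtain ⟨a, ha, b, hb, rfl⟩ := hv
    obtain ⟨a', ha', b', hb', rfl⟩ := hw
    refine ⟨a * a', H.mul_mem ha ha', b * b', K.mul_mem hb hb', ?_⟩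
    rw [mul_assoc, ← mul_assoc b, ← hc a' ha' b hb]
    simp only [mul_assoc]
  | inv v _ hv =>
    obtain ⟨a, ha, b, hb, rfl⟩ := hv
    refine ⟨a⁻¹, H.inv_mem ha, b⁻¹, K.inv_mem hb, ?_⟩
    rw [mul_inv_rev, hc a⁻¹ (H.inv_mem ha) b⁻¹ (K.inv_mem hb)]

theorem aut_cyclic_trivial {G : Type*} [Group G] [Finite G] (p : ℕ) [Fact p.Prime]
    (P A : Subgroup G) (hP : IsPGroup p P) (hPc : IsCyclic P)
    (hAP : A ≤ Subgroup.normalizer (P : Set G))
    (hq : (Nat.card A).Prime) (hq1 : ¬ Nat.card A ∣ p * (p - 1)) :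
    ∀ a ∈ A, ∀ x ∈ P, a * x * a⁻¹ = x := by
  have hpp : p.Prime := Fact.out
  intro a ha x hx
  have hqp : Nat.Coprime (Nat.card A) p := by
    rw [Nat.coprime_primes hq hpp]
    intro h
    exact hq1 (h ▸ Dvd.intro _ rfl)
  have hq2 : Nat.Coprime (Nat.card A) (p - 1) := by
    rw [hq.coprime_iff_not_dvd]
    intro h
    exact hq1 (Dvd.dvd.mul_left h p)
  have hcard : (Nat.card A).Coprime (Nat.card (MulAut ↥P)) := by
    rw [IsCyclic.card_mulAut]
    obtain ⟨k, hk⟩ := IsPGroup.iff_card.mp hP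
    rw [hk]
    rcases Nat.eq_zero_or_pos k with h0 | h0
    · rw [h0, pow_zero, Nat.totient_one]
      exact Nat.coprime_one_right _
    · rw [Nat.totient_prime_pow hpp h0]
      exact Nat.Coprime.mul_right (Nat.Coprime.pow_right _ hqp) hq2
  have h1 : orderOf (conjAut P A hAP ⟨a, ha⟩) ∣ Nat.card A :=
    dvd_trans (orderOf_map_dvd _ _) (orderOf_dvd_natCard _)
  have h2 : orderOf (conjAut P A hAP ⟨a, ha⟩) ∣ Nat.card (MulAut ↥P) := orderOf_dvd_natCard _
  have h3 : orderOf (conjAut P A hAP ⟨a, ha⟩) = 1 := by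
    have h4 := Nat.dvd_gcd h1 h2
    rw [Nat.Coprime.gcd_eq_one hcard] at h4
    exact Nat.dvd_one.mp h4
  have h4 : conjAut P A hAP ⟨a, ha⟩ = 1 := orderOf_eq_one_iff.mp h3
  have h5 := conjAut_apply P A hAP ⟨a, ha⟩ ⟨x, hx⟩
  rw [h4] at h5
  exact h5.symm

theorem card_cube_of_action {G : Type u} [Group G] [Finite G] (p : ℕ) [Fact p.Prime]
    (R A : Subgroup G) (hR : IsPGroup p R) (hr : PRankLE p 2 R)
    (hA : A ≤ Subgroup.normalizer (R : Set G)) (hq : (Nat.card A).Prime)
    (hq1 : ¬ Nat.card A ∣ p * (p - 1)) (hRA : ⁅R, A⁆ = R) (hnc : ¬ IsMulCommutative R)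
    (R₁ R₂ : Subgroup G) (hsup : R₁ ⊔ R₂ = R) (hc : ∀ a ∈ R₁, ∀ b ∈ R₂, a * b = b * a)
    (hexp : Monoid.exponent R₁ = p) (hcyc : IsCyclic R₂) : Nat.card R = p ^ 3 := by
  classical
  have hpp : p.Prime := Fact.out
  have hR₁exp : ∀ a ∈ R₁, a ^ p = 1 := by
    intro a ha
    have h1 := Monoid.pow_exponent_eq_one (⟨a, ha⟩ : ↥R₁)
    rw [hexp] at h1
    exact congrArg Subtype.val h1
  have hR₂comm : ∀ b ∈ R₂, ∀ b' ∈ R₂, b * b' = b' * b := by
    intro b hb b' hb'
    exact congrArg Subtype.val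
      ((inferInstance : IsMulCommutative ↥R₂).is_comm.comm ⟨b, hb⟩ ⟨b', hb'⟩)
  have hdecomp : ∀ x ∈ R, ∃ a ∈ R₁, ∃ b ∈ R₂, x = a * b := by
    rw [← hsup]
    exact mem_sup_of_commute R₁ R₂ hc
  have hpowmul : ∀ x ∈ R, ∀ y ∈ R, (x * y) ^ p = x ^ p * y ^ p := by
    intro x hx y hy
    obtain ⟨a, ha, b, hb, rfl⟩ := hdecomp x hx
    obtain ⟨a', ha', b', hb', rfl⟩ := hdecomp y hy
    have e : a * b * (a' * b') = (a * a') * (b * b') := by
      rw [mul_assoc, ← mul_assoc b, ← hc a' ha' b hb]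
      simp only [mul_assoc]
    rw [e, (show Commute (a * a') (b * b') from
        hc _ (R₁.mul_mem ha ha') _ (R₂.mul_mem hb hb')).mul_pow,
      hR₁exp _ (R₁.mul_mem ha ha'), one_mul,
      (show Commute b b' from hR₂comm b hb b' hb').mul_pow,
      (show Commute a b from hc a ha b hb).mul_pow,
      (show Commute a' b' from hc a' ha' b' hb').mul_pow, hR₁exp a ha, hR₁exp a' ha', one_mul,
      one_mul]
  obtain ⟨P, hPdef⟩ : ∃ P : Subgroup G, P = Subgroup.closure {g : G | ∃ r ∈ R, r ^ p = g} :=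
    ⟨_, rfl⟩
  have hPR₂ : P ≤ R₂ := by
    rw [hPdef, Subgroup.closure_le]
    rintro g ⟨r, hr', rfl⟩
    obtain ⟨a, ha, b, hb, rfl⟩ := hdecomp r hr'
    rw [SetLike.mem_coe, (show Commute a b from hc a ha b hb).mul_pow, hR₁exp a ha, one_mul]
    exact R₂.pow_mem hb p
  have hR₂R : R₂ ≤ R := by rw [← hsup]; exact le_sup_right
  haveI := hcyc
  have hPcyc : IsCyclic ↥P := (Subgroup.subgroupOfEquivOfLe hPR₂).isCyclic.mp inferInstance
  have hPp : IsPGroup p ↥P := hR.to_le (le_trans hPR₂ hR₂R)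
  have hAP : A ≤ Subgroup.normalizer (P : Set G) := by
    intro a ha
    apply Subgroup.mem_normalizer_fintype
    have key : ∀ n ∈ Subgroup.closure {g : G | ∃ r ∈ R, r ^ p = g},
        a * n * a⁻¹ ∈ Subgroup.closure {g : G | ∃ r ∈ R, r ^ p = g} := by
      intro n hn'
      induction hn' using Subgroup.closure_induction with
      | mem g hg =>
        obtain ⟨r, hr', rfl⟩ := hg
        apply Subgroup.subset_closure
        exact ⟨a * r * a⁻¹, (Subgroup.mem_normalizer_iff.mp (hA ha) r).mp hr', conj_pow⟩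
      | one => simp
      | mul n n' _ _ ihn ihn' =>
        rw [← conj_mul]
        exact Subgroup.mul_mem _ ihn ihn'
      | inv n _ ihn =>
        rw [← conj_inv]
        exact Subgroup.inv_mem _ ihn
    intro n hn
    rw [SetLike.mem_coe, hPdef] at hn ⊢
    exact key n hn
  have hfix := aut_cyclic_trivial p P A hPp hPcyc hAP hq hq1
  let N : Subgroup ↥R :=
    { carrier := {r | (r : G) ^ p = 1}
      one_mem' := by simp
      mul_mem' := by
        intro x y hx hy
        show ((x : G) * (y : G)) ^ p = 1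
        rw [hpowmul _ x.2 _ y.2, hx, hy, one_mul]
      inv_mem' := by
        intro x hx
        show ((x : G)⁻¹) ^ p = 1
        rw [inv_pow, hx, inv_one] }
  have hN : N = ⊤ := by
    apply hgen_of_comm R A hA hRA N
    intro r h
    show ((r : G) * ((h : G) * (r : G) * (h : G)⁻¹)⁻¹) ^ p = 1
    have h1 : (h : G) * (r : G) * (h : G)⁻¹ ∈ R :=
      (Subgroup.mem_normalizer_iff.mp (hA h.2) r).mp r.2
    have h2 : (r : G) ^ p ∈ P := by
      rw [hPdef]
      exact Subgroup.subset_closure ⟨r, r.2, rfl⟩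
    rw [hpowmul _ r.2 _ (R.inv_mem h1), inv_pow, conj_pow, hfix h h.2 _ h2, mul_inv_cancel]
  have hexpR : ∀ r : ↥R, r ^ p = 1 := by
    intro r
    have h1 : r ∈ N := by rw [hN]; exact Subgroup.mem_top r
    exact Subtype.ext h1
  apply le_antisymm
  · exact Cfsg.Agent.S3771.result hR hr hexpR
  · by_contra hlt
    push Not at hlt
    obtain ⟨k, hk⟩ := IsPGroup.iff_card.mp hR
    rw [hk] at hlt
    have h1 : k < 3 := (Nat.pow_lt_pow_iff_right hpp.one_lt).mp hlt
    have h2 : Nat.card R ≤ p ^ 2 := by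
      rw [hk]
      exact Nat.pow_le_pow_right hpp.pos (by omega)
    exact hnc ⟨⟨Cfsg.Agent.Lib.Helper59.Rk2.comm_of_card_le_sq hR h2⟩⟩

end blk5

end Cfsg.Agent.Lib.Helper34
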