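import Mathlib
import Cfsg.Agent.Lib.Helper48.DCA
import Cfsg.Agent.Lib.Helper25.StChev3

/-!
# S2318 (defect zero characters of Chevalley groups), piece HPEL (project of helper48)

A `G`-conjugate of an element of `U` lying in `B` lies in `U`.
-/

set_option autoImplicit false

namespace Cfsg.Agent.Lib.Helper48.DC

open Cfsg Cfsg.Lie

variable {F : Type*} [Field F] [Fintype F]

/-- generic: a `p`-element normalizing a Sylow `p`-subgroup lies in it. -/
theorem hpel_aux1 {G : Type*} [Group G] (p : ℕ) [Fact p.Prime] (P : Sylow p G)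
    (z : G) (hz : IsPGroup p (Subgroup.zpowers z))
    (hn : z ∈ Subgroup.normalizer ((P : Subgroup G) : Set G)) : z ∈ (P : Subgroup G) := by
  have h := hz.inf_normalizer_sylow P
  have hmem : z ∈ Subgroup.zpowers z ⊓ (P : Subgroup G) := h.le ⟨Subgroup.mem_zpowers z, hn⟩
  exact hmem.2

/-- generic: a conjugate of an element of a `p`-group generates a `p`-group. -/
theorem hpel_aux2 {G : Type*} [Group G] (p : ℕ) (P : Subgroup G) (hP : IsPGroup p P)
    (x u : G) (hu : u ∈ P) : IsPGroup p (Subgroup.zpowers (x⁻¹ * u * x)) := by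
  obtain ⟨k, hk⟩ := hP ⟨u, hu⟩
  have hk' : u ^ p ^ k = 1 := by
    have := congrArg Subtype.val hk
    simpa using this
  have hz : (x⁻¹ * u * x) ^ p ^ k = 1 := by
    have e : x⁻¹ * u * x = x⁻¹ * u * (x⁻¹)⁻¹ := by rw [inv_inv]
    rw [e, conj_pow, hk']
    simp
  rintro ⟨g, hg⟩
  obtain ⟨n, rfl⟩ := Subgroup.mem_zpowers_iff.mp hg
  refine ⟨k, Subtype.ext ?_⟩
  show ((x⁻¹ * u * x) ^ n) ^ p ^ k = 1
  rw [← zpow_natCast, ← zpow_mul, mul_comm, zpow_mul, zpow_natCast, hz, one_zpow]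

/-- HPEL -/
theorem Ug_pel (p : ℕ) [Fact p.Prime] [CharP F p] (D : ChevalleyDatum)
    (hD : D ∈ [chevG2, chevB2, chevD4, chevF4, chevE6, chevE7, chevE8]) :
    ∀ x : ↥(D.group F), ∀ u ∈ Ug F D, x⁻¹ * u * x ∈ Bg F D → x⁻¹ * u * x ∈ Ug F D := by
  intro x u hu hB
  obtain ⟨P, hP⟩ := Cfsg.Agent.Lib.Helper25.posUnipotent_sylow (F := F) p D hD
  have hD' : D ∈ Cfsg.Agent.Lib.Helper24.chevList := hD
  have h1 : D.diagonalSubgroup F ≤ Subgroup.normalizer (D.posUnipotent F : Set (GL D.Idx F)) :=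
    Cfsg.Agent.Lib.Helper24.diagonal_le_normalizer_rootGen D hD' D.IsPosRoot (fun r hr => hr.1)
  have h2 : D.borelSubgroup F ≤ Subgroup.normalizer (D.posUnipotent F : Set (GL D.Idx F)) :=
    sup_le Subgroup.le_normalizer h1
  have hu' : u ∈ (P : Subgroup ↥(D.group F)) := by rw [hP]; exact hu
  have hz := hpel_aux2 p (P : Subgroup ↥(D.group F)) P.isPGroup' x u hu'
  have hn : x⁻¹ * u * x ∈ Subgroup.normalizer ((P : Subgroup ↥(D.group F)) : Set ↥(D.group F)) := by
    rw [hP]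
    have hB' : ((x⁻¹ * u * x : ↥(D.group F)) : GL D.Idx F) ∈ D.borelSubgroup F :=
      Subgroup.mem_subgroupOf.mp hB
    have h3 := h2 hB'
    rw [Subgroup.mem_normalizer_iff] at h3 ⊢
    intro h
    rw [Subgroup.mem_subgroupOf, Subgroup.mem_subgroupOf]
    exact h3 (h : GL D.Idx F)
  have h4 := hpel_aux1 p P _ hz hn
  rw [hP] at h4
  exact h4

end Cfsg.Agent.Lib.Helper48.DC
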