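import Mathlib
import Cfsg.Agent.Lib.Helper97.FCDefs
import Cfsg.Agent.Lib.Helper32.NcAxB2
import Cfsg.Agent.Lib.Helper12.Ward2

/-!
# S5115 (helper97's FC project), piece B3: coprime action, `A`-invariant Sylow `p`-subgroups of
`X = K·D` are conjugate under `C_K(A)`.
-/

set_option autoImplicit false

namespace Cfsg.Agent.Lib.Helper34.FC

open Cfsg.Agent.Lib.Helper97.FC

universe u

theorem fc_b3 : B3Stmt.{u} := by
  intro G _ _ p _ X K D₁ D₂ A hKX hXK hKp hXp hA hAK hD₁X hD₂X hD₁ hD₂ hmax hcard hAD₁ hAD₂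
  classical
  have hp : p.Prime := Fact.out
  -- `|K|` is prime to `p`
  have hKcop : (Nat.card K).Coprime p := by
    rw [Nat.coprime_comm, hp.coprime_iff_not_dvd]
    intro hdvd
    obtain ⟨k, hk⟩ := exists_prime_orderOf_dvd_card' (G := K) p hdvd
    have h1 := hKp (k : G) k.2
    rw [Subgroup.orderOf_coe, hk] at h1
    exact hp.one_lt.ne' ((Nat.coprime_self p).mp h1)
  -- work in `↥X`
  have hK'n : (K.subgroupOf X).Normal := (Subgroup.normal_subgroupOf_iff_le_normalizer hKX).mpr hXK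
  have hQ : IsPGroup p (↥X ⧸ K.subgroupOf X) := by
    intro q
    obtain ⟨x, rfl⟩ := QuotientGroup.mk_surjective q
    have hx0 : orderOf (x : G) ≠ 0 := (orderOf_pos (x : G)).ne'
    obtain ⟨e, m, hm, hem⟩ := Nat.exists_eq_pow_mul_and_not_dvd hx0 p hp.ne_one
    refine ⟨e, ?_⟩
    rw [← QuotientGroup.mk_pow, QuotientGroup.eq_one_iff, Subgroup.mem_subgroupOf]
    have h1 : ((x : G) ^ p ^ e) ^ m = 1 := by rw [← pow_mul, ← hem, pow_orderOf_eq_one]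
    have h2 : orderOf ((x : G) ^ p ^ e) ∣ m := orderOf_dvd_of_pow_eq_one h1
    have h3 : (orderOf ((x : G) ^ p ^ e)).Coprime p :=
      Nat.Coprime.coprime_dvd_left h2 (Nat.coprime_comm.mp ((hp.coprime_iff_not_dvd).mpr hm))
    have h4 := hXp _ (X.pow_mem x.2 (p ^ e)) h3
    simpa using h4
  have hD₁' : IsPGroup p (D₁.subgroupOf X) := hD₁.comap_subtype
  have hD₂' : IsPGroup p (D₂.subgroupOf X) := hD₂.comap_subtype
  obtain ⟨P₁, hP₁⟩ := hD₁'.exists_le_sylow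
  obtain ⟨P₂, hP₂⟩ := hD₂'.exists_le_sylow
  have hP₁eq : (P₁ : Subgroup ↥X) = D₁.subgroupOf X := by
    have h1 : (P₁ : Subgroup ↥X).map X.subtype = D₁ := by
      apply hmax
      · exact Subgroup.map_subtype_le _
      · exact P₁.2.map _
      · intro d hd
        exact ⟨⟨d, hD₁X hd⟩, hP₁ (Subgroup.mem_subgroupOf.mpr hd), rfl⟩
    ext x
    constructor
    · intro hx
      rw [Subgroup.mem_subgroupOf, ← h1]
      exact ⟨x, hx, rfl⟩
    · intro hx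
      exact hP₁ hx
  have hc1 : Nat.card (D₁.subgroupOf X) = Nat.card D₁ :=
    Nat.card_congr (Subgroup.subgroupOfEquivOfLe hD₁X).toEquiv
  have hc2 : Nat.card (D₂.subgroupOf X) = Nat.card D₂ :=
    Nat.card_congr (Subgroup.subgroupOfEquivOfLe hD₂X).toEquiv
  have hP₂eq : D₂.subgroupOf X = (P₂ : Subgroup ↥X) := by
    apply Subgroup.eq_of_le_of_card_ge hP₂
    have h1 : Nat.card (P₂ : Subgroup ↥X) = Nat.card (P₁ : Subgroup ↥X) := by
      rw [Sylow.card_eq_multiplicity, Sylow.card_eq_multiplicity]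
    rw [h1, hP₁eq, hc1, hc2, hcard]
  -- Sylow conjugacy
  obtain ⟨y, hy⟩ := MulAction.exists_smul_eq ↥X P₂ P₁
  have hy' : ∀ x : ↥X, x ∈ (P₂ : Subgroup ↥X) → y * x * y⁻¹ ∈ D₁.subgroupOf X := by
    intro x hx
    have h1 : MulAut.conj y • x ∈ ((y • P₂ : Sylow p ↥X) : Subgroup ↥X) := by
      rw [Sylow.coe_subgroup_smul]
      exact Subgroup.smul_mem_pointwise_smul _ _ _ hx
    rw [hy, hP₁eq] at h1
    simpa [MulAut.smul_def] using h1
  -- `X = K D₂`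
  have htop : K.subgroupOf X ⊔ (P₂ : Subgroup ↥X) = ⊤ := by
    rw [← Subgroup.index_eq_one]
    have h1 : (K.subgroupOf X ⊔ (P₂ : Subgroup ↥X)).index ∣ (K.subgroupOf X).index :=
      Subgroup.index_dvd_of_le le_sup_left
    have h2 : (K.subgroupOf X ⊔ (P₂ : Subgroup ↥X)).index ∣ (P₂ : Subgroup ↥X).index :=
      Subgroup.index_dvd_of_le le_sup_right
    obtain ⟨n, hn⟩ := IsPGroup.iff_card.mp hQ
    rw [Subgroup.index_eq_card (K.subgroupOf X), hn] at h1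
    obtain ⟨i, -, hi⟩ := (Nat.dvd_prime_pow hp).mp h1
    rcases Nat.eq_zero_or_pos i with rfl | hipos
    · rw [hi, pow_zero]
    · exfalso
      apply P₂.not_dvd_index
      refine dvd_trans ?_ h2
      rw [hi]
      exact dvd_pow_self p hipos.ne'
  obtain ⟨k₀, hk₀, d, hd, hkd⟩ :=
    (Subgroup.mem_sup_of_normal_left (s := K.subgroupOf X) (t := (P₂ : Subgroup ↥X))).mp
      (by rw [htop]; exact Subgroup.mem_top y)
  have hk₀K : (k₀ : G) ∈ K := Subgroup.mem_subgroupOf.mp hk₀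
  have hconj : ∀ x ∈ D₂, (k₀ : G) * x * (k₀ : G)⁻¹ ∈ D₁ := by
    intro x hx
    have hx' : (⟨x, hD₂X hx⟩ : ↥X) ∈ (P₂ : Subgroup ↥X) := by
      rw [← hP₂eq]; exact Subgroup.mem_subgroupOf.mpr hx
    have h1 := hy' (d⁻¹ * ⟨x, hD₂X hx⟩ * d)
      (Subgroup.mul_mem _ (Subgroup.mul_mem _ (Subgroup.inv_mem _ hd) hx') hd)
    rw [Subgroup.mem_subgroupOf, ← hkd] at h1
    have h2 : ((k₀ * d * (d⁻¹ * (⟨x, hD₂X hx⟩ : ↥X) * d) * (k₀ * d)⁻¹ : ↥X) : G) =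
        (k₀ : G) * x * (k₀ : G)⁻¹ := by
      push_cast
      group
    rw [h2] at h1
    exact h1
  have hmapeq : D₂.map (MulAut.conj (k₀ : G)).toMonoidHom = D₁ := by
    apply Subgroup.eq_of_le_of_card_ge
    · rintro _ ⟨x, hx, rfl⟩
      exact hconj x hx
    · rw [Subgroup.card_map_of_injective (MulAut.conj (k₀ : G)).injective, hcard]
  have hD : ∀ h : G, h ∈ D₁ ↔ (k₀ : G)⁻¹ * h * (k₀ : G) ∈ D₂ := by
    intro h
    constructor
    · intro hh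
      rw [← hmapeq] at hh
      obtain ⟨x, hx, rfl⟩ := hh
      have h1 : (k₀ : G)⁻¹ * (MulAut.conj (k₀ : G)).toMonoidHom x * (k₀ : G) = x := by
        simp only [MulEquiv.coe_toMonoidHom, MulAut.conj_apply]
        group
      rw [h1]
      exact hx
    · intro hh
      have h1 := hconj _ hh
      have h2 : (k₀ : G) * ((k₀ : G)⁻¹ * h * (k₀ : G)) * (k₀ : G)⁻¹ = h := by group
      rwa [h2] at h1
  -- the coset argument
  have hAN : A ≤ Subgroup.normalizer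
      ((K ⊓ Subgroup.normalizer (D₁ : Set G) : Subgroup G) : Set G) := by
    intro a ha
    exact Cfsg.Agent.Lib.Helper12.Ward.nz_inf (hAK ha) (Subgroup.le_normalizer (hAD₁ ha))
  have hN : (Nat.card (K ⊓ Subgroup.normalizer (D₁ : Set G) : Subgroup G)).Coprime p :=
    Nat.Coprime.coprime_dvd_left (Subgroup.card_dvd_of_le inf_le_left) hKcop
  have hg : ∀ a ∈ A, ((k₀ : G)⁻¹)⁻¹ * (a * (k₀ : G)⁻¹ * a⁻¹) ∈
      (K ⊓ Subgroup.normalizer (D₁ : Set G) : Subgroup G) := by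
    intro a ha
    rw [inv_inv]
    refine Subgroup.mem_inf.mpr ⟨?_, ?_⟩
    · exact K.mul_mem hk₀K
        ((Subgroup.mem_normalizer_iff.mp (hAK ha) _).mp (K.inv_mem hk₀K))
    · have h1 : (k₀ : G) * a * (k₀ : G)⁻¹ ∈ Subgroup.normalizer (D₁ : Set G) := by
        rw [Subgroup.mem_normalizer_iff]
        intro h
        rw [hD h, hD ((k₀ : G) * a * (k₀ : G)⁻¹ * h * ((k₀ : G) * a * (k₀ : G)⁻¹)⁻¹)]
        have h2 : (k₀ : G)⁻¹ * ((k₀ : G) * a * (k₀ : G)⁻¹ * h * ((k₀ : G) * a * (k₀ : G)⁻¹)⁻¹) *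
            (k₀ : G) = a * ((k₀ : G)⁻¹ * h * (k₀ : G)) * a⁻¹ := by group
        rw [h2]
        exact Subgroup.mem_normalizer_iff.mp (hAD₂ ha) _
      have h3 : (k₀ : G) * (a * (k₀ : G)⁻¹ * a⁻¹) = ((k₀ : G) * a * (k₀ : G)⁻¹) * a⁻¹ := by group
      rw [h3]
      exact Subgroup.mul_mem _ h1 (Subgroup.inv_mem _ (hAD₁ ha))
  obtain ⟨m, hm, hfix⟩ := Cfsg.Agent.Lib.Helper32.coset_fixed_elt p hA hAN hN ((k₀ : G)⁻¹) hg
  have hmK : m ∈ K := (Subgroup.mem_inf.mp hm).1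
  have hmN : m ∈ Subgroup.normalizer (D₁ : Set G) := (Subgroup.mem_inf.mp hm).2
  refine ⟨((k₀ : G)⁻¹ * m)⁻¹, K.inv_mem (K.mul_mem (K.inv_mem hk₀K) hmK), ?_, ?_⟩
  · intro a ha
    have h1 := hfix a ha
    have h2 : a * ((k₀ : G)⁻¹ * m) = (k₀ : G)⁻¹ * m * a := by
      calc a * ((k₀ : G)⁻¹ * m) = (a * ((k₀ : G)⁻¹ * m) * a⁻¹) * a := by group
        _ = (k₀ : G)⁻¹ * m * a := by rw [h1]
    calc a * ((k₀ : G)⁻¹ * m)⁻¹
        = ((k₀ : G)⁻¹ * m)⁻¹ * ((k₀ : G)⁻¹ * m * a) * ((k₀ : G)⁻¹ * m)⁻¹ := by group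
      _ = ((k₀ : G)⁻¹ * m)⁻¹ * (a * ((k₀ : G)⁻¹ * m)) * ((k₀ : G)⁻¹ * m)⁻¹ := by rw [h2]
      _ = ((k₀ : G)⁻¹ * m)⁻¹ * a := by group
  · intro x hx
    have h1 := hconj x hx
    have h2 := (Subgroup.mem_normalizer_iff.mp (Subgroup.inv_mem _ hmN) _).mp h1
    have h3 : m⁻¹ * ((k₀ : G) * x * (k₀ : G)⁻¹) * m⁻¹⁻¹ =
        ((k₀ : G)⁻¹ * m)⁻¹ * x * ((k₀ : G)⁻¹ * m)⁻¹⁻¹ := by group
    rwa [h3] at h2

end Cfsg.Agent.Lib.Helper34.FC
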