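import Mathlib
import Cfsg.Agent.Lib.Helper51.GFDefs2
import Cfsg.Agent.Lib.Helper53.OddFE
import Cfsg.Agent.Lib.Helper54.OrthMinus

/-!
# S2717, piece GF-ARITH (helper34): squares in a quadratic extension of finite fields
-/

set_option autoImplicit false

namespace Cfsg.Agent.Lib.Helper34.GFARITH

open Cfsg Cfsg.Agent.Lib.Helper51.GF

universe u v

theorem arith {F₀ : Type v} [Field F₀] [Fintype F₀] {F : Type u} [Field F] [Fintype F]
    (h2 : (2 : F) ≠ 0) (e : F₀ →+* F) (σ : F ≃+* F) (hσσ : ∀ x, σ (σ x) = x)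
    (he : ∀ x : F, σ x = x ↔ x ∈ Set.range e)
    (hcard : Fintype.card F = Fintype.card F₀ ^ 2)
    (lam : F) (hne : σ lam ≠ lam) (a₀ b₀ : F₀) (ha : e a₀ = gA σ lam) (hb : e b₀ = gB σ lam) :
    ∃ (μ₁ u₁ u₂ : F₀) (nu : F), ¬ IsSquare μ₁ ∧ u₁ ^ 2 + a₀ * u₁ * u₂ + b₀ * u₂ ^ 2 = μ₁ ∧
      nu ^ 2 = e μ₁ ∧
      ∀ n : ℕ, IsSquare (nu ^ n * (e u₁ - e u₂ * σ lam)) ↔
        (Odd n ∧ Fintype.card F₀ % 4 = 1) := by
  classical
  have h2₀ : (2 : F₀) ≠ 0 := fun h => h2 (by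
    have h' : e 2 = 0 := by rw [h, map_zero]
    rwa [map_ofNat] at h')
  have hF : ringChar F ≠ 2 := Cfsg.Agent.Lib.Helper53.OddF.ringChar_ne_two h2
  have hF₀ : ringChar F₀ ≠ 2 := Cfsg.Agent.Lib.Helper53.OddF.ringChar_ne_two h2₀
  have hodd₀ : Fintype.card F₀ % 2 = 1 := FiniteField.odd_card_of_char_ne_two hF₀
  obtain ⟨μ₁, hμ₁⟩ := FiniteField.exists_nonsquare hF₀
  obtain ⟨u₁, u₂, hu⟩ := Cfsg.Agent.Lib.Helper54.exists_norm hF₀ a₀ b₀
    (fun z₁ z₂ h => aniso_fixed e σ lam (hσσ lam) hne he a₀ b₀ ha hb z₁ z₂ h) μ₁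
  obtain ⟨nu, hnu⟩ := Cfsg.Agent.Lib.Helper53.OddF.isSquare_up e h2 (Nat.odd_iff.2 hodd₀)
    hcard μ₁
  refine ⟨μ₁, u₁, u₂, nu, hμ₁, hu, by rw [hnu, sq], ?_⟩
  have hμ0 : μ₁ ≠ 0 := fun h => hμ₁ (by rw [h]; exact ⟨0, by simp⟩)
  have heμ0 : e μ₁ ≠ 0 := fun h => hμ0 (e.injective (by rw [h, map_zero]))
  have hnu0 : nu ≠ 0 := fun h => heμ0 (by rw [hnu, h, mul_zero])
  have hσe : ∀ x : F₀, σ (e x) = e x := fun x => (he (e x)).2 ⟨x, rfl⟩
  have hnorm : (e u₁ - e u₂ * σ lam) * σ (e u₁ - e u₂ * σ lam) = e μ₁ := by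
    rw [map_sub, map_mul, hσe, hσe, hσσ, ← hu]
    simp only [map_add, map_mul, map_pow, ha, hb]
    unfold gA gB
    ring
  have hν'0 : e u₁ - e u₂ * σ lam ≠ 0 := fun h => heμ0 (by rw [← hnorm, h, zero_mul])
  -- (i) ν' is not a square
  have hν'ns : ¬ IsSquare (e u₁ - e u₂ * σ lam) := by
    rintro ⟨y, hy⟩
    have h1 : σ (y * σ y) = y * σ y := by rw [map_mul, hσσ, mul_comm]
    obtain ⟨y₀, hy₀⟩ := (he _).1 h1
    apply hμ₁
    refine ⟨y₀, e.injective ?_⟩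
    rw [map_mul, hy₀, ← hnorm, hy, map_mul]
    ring
  -- (ii) `nu` is a square iff `card F₀ ≡ 3 mod 4`
  have hnusq : IsSquare nu ↔ Fintype.card F₀ % 4 = 3 := by
    rw [FiniteField.isSquare_iff hF hnu0]
    have h1 : μ₁ ^ (Fintype.card F₀ / 2) = -1 := by
      rcases FiniteField.pow_dichotomy hF₀ hμ0 with h | h
      · exact absurd ((FiniteField.isSquare_iff hF₀ hμ0).2 h) hμ₁
      · exact h
    have h3 : nu ^ (2 * (Fintype.card F₀ / 2)) = -1 := by
      rw [pow_mul, sq, ← hnu, ← map_pow, h1, map_neg, map_one]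
    obtain ⟨k, hk⟩ : ∃ k, Fintype.card F₀ = 2 * k + 1 := ⟨Fintype.card F₀ / 2, by omega⟩
    have h4 : Fintype.card F / 2 = (2 * (Fintype.card F₀ / 2)) * (k + 1) := by
      rw [hcard, hk]
      have h5 : (2 * k + 1) / 2 = k := by omega
      rw [h5]
      have h6 : (2 * k + 1) ^ 2 = 2 * (2 * k * (k + 1)) + 1 := by ring
      rw [h6]
      omega
    rw [h4, pow_mul, h3, hk]
    constructor
    · intro h
      have hev : Even (k + 1) := by
        by_contra hodd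
        rw [Nat.not_even_iff_odd] at hodd
        rw [hodd.neg_one_pow] at h
        exact h2 (by linear_combination (-1 : F) * h)
      obtain ⟨j, hj⟩ := hev
      omega
    · intro h
      have hev : Even (k + 1) := ⟨(k + 1) / 2, by omega⟩
      exact hev.neg_one_pow
  -- (iii)
  intro n
  have hχν' : quadraticChar F (e u₁ - e u₂ * σ lam) = -1 :=
    quadraticChar_neg_one_iff_not_isSquare.2 hν'ns
  have hne0 : nu ^ n * (e u₁ - e u₂ * σ lam) ≠ 0 := mul_ne_zero (pow_ne_zero n hnu0) hν'0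
  rw [← quadraticChar_one_iff_isSquare hne0, map_mul, map_pow, hχν']
  rcases quadraticChar_dichotomy hnu0 with h | h
  · have hsq : IsSquare nu := (quadraticChar_one_iff_isSquare hnu0).1 h
    have h43 := hnusq.1 hsq
    rw [h, one_pow]
    constructor
    · intro h'
      norm_num at h'
    · rintro ⟨-, h41⟩
      omega
  · have hns : ¬ IsSquare nu := quadraticChar_neg_one_iff_not_isSquare.1 h
    have h41 : Fintype.card F₀ % 4 = 1 := by
      have h43 : Fintype.card F₀ % 4 ≠ 3 := fun h' => hns (hnusq.2 h')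
      omega
    rw [h]
    constructor
    · intro h'
      refine ⟨?_, h41⟩
      by_contra hev
      rw [Nat.not_odd_iff_even] at hev
      rw [hev.neg_one_pow] at h'
      norm_num at h'
    · rintro ⟨hodd, -⟩
      rw [hodd.neg_one_pow]
      norm_num

end Cfsg.Agent.Lib.Helper34.GFARITH
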