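import Mathlib
import Cfsg.Agent.Lib.Helper69.GTSKEW

/-!
# GT3 (S2702), piece SKD (helper34): similitudes of an invertible skew form have determinant `c ^ m`.
-/

set_option autoImplicit false

namespace Cfsg.Agent.Lib.Helper34.GT3SKD

open Matrix

/-- the diagonal similitude `δ_c` of the standard symplectic form -/
theorem delta_J {F : Type*} [Field F] (m : ℕ) (c : F) :
    (Matrix.fromBlocks (c • (1 : Matrix (Fin m) (Fin m) F)) 0 0 1) * Matrix.J (Fin m) F *
      (Matrix.fromBlocks (c • (1 : Matrix (Fin m) (Fin m) F)) 0 0 1).transpose =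
        c • Matrix.J (Fin m) F := by
  simp [Matrix.J, Matrix.fromBlocks_multiply, Matrix.fromBlocks_transpose, Matrix.fromBlocks_smul]

theorem delta_det {F : Type*} [Field F] (m : ℕ) (c : F) :
    (Matrix.fromBlocks (c • (1 : Matrix (Fin m) (Fin m) F)) (0 : Matrix (Fin m) (Fin m) F)
      (0 : Matrix (Fin m) (Fin m) F) (1 : Matrix (Fin m) (Fin m) F)).det = c ^ m := by
  rw [Matrix.det_fromBlocks_zero₂₁, Matrix.det_smul, Matrix.det_one,
    Fintype.card_fin, mul_one, mul_one]

/-- similitudes of the standard symplectic form with multiplier `c` have determinant `c ^ m` -/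
theorem J_sim_det {F : Type*} [Field F] (m : ℕ)
    (k : Matrix (Fin m ⊕ Fin m) (Fin m ⊕ Fin m) F) (c : F) (hc : c ≠ 0)
    (hk : k * Matrix.J (Fin m) F * k.transpose = c • Matrix.J (Fin m) F) :
    k.det = c ^ m := by
  have hs : (Matrix.fromBlocks (c⁻¹ • (1 : Matrix (Fin m) (Fin m) F)) 0 0 1) * k ∈
      Matrix.symplecticGroup (Fin m) F := by
    rw [SymplecticGroup.mem_iff, Matrix.transpose_mul]
    have e : Matrix.fromBlocks (c⁻¹ • (1 : Matrix (Fin m) (Fin m) F)) 0 0 1 * k *
        Matrix.J (Fin m) F *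
        (k.transpose * (Matrix.fromBlocks (c⁻¹ • (1 : Matrix (Fin m) (Fin m) F)) 0 0 1).transpose) =
        Matrix.fromBlocks (c⁻¹ • (1 : Matrix (Fin m) (Fin m) F)) 0 0 1 *
          (k * Matrix.J (Fin m) F * k.transpose) *
          (Matrix.fromBlocks (c⁻¹ • (1 : Matrix (Fin m) (Fin m) F)) 0 0 1).transpose := by
      simp only [Matrix.mul_assoc]
    rw [e, hk, Matrix.mul_smul, Matrix.smul_mul, delta_J, smul_smul, mul_inv_cancel₀ hc, one_smul]
  have hd := SymplecticGroup.det_eq_one hs
  rw [Matrix.det_mul, delta_det] at hd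
  have hcm : c ^ m ≠ 0 := pow_ne_zero m hc
  have : k.det = c ^ m * ((c⁻¹) ^ m * k.det) := by
    rw [← mul_assoc, ← mul_pow, mul_inv_cancel₀ hc, one_pow, one_mul]
  rw [this, hd, mul_one]

theorem skew_det {F : Type*} [Field F] (h2 : (2 : F) ≠ 0) (m : ℕ)
    (g : Matrix (Fin (2 * m)) (Fin (2 * m)) F) (hg : g.transpose = -g) (hdet : g.det ≠ 0) :
    (∀ (h : Matrix (Fin (2 * m)) (Fin (2 * m)) F) (c : F), c ≠ 0 →
      h * g * h.transpose = c • g → h.det = c ^ m) ∧
    (∀ c : F, c ≠ 0 → ∃ h : Matrix (Fin (2 * m)) (Fin (2 * m)) F,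
      h * g * h.transpose = c • g ∧ h.det = c ^ m) := by
  classical
  obtain ⟨h₀, hh₀⟩ := Cfsg.Agent.Lib.Helper69.GTSKEW.skew_congr h2 m
    (finSumFinEquiv.trans (finCongr (two_mul m).symm)) g hg hdet
  generalize (finSumFinEquiv.trans (finCongr (two_mul m).symm) : Fin m ⊕ Fin m ≃ Fin (2 * m)) = τ
    at hh₀
  obtain ⟨H0, hH0⟩ : ∃ H0 : Matrix (Fin (2 * m)) (Fin (2 * m)) F, H0 = ↑h₀ := ⟨_, rfl⟩
  obtain ⟨H0i, hH0i⟩ : ∃ H0i : Matrix (Fin (2 * m)) (Fin (2 * m)) F, H0i = ↑h₀⁻¹ := ⟨_, rfl⟩
  have hmi : H0 * H0i = 1 := by rw [hH0, hH0i]; exact Units.mul_inv h₀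
  have him : H0i * H0 = 1 := by rw [hH0, hH0i]; exact Units.inv_mul h₀
  rw [← hH0] at hh₀
  have hdd : H0.det * H0i.det = 1 := by rw [← Matrix.det_mul, hmi, Matrix.det_one]
  have hdd' : H0i.det * H0.det = 1 := by rw [mul_comm]; exact hdd
  -- `g` recovered from `J'`
  have eg : H0i * (Matrix.reindex τ τ (Matrix.J (Fin m) F)) * H0i.transpose = g := by
    rw [← hh₀]
    have e : H0i * (H0 * g * H0.transpose) * H0i.transpose =
        (H0i * H0) * g * (H0i * H0).transpose := by
      simp only [Matrix.transpose_mul, Matrix.mul_assoc]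
    rw [e, him, Matrix.transpose_one, Matrix.one_mul, Matrix.mul_one]
  constructor
  · intro h c hc hh
    -- conjugate and reindex
    have h1 : (H0 * h * H0i) * (Matrix.reindex τ τ (Matrix.J (Fin m) F)) *
        (H0 * h * H0i).transpose = c • (Matrix.reindex τ τ (Matrix.J (Fin m) F)) := by
      have e : (H0 * h * H0i) * (Matrix.reindex τ τ (Matrix.J (Fin m) F)) *
          (H0 * h * H0i).transpose =
          H0 * (h * (H0i * (Matrix.reindex τ τ (Matrix.J (Fin m) F)) * H0i.transpose) *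
            h.transpose) * H0.transpose := by
        simp only [Matrix.transpose_mul, Matrix.mul_assoc]
      rw [e, eg, hh, Matrix.mul_smul, Matrix.smul_mul, hh₀]
    have hJ' : (Matrix.reindex τ τ (Matrix.J (Fin m) F)).submatrix τ τ = Matrix.J (Fin m) F := by
      ext i j
      simp [Matrix.reindex_apply]
    have h2' : ((H0 * h * H0i).submatrix τ τ) * Matrix.J (Fin m) F *
        ((H0 * h * H0i).submatrix τ τ).transpose = c • Matrix.J (Fin m) F := by
      have e := congrArg (fun M => M.submatrix τ τ) h1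
      have hsm : (c • (Matrix.reindex τ τ (Matrix.J (Fin m) F))).submatrix τ τ =
          c • (Matrix.reindex τ τ (Matrix.J (Fin m) F)).submatrix τ τ := rfl
      rw [hsm, ← Matrix.submatrix_mul_equiv _ _ τ τ τ, ← Matrix.submatrix_mul_equiv _ _ τ τ τ,
        hJ', ← Matrix.transpose_submatrix] at e
      exact e
    have h3 := J_sim_det m _ c hc h2'
    rw [Matrix.det_submatrix_equiv_self, Matrix.det_mul, Matrix.det_mul] at h3
    calc h.det = (H0.det * H0i.det) * h.det := by rw [hdd, one_mul]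
      _ = H0.det * h.det * H0i.det := by ring
      _ = c ^ m := h3
  · intro c hc
    refine ⟨H0i * (Matrix.reindex τ τ
      (Matrix.fromBlocks (c • (1 : Matrix (Fin m) (Fin m) F)) 0 0 1)) * H0, ?_, ?_⟩
    · have hδ : (Matrix.reindex τ τ
          (Matrix.fromBlocks (c • (1 : Matrix (Fin m) (Fin m) F)) 0 0 1)) *
          (Matrix.reindex τ τ (Matrix.J (Fin m) F)) *
          (Matrix.reindex τ τ
            (Matrix.fromBlocks (c • (1 : Matrix (Fin m) (Fin m) F)) 0 0 1)).transpose =
          c • (Matrix.reindex τ τ (Matrix.J (Fin m) F)) := by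
        simp only [Matrix.reindex_apply]
        rw [Matrix.transpose_submatrix, Matrix.submatrix_mul_equiv, Matrix.submatrix_mul_equiv,
          delta_J]
        rfl
      have e : H0i * (Matrix.reindex τ τ
          (Matrix.fromBlocks (c • (1 : Matrix (Fin m) (Fin m) F)) 0 0 1)) * H0 * g *
          (H0i * (Matrix.reindex τ τ
          (Matrix.fromBlocks (c • (1 : Matrix (Fin m) (Fin m) F)) 0 0 1)) * H0).transpose =
          H0i * ((Matrix.reindex τ τ
          (Matrix.fromBlocks (c • (1 : Matrix (Fin m) (Fin m) F)) 0 0 1)) *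
            (H0 * g * H0.transpose) * (Matrix.reindex τ τ
          (Matrix.fromBlocks (c • (1 : Matrix (Fin m) (Fin m) F)) 0 0 1)).transpose) *
            H0i.transpose := by
        simp only [Matrix.transpose_mul, Matrix.mul_assoc]
      rw [e, hh₀, hδ, Matrix.mul_smul, Matrix.smul_mul, eg]
    · rw [Matrix.det_mul, Matrix.det_mul, Matrix.det_reindex_self, delta_det]
      calc H0i.det * c ^ m * H0.det = (H0i.det * H0.det) * c ^ m := by ring
        _ = c ^ m := by rw [hdd', one_mul]

end Cfsg.Agent.Lib.Helper34.GT3SKD
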