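import Cfsg.Agent.Lib.Helper98.H74Defs
import Cfsg.Agent.Lib.Helper51.HypPairs
import Cfsg.Agent.Lib.Helper96.SpFix
import Cfsg.Agent.Lib.Lead.PiU2

/-!
# Project H74 (S5974, helper98), piece SIEGINV (helper34)

Characteristic 2, `S` an invertible alternating matrix, `x = fromBlocks 1 S 0 1`: every
`x`-invariant subspace `W` that is nondegenerate for the polar form of `quadFormPlus` has
dimension divisible by 4.  With `N = x - 1`: `ker N = range N` is totally isotropic, `N` is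
self-adjoint, so `ker (N|W) = range (N|W)`; and `(u, v) ↦ B (u, N v)` is alternating with radical
`ker (N|W)` on `W`, so the rank of `N|W` is even.
-/

set_option autoImplicit false

namespace Cfsg.Agent.Lib.Helper98.H74

open Cfsg.Agent.Lib.Helper47 Cfsg.Agent.Lib.Helper98.T73 Module Polynomial

universe u

variable {F : Type u} [Field F] [Fintype F] {V : Type u} [AddCommGroup V] [Module F V]
  [FiniteDimensional F V] {Q : V → F} {B : V → V → F}

/-- the polar form of `quadFormPlus` as a bilinear form -/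
noncomputable def sieginv_Bp (d : ℕ) (F : Type u) [Field F] :
    LinearMap.BilinForm F (Fin d ⊕ Fin d → F) :=
  QuadraticMap.polarBilin (Cfsg.Agent.Lib.Helper51.QPlus d F)

theorem sieginv_Bp_apply (d : ℕ) (u v : Fin d ⊕ Fin d → F) :
    sieginv_Bp d F u v =
      ∑ i : Fin d, (u (Sum.inl i) * v (Sum.inr i) + v (Sum.inl i) * u (Sum.inr i)) := by
  unfold sieginv_Bp
  rw [QuadraticMap.polarBilin_apply_apply]
  exact Cfsg.Agent.Lib.Helper51.polar_QPlus d F u v

theorem sieginv_polar (d : ℕ) (u v : Fin d ⊕ Fin d → F) :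
    QuadraticMap.polar (Cfsg.quadFormPlus d F) u v = sieginv_Bp d F u v := by
  unfold sieginv_Bp
  rw [QuadraticMap.polarBilin_apply_apply, Cfsg.Agent.Lib.Helper51.coe_QPlus]

theorem sieginv_N_inl (d : ℕ) (S : Matrix (Fin d) (Fin d) F) (u : Fin d ⊕ Fin d → F)
    (i : Fin d) :
    ((Matrix.toLin' (Matrix.fromBlocks 1 S 0 1 :
      Matrix (Fin d ⊕ Fin d) (Fin d ⊕ Fin d) F) - 1) u) (Sum.inl i)
      = ∑ j : Fin d, S i j * u (Sum.inr j) := by
  simp [Matrix.toLin'_apply, Matrix.mulVec, dotProduct, Fintype.sum_sum_type, Matrix.one_apply]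

theorem sieginv_N_inr (d : ℕ) (S : Matrix (Fin d) (Fin d) F) (u : Fin d ⊕ Fin d → F)
    (i : Fin d) :
    ((Matrix.toLin' (Matrix.fromBlocks 1 S 0 1 :
      Matrix (Fin d ⊕ Fin d) (Fin d ⊕ Fin d) F) - 1) u) (Sum.inr i) = 0 := by
  simp [Matrix.toLin'_apply, Matrix.mulVec, dotProduct, Fintype.sum_sum_type, Matrix.one_apply]

theorem sieginv_beta (d : ℕ) (S : Matrix (Fin d) (Fin d) F) (u v : Fin d ⊕ Fin d → F) :
    sieginv_Bp d F u ((Matrix.toLin' (Matrix.fromBlocks 1 S 0 1 :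
      Matrix (Fin d ⊕ Fin d) (Fin d ⊕ Fin d) F) - 1) v)
      = ∑ i : Fin d, ∑ j : Fin d, S i j * v (Sum.inr j) * u (Sum.inr i) := by
  rw [sieginv_Bp_apply]
  apply Finset.sum_congr rfl
  intro i _
  rw [sieginv_N_inl, sieginv_N_inr, mul_zero, zero_add, Finset.sum_mul]

theorem sieginv_beta_symm (d : ℕ) (S : Matrix (Fin d) (Fin d) F) (hSt : S.transpose = S)
    (u v : Fin d ⊕ Fin d → F) :
    sieginv_Bp d F u ((Matrix.toLin' (Matrix.fromBlocks 1 S 0 1 :
      Matrix (Fin d ⊕ Fin d) (Fin d ⊕ Fin d) F) - 1) v)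
      = sieginv_Bp d F v ((Matrix.toLin' (Matrix.fromBlocks 1 S 0 1 :
      Matrix (Fin d ⊕ Fin d) (Fin d ⊕ Fin d) F) - 1) u) := by
  rw [sieginv_beta, sieginv_beta, Finset.sum_comm]
  apply Finset.sum_congr rfl
  intro i _
  apply Finset.sum_congr rfl
  intro j _
  have h : S j i = S i j := by
    have h1 := congrFun (congrFun hSt i) j
    rw [Matrix.transpose_apply] at h1
    exact h1
  rw [h]
  ring

theorem sieginv_beta_self [CharP F 2] (d : ℕ) (S : Matrix (Fin d) (Fin d) F)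
    (hS0 : ∀ a, S a a = 0) (hSt : S.transpose = S) (u : Fin d ⊕ Fin d → F) :
    sieginv_Bp d F u ((Matrix.toLin' (Matrix.fromBlocks 1 S 0 1 :
      Matrix (Fin d ⊕ Fin d) (Fin d ⊕ Fin d) F) - 1) u) = 0 := by
  rw [sieginv_beta, ← Finset.sum_product']
  apply Finset.sum_involution (fun p _ => (p.2, p.1))
  · intro p _
    have h : S p.2 p.1 = S p.1 p.2 := by
      have h1 := congrFun (congrFun hSt p.1) p.2
      rw [Matrix.transpose_apply] at h1
      exact h1
    show S p.1 p.2 * u (Sum.inr p.2) * u (Sum.inr p.1) +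
      S p.2 p.1 * u (Sum.inr p.1) * u (Sum.inr p.2) = 0
    rw [h]
    have h2 : S p.1 p.2 * u (Sum.inr p.1) * u (Sum.inr p.2) =
        S p.1 p.2 * u (Sum.inr p.2) * u (Sum.inr p.1) := by ring
    rw [h2]
    exact CharTwo.add_self_eq_zero _
  · intro p _ hne heq
    apply hne
    have h1 : p.2 = p.1 := congrArg Prod.fst heq
    rw [h1, hS0, zero_mul, zero_mul]
  · intro p _
    exact Finset.mem_product.mpr ⟨Finset.mem_univ _, Finset.mem_univ _⟩
  · intro p _
    rfl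

theorem sieginv_ker (d : ℕ) (S : Matrix (Fin d) (Fin d) F) (hSdet : IsUnit S.det)
    (u : Fin d ⊕ Fin d → F)
    (hu : (Matrix.toLin' (Matrix.fromBlocks 1 S 0 1 :
      Matrix (Fin d ⊕ Fin d) (Fin d ⊕ Fin d) F) - 1) u = 0) (i : Fin d) :
    u (Sum.inr i) = 0 := by
  have h1 : S.mulVec (fun j => u (Sum.inr j)) = 0 := by
    funext a
    have h2 := congrFun hu (Sum.inl a)
    rw [sieginv_N_inl] at h2
    exact h2
  have h3 := Matrix.eq_zero_of_mulVec_eq_zero hSdet.ne_zero h1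
  exact congrFun h3 i

theorem sieginv_Bp_alt [CharP F 2] (d : ℕ) : (sieginv_Bp d F).IsAlt := by
  intro u
  rw [sieginv_Bp_apply]
  apply Finset.sum_eq_zero
  intro i _
  exact CharTwo.add_self_eq_zero _

theorem sieginv_Bp_nd (d : ℕ) : Cfsg.Agent.Lib.Helper96.Sp.ND (sieginv_Bp d F) ⊤ := by
  classical
  intro u _ h
  funext k
  rcases k with i | i
  · have h1 := h (Pi.single (Sum.inr i) 1) Submodule.mem_top
    rw [sieginv_Bp_apply] at h1
    simpa [Pi.single_apply] using h1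
  · have h1 := h (Pi.single (Sum.inl i) 1) Submodule.mem_top
    rw [sieginv_Bp_apply] at h1
    simpa [Pi.single_apply] using h1

/-- SIEGINV -/
theorem siegel_four_dvd [CharP F 2] (d : ℕ) (S : Matrix (Fin d) (Fin d) F)
    (hS0 : ∀ a, S a a = 0) (hSt : S.transpose = S) (hSdet : IsUnit S.det)
    (W : Submodule F (Fin d ⊕ Fin d → F))
    (hWnd : ∀ u ∈ W, u ≠ 0 → ∃ v ∈ W, QuadraticMap.polar (Cfsg.quadFormPlus d F) u v ≠ 0)
    (hWx : W.map (Matrix.toLin' (Matrix.fromBlocks 1 S 0 1 :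
      Matrix (Fin d ⊕ Fin d) (Fin d ⊕ Fin d) F)) ≤ W) : 4 ∣ finrank F W := by
  classical
  obtain ⟨N, hNdef⟩ : ∃ N : Module.End F (Fin d ⊕ Fin d → F),
      N = Matrix.toLin' (Matrix.fromBlocks 1 S 0 1 :
        Matrix (Fin d ⊕ Fin d) (Fin d ⊕ Fin d) F) - 1 := ⟨_, rfl⟩
  have hA := sieginv_Bp_alt (F := F) d
  have hNtop := sieginv_Bp_nd (F := F) d
  have hsymB : ∀ u v, sieginv_Bp d F u v = sieginv_Bp d F v u := by
    intro u v
    rw [sieginv_Bp_apply, sieginv_Bp_apply]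
    apply Finset.sum_congr rfl
    intro i _
    ring
  have hWND : Cfsg.Agent.Lib.Helper96.Sp.ND (sieginv_Bp d F) W := by
    intro u hu h
    by_contra hne
    obtain ⟨v, hv, hv'⟩ := hWnd u hu hne
    rw [sieginv_polar] at hv'
    exact hv' (h v hv)
  have hNW : ∀ w ∈ W, N w ∈ W := by
    intro w hw
    rw [hNdef, LinearMap.sub_apply, Module.End.one_apply]
    exact W.sub_mem (hWx (Submodule.mem_map_of_mem hw)) hw
  have hbeta : ∀ u v, sieginv_Bp d F u (N v) = sieginv_Bp d F v (N u) := by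
    intro u v
    rw [hNdef]
    exact sieginv_beta_symm d S hSt u v
  have hbeta0 : ∀ u, sieginv_Bp d F u (N u) = 0 := by
    intro u
    rw [hNdef]
    exact sieginv_beta_self d S hS0 hSt u
  have hker : ∀ u, N u = 0 → ∀ i, u (Sum.inr i) = 0 := by
    intro u hu
    rw [hNdef] at hu
    exact sieginv_ker d S hSdet u hu
  have hNN : ∀ w, N (N w) = 0 := by
    intro w
    have h1 : ∀ k, (N (N w)) k = 0 := by
      intro k
      rw [hNdef]
      rcases k with i | i
      · rw [sieginv_N_inl]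
        apply Finset.sum_eq_zero
        intro j _
        rw [sieginv_N_inr, mul_zero]
      · rw [sieginv_N_inr]
    funext k
    exact h1 k
  have hrn := Cfsg.Agent.Lib.Lead.Pi.piU2_rank_nullity N W
  have hRW : W.map N ≤ W := by
    rintro _ ⟨w, hw, rfl⟩
    exact hNW w hw
  have hKW : W ⊓ LinearMap.ker N ≤ W := inf_le_left
  have hRperp : W.map N ≤ W ⊓ (sieginv_Bp d F).orthogonal (W ⊓ LinearMap.ker N) := by
    refine le_inf hRW ?_
    rintro _ ⟨w, hw, rfl⟩
    rw [Cfsg.Agent.Lib.Helper96.Sp.mem_perp_iff]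
    intro k hk
    rw [hbeta k w, LinearMap.mem_ker.mp hk.2, map_zero]
  have hfp := Cfsg.Agent.Lib.Helper96.Sp.finrank_inf_perp hA hNtop hKW hWND
  have hReq : W.map N = W ⊓ (sieginv_Bp d F).orthogonal (W ⊓ LinearMap.ker N) :=
    Submodule.eq_of_le_of_finrank_eq hRperp (by omega)
  have hKR : W ⊓ LinearMap.ker N ≤ W.map N := by
    rw [hReq]
    refine le_inf hKW ?_
    intro k hk
    rw [Cfsg.Agent.Lib.Helper96.Sp.mem_perp_iff]
    intro k' hk'
    rw [sieginv_Bp_apply]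
    apply Finset.sum_eq_zero
    intro i _
    rw [hker k (LinearMap.mem_ker.mp hk.2) i, hker k' (LinearMap.mem_ker.mp hk'.2) i]
    ring
  have hKRle := Submodule.finrank_mono hKR
  have hRK : W.map N ≤ W ⊓ LinearMap.ker N := by
    refine le_inf hRW ?_
    rintro _ ⟨w, hw, rfl⟩
    rw [LinearMap.mem_ker]
    exact hNN w
  have hRKle := Submodule.finrank_mono hRK
  obtain ⟨q, hq⟩ := Submodule.exists_isCompl (W ⊓ LinearMap.ker N)
  have hUK : (W ⊓ q) ⊓ (W ⊓ LinearMap.ker N) = ⊥ := by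
    rw [eq_bot_iff]
    intro x hx
    have h1 : x ∈ (W ⊓ LinearMap.ker N) ⊓ q := ⟨hx.2, hx.1.2⟩
    rw [hq.inf_eq_bot] at h1
    exact h1
  have hUsup : (W ⊓ LinearMap.ker N) ⊔ (W ⊓ q) = W := by
    have h1 := sup_inf_assoc_of_le q hKW
    rw [hq.sup_eq_top, top_inf_eq] at h1
    rw [inf_comm W q]
    exact h1.symm
  have hdimU : finrank F ↥(W ⊓ q) + finrank F ↥(W ⊓ LinearMap.ker N) = finrank F W := by
    have h1 := Submodule.finrank_sup_add_finrank_inf_eq (W ⊓ LinearMap.ker N) (W ⊓ q)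
    rw [hUsup, inf_comm (W ⊓ LinearMap.ker N) (W ⊓ q), hUK, finrank_bot] at h1
    omega
  have hUND : Cfsg.Agent.Lib.Helper96.Sp.ND ((sieginv_Bp d F).compl₂ N) (W ⊓ q) := by
    intro u hu h
    have hNu : N u = 0 := by
      apply hWND (N u) (hNW u hu.1)
      intro w hw
      rw [hsymB, hbeta w u]
      rw [← hUsup] at hw
      obtain ⟨k, hk, v, hv, rfl⟩ := Submodule.mem_sup.mp hw
      rw [map_add, map_add, LinearMap.mem_ker.mp hk.2, map_zero, zero_add]
      exact h v hv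
    have hu0 : u ∈ (W ⊓ q) ⊓ (W ⊓ LinearMap.ker N) := ⟨hu, hu.1, LinearMap.mem_ker.mpr hNu⟩
    rw [hUK] at hu0
    exact hu0
  have hbalt : ((sieginv_Bp d F).compl₂ N).IsAlt := fun u => hbeta0 u
  obtain ⟨m, hm⟩ := Cfsg.Agent.Lib.Helper96.Sp.even_finrank_of_nd hbalt (W ⊓ q) hUND
  exact ⟨m, by omega⟩

end Cfsg.Agent.Lib.Helper98.H74
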