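import Cfsg.Agent.Lib.Helper98.H90Defs
import Cfsg.Agent.Lib.Helper51.HypPairs
import Cfsg.Agent.Lib.Helper96.SpFix
import Cfsg.Agent.Lib.Lead.PiU2

/-!
# Project H74, batch 2 (S5990, helper98), piece SIEGINVM (helper34)

Characteristic 2, `S` an invertible alternating matrix, `x = fromBlocks (fromBlocks 1 S 0 1) 0 0 1`
acting on the space of `quadFormMinus k F a b`: every `x`-invariant subspace `W`, nondegenerate
for the polar form, of dimension divisible by 4 is of plus type.  With `N = x - 1`,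
`N (u, v, e) = (S v, 0, 0)`; `U₀ = {(u, 0, 0)}` is totally singular, `N W ≤ W ⊓ U₀`,
`W ⊓ ker N` is at most two dimensions above `W ⊓ U₀`, the rank of `N` on `W` is even and
`2 * dim (W ⊓ U₀) ≤ dim W`; so `W ⊓ U₀` has half the dimension of `W` when `4 ∣ dim W`.
-/

set_option autoImplicit false

namespace Cfsg.Agent.Lib.Helper98.H74

open Cfsg.Agent.Lib.Helper47 Cfsg.Agent.Lib.Helper98.T73 Module Polynomial

universe u

section aux

variable {F : Type u} [Field F]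

/-- the polar form of `quadFormMinus` as a bilinear form -/
noncomputable def sieginvm_Bm (k : ℕ) (F : Type u) [Field F] (a b : F) :
    LinearMap.BilinForm F ((Fin k ⊕ Fin k) ⊕ Fin 2 → F) :=
  QuadraticMap.polarBilin (Cfsg.Agent.Lib.Helper51.QMinus k F a b)

theorem sieginvm_Bm_apply [CharP F 2] (k : ℕ) (a b : F)
    (u v : (Fin k ⊕ Fin k) ⊕ Fin 2 → F) :
    sieginvm_Bm k F a b u v =
      (∑ i : Fin k, (u (Sum.inl (Sum.inl i)) * v (Sum.inl (Sum.inr i))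
        + v (Sum.inl (Sum.inl i)) * u (Sum.inl (Sum.inr i))))
      + a * (u (Sum.inr 0) * v (Sum.inr 1) + v (Sum.inr 0) * u (Sum.inr 1)) := by
  unfold sieginvm_Bm
  rw [QuadraticMap.polarBilin_apply_apply, Cfsg.Agent.Lib.Helper51.polar_QMinus]
  have h2 : (2 : F) = 0 := CharTwo.two_eq_zero
  rw [h2]
  ring

theorem sieginvm_polar (k : ℕ) (a b : F) (u v : (Fin k ⊕ Fin k) ⊕ Fin 2 → F) :
    QuadraticMap.polar (Cfsg.quadFormMinus k F a b) u v = sieginvm_Bm k F a b u v := by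
  unfold sieginvm_Bm
  rw [QuadraticMap.polarBilin_apply_apply, Cfsg.Agent.Lib.Helper51.coe_QMinus]

theorem sieginvm_N_ll (k : ℕ) (S : Matrix (Fin k) (Fin k) F)
    (u : (Fin k ⊕ Fin k) ⊕ Fin 2 → F) (i : Fin k) :
    ((Matrix.toLin' (Matrix.fromBlocks (Matrix.fromBlocks 1 S 0 1) 0 0 1 :
      Matrix ((Fin k ⊕ Fin k) ⊕ Fin 2) ((Fin k ⊕ Fin k) ⊕ Fin 2) F) - 1) u)
        (Sum.inl (Sum.inl i))
      = ∑ j : Fin k, S i j * u (Sum.inl (Sum.inr j)) := by
  simp [Matrix.toLin'_apply, Matrix.mulVec, dotProduct, Fintype.sum_sum_type, Matrix.one_apply]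

theorem sieginvm_N_lr (k : ℕ) (S : Matrix (Fin k) (Fin k) F)
    (u : (Fin k ⊕ Fin k) ⊕ Fin 2 → F) (i : Fin k) :
    ((Matrix.toLin' (Matrix.fromBlocks (Matrix.fromBlocks 1 S 0 1) 0 0 1 :
      Matrix ((Fin k ⊕ Fin k) ⊕ Fin 2) ((Fin k ⊕ Fin k) ⊕ Fin 2) F) - 1) u)
        (Sum.inl (Sum.inr i)) = 0 := by
  simp [Matrix.toLin'_apply, Matrix.mulVec, dotProduct, Fintype.sum_sum_type, Matrix.one_apply]

theorem sieginvm_N_r (k : ℕ) (S : Matrix (Fin k) (Fin k) F)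
    (u : (Fin k ⊕ Fin k) ⊕ Fin 2 → F) (j : Fin 2) :
    ((Matrix.toLin' (Matrix.fromBlocks (Matrix.fromBlocks 1 S 0 1) 0 0 1 :
      Matrix ((Fin k ⊕ Fin k) ⊕ Fin 2) ((Fin k ⊕ Fin k) ⊕ Fin 2) F) - 1) u)
        (Sum.inr j) = 0 := by
  simp [Matrix.toLin'_apply, Matrix.mulVec, dotProduct, Fintype.sum_sum_type, Matrix.one_apply]

theorem sieginvm_beta [CharP F 2] (k : ℕ) (a b : F) (S : Matrix (Fin k) (Fin k) F)
    (u v : (Fin k ⊕ Fin k) ⊕ Fin 2 → F) :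
    sieginvm_Bm k F a b u ((Matrix.toLin' (Matrix.fromBlocks (Matrix.fromBlocks 1 S 0 1) 0 0 1 :
      Matrix ((Fin k ⊕ Fin k) ⊕ Fin 2) ((Fin k ⊕ Fin k) ⊕ Fin 2) F) - 1) v)
      = ∑ i : Fin k, ∑ j : Fin k, S i j * v (Sum.inl (Sum.inr j)) * u (Sum.inl (Sum.inr i)) := by
  rw [sieginvm_Bm_apply, sieginvm_N_r, sieginvm_N_r, mul_zero, zero_mul, add_zero, mul_zero,
    add_zero]
  apply Finset.sum_congr rfl
  intro i _
  rw [sieginvm_N_ll, sieginvm_N_lr, mul_zero, zero_add, Finset.sum_mul]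

theorem sieginvm_beta_symm [CharP F 2] (k : ℕ) (a b : F) (S : Matrix (Fin k) (Fin k) F)
    (hSt : S.transpose = S) (u v : (Fin k ⊕ Fin k) ⊕ Fin 2 → F) :
    sieginvm_Bm k F a b u ((Matrix.toLin' (Matrix.fromBlocks (Matrix.fromBlocks 1 S 0 1) 0 0 1 :
      Matrix ((Fin k ⊕ Fin k) ⊕ Fin 2) ((Fin k ⊕ Fin k) ⊕ Fin 2) F) - 1) v)
      = sieginvm_Bm k F a b v ((Matrix.toLin'
        (Matrix.fromBlocks (Matrix.fromBlocks 1 S 0 1) 0 0 1 :
      Matrix ((Fin k ⊕ Fin k) ⊕ Fin 2) ((Fin k ⊕ Fin k) ⊕ Fin 2) F) - 1) u) := by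
  rw [sieginvm_beta, sieginvm_beta, Finset.sum_comm]
  apply Finset.sum_congr rfl
  intro i _
  apply Finset.sum_congr rfl
  intro j _
  have h : S j i = S i j := by
    have h1 := congrFun (congrFun hSt i) j
    rw [Matrix.transpose_apply] at h1
    exact h1
  rw [h]
  ring

theorem sieginvm_beta_self [CharP F 2] (k : ℕ) (a b : F) (S : Matrix (Fin k) (Fin k) F)
    (hS0 : ∀ c, S c c = 0) (hSt : S.transpose = S) (u : (Fin k ⊕ Fin k) ⊕ Fin 2 → F) :
    sieginvm_Bm k F a b u ((Matrix.toLin' (Matrix.fromBlocks (Matrix.fromBlocks 1 S 0 1) 0 0 1 :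
      Matrix ((Fin k ⊕ Fin k) ⊕ Fin 2) ((Fin k ⊕ Fin k) ⊕ Fin 2) F) - 1) u) = 0 := by
  rw [sieginvm_beta, ← Finset.sum_product']
  apply Finset.sum_involution (fun p _ => (p.2, p.1))
  · intro p _
    have h : S p.2 p.1 = S p.1 p.2 := by
      have h1 := congrFun (congrFun hSt p.1) p.2
      rw [Matrix.transpose_apply] at h1
      exact h1
    show S p.1 p.2 * u (Sum.inl (Sum.inr p.2)) * u (Sum.inl (Sum.inr p.1)) +
      S p.2 p.1 * u (Sum.inl (Sum.inr p.1)) * u (Sum.inl (Sum.inr p.2)) = 0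
    rw [h]
    have h2 : S p.1 p.2 * u (Sum.inl (Sum.inr p.1)) * u (Sum.inl (Sum.inr p.2)) =
        S p.1 p.2 * u (Sum.inl (Sum.inr p.2)) * u (Sum.inl (Sum.inr p.1)) := by ring
    rw [h2]
    exact CharTwo.add_self_eq_zero _
  · intro p _ hne heq
    apply hne
    have h1 : p.2 = p.1 := congrArg Prod.fst heq
    rw [h1, hS0, zero_mul, zero_mul]
  · intro p _
    exact Finset.mem_product.mpr ⟨Finset.mem_univ _, Finset.mem_univ _⟩
  · intro p _
    rfl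

theorem sieginvm_ker (k : ℕ) (S : Matrix (Fin k) (Fin k) F) (hSdet : IsUnit S.det)
    (u : (Fin k ⊕ Fin k) ⊕ Fin 2 → F)
    (hu : (Matrix.toLin' (Matrix.fromBlocks (Matrix.fromBlocks 1 S 0 1) 0 0 1 :
      Matrix ((Fin k ⊕ Fin k) ⊕ Fin 2) ((Fin k ⊕ Fin k) ⊕ Fin 2) F) - 1) u = 0) (i : Fin k) :
    u (Sum.inl (Sum.inr i)) = 0 := by
  have h1 : S.mulVec (fun j => u (Sum.inl (Sum.inr j))) = 0 := by
    funext c
    have h2 := congrFun hu (Sum.inl (Sum.inl c))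
    rw [sieginvm_N_ll] at h2
    exact h2
  have h3 := Matrix.eq_zero_of_mulVec_eq_zero hSdet.ne_zero h1
  exact congrFun h3 i

theorem sieginvm_Bm_alt [CharP F 2] (k : ℕ) (a b : F) : (sieginvm_Bm k F a b).IsAlt := by
  intro u
  rw [sieginvm_Bm_apply]
  have h1 : ∑ i : Fin k, (u (Sum.inl (Sum.inl i)) * u (Sum.inl (Sum.inr i))
        + u (Sum.inl (Sum.inl i)) * u (Sum.inl (Sum.inr i))) = 0 := by
    apply Finset.sum_eq_zero
    intro i _
    exact CharTwo.add_self_eq_zero _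
  rw [h1, CharTwo.add_self_eq_zero, mul_zero, add_zero]

theorem sieginvm_Bm_nd [CharP F 2] (k : ℕ) (a b : F) (ha : a ≠ 0) :
    Cfsg.Agent.Lib.Helper96.Sp.ND (sieginvm_Bm k F a b) ⊤ := by
  classical
  intro u _ h
  funext s
  rcases s with (i | i) | j
  · have h1 := h (Pi.single (Sum.inl (Sum.inr i)) 1) Submodule.mem_top
    rw [sieginvm_Bm_apply] at h1
    simpa [Pi.single_apply] using h1
  · have h1 := h (Pi.single (Sum.inl (Sum.inl i)) 1) Submodule.mem_top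
    rw [sieginvm_Bm_apply] at h1
    simpa [Pi.single_apply] using h1
  · fin_cases j
    · have h1 := h (Pi.single (Sum.inr 1) 1) Submodule.mem_top
      rw [sieginvm_Bm_apply] at h1
      simpa [Pi.single_apply, ha] using h1
    · have h1 := h (Pi.single (Sum.inr 0) 1) Submodule.mem_top
      rw [sieginvm_Bm_apply] at h1
      simpa [Pi.single_apply, ha] using h1

end aux

variable {F : Type u} [Field F] [Fintype F]

theorem sieginvm_a_ne [CharP F 2] (a b : F)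
    (hab : ∀ x y : F, x ^ 2 + a * x * y + b * y ^ 2 = 0 → x = 0 ∧ y = 0) : a ≠ 0 := by
  intro ha
  have hchar : ringChar F = 2 := ringChar.eq F 2
  obtain ⟨c, hc⟩ := FiniteField.isSquare_of_char_two hchar b
  have h := hab c 1 (by
    rw [ha, hc]
    have : c ^ 2 + 0 * c * 1 + c * c * 1 ^ 2 = c * c + c * c := by ring
    rw [this]
    exact CharTwo.add_self_eq_zero _)
  exact one_ne_zero h.2

/-- SIEGINVM -/
theorem siegel_plus_of_four_dvd [CharP F 2] (k : ℕ) (a b : F)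
    (hab : ∀ x y : F, x ^ 2 + a * x * y + b * y ^ 2 = 0 → x = 0 ∧ y = 0)
    (S : Matrix (Fin k) (Fin k) F) (hS0 : ∀ c, S c c = 0) (hSt : S.transpose = S)
    (hSdet : IsUnit S.det) (W : Submodule F ((Fin k ⊕ Fin k) ⊕ Fin 2 → F))
    (hWnd : Cfsg.Geo.IsNondegenerateOn (QuadraticMap.polar (Cfsg.quadFormMinus k F a b)) W)
    (hWx : W.map (Matrix.toLin' (Matrix.fromBlocks (Matrix.fromBlocks 1 S 0 1) 0 0 1 :
      Matrix ((Fin k ⊕ Fin k) ⊕ Fin 2) ((Fin k ⊕ Fin k) ⊕ Fin 2) F)) ≤ W)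
    (h4 : 4 ∣ finrank F W) : Cfsg.Geo.IsPlusTypeOn (Cfsg.quadFormMinus k F a b) W := by
  classical
  have ha : a ≠ 0 := sieginvm_a_ne a b hab
  obtain ⟨N, hNdef⟩ : ∃ N : Module.End F ((Fin k ⊕ Fin k) ⊕ Fin 2 → F),
      N = Matrix.toLin' (Matrix.fromBlocks (Matrix.fromBlocks 1 S 0 1) 0 0 1 :
        Matrix ((Fin k ⊕ Fin k) ⊕ Fin 2) ((Fin k ⊕ Fin k) ⊕ Fin 2) F) - 1 := ⟨_, rfl⟩
  obtain ⟨Bm, hBm⟩ : ∃ Bm : LinearMap.BilinForm F ((Fin k ⊕ Fin k) ⊕ Fin 2 → F),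
      Bm = sieginvm_Bm k F a b := ⟨_, rfl⟩
  have hA : Bm.IsAlt := by rw [hBm]; exact sieginvm_Bm_alt k a b
  have hNtop : Cfsg.Agent.Lib.Helper96.Sp.ND Bm ⊤ := by rw [hBm]; exact sieginvm_Bm_nd k a b ha
  have hBapp : ∀ u v, Bm u v =
      (∑ i : Fin k, (u (Sum.inl (Sum.inl i)) * v (Sum.inl (Sum.inr i))
        + v (Sum.inl (Sum.inl i)) * u (Sum.inl (Sum.inr i))))
      + a * (u (Sum.inr 0) * v (Sum.inr 1) + v (Sum.inr 0) * u (Sum.inr 1)) := by
    intro u v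
    rw [hBm]
    exact sieginvm_Bm_apply k a b u v
  have hsymB : ∀ u v, Bm u v = Bm v u := by
    intro u v
    rw [hBapp, hBapp]
    congr 1
    · apply Finset.sum_congr rfl
      intro i _
      ring
    · ring
  have hWND : Cfsg.Agent.Lib.Helper96.Sp.ND Bm W := by
    intro u hu h
    by_contra hne
    obtain ⟨-, v, hv, hv'⟩ := hWnd u hu hne
    rw [sieginvm_polar, ← hBm] at hv'
    exact hv' (h v hv)
  have hNW : ∀ w ∈ W, N w ∈ W := by
    intro w hw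
    rw [hNdef, LinearMap.sub_apply, Module.End.one_apply]
    exact W.sub_mem (hWx (Submodule.mem_map_of_mem hw)) hw
  have hbeta : ∀ u v, Bm u (N v) = Bm v (N u) := by
    intro u v
    rw [hNdef, hBm]
    exact sieginvm_beta_symm k a b S hSt u v
  have hbeta0 : ∀ u, Bm u (N u) = 0 := by
    intro u
    rw [hNdef, hBm]
    exact sieginvm_beta_self k a b S hS0 hSt u
  have hker : ∀ u, N u = 0 → ∀ i, u (Sum.inl (Sum.inr i)) = 0 := by
    intro u hu
    rw [hNdef] at hu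
    exact sieginvm_ker k S hSdet u hu
  have hNlr : ∀ w i, (N w) (Sum.inl (Sum.inr i)) = 0 := by
    intro w i
    rw [hNdef]
    exact sieginvm_N_lr k S w i
  have hNr : ∀ w j, (N w) (Sum.inr j) = 0 := by
    intro w j
    rw [hNdef]
    exact sieginvm_N_r k S w j
  -- rank-nullity for `N` on `W`
  have hrn := Cfsg.Agent.Lib.Lead.Pi.piU2_rank_nullity N W
  have hKW : W ⊓ LinearMap.ker N ≤ W := inf_le_left
  -- the rank of `N` on `W` is even
  obtain ⟨q, hq⟩ := Submodule.exists_isCompl (W ⊓ LinearMap.ker N)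
  have hUK : (W ⊓ q) ⊓ (W ⊓ LinearMap.ker N) = ⊥ := by
    rw [eq_bot_iff]
    intro x hx
    have h1 : x ∈ (W ⊓ LinearMap.ker N) ⊓ q := ⟨hx.2, hx.1.2⟩
    rw [hq.inf_eq_bot] at h1
    exact h1
  have hUsup : (W ⊓ LinearMap.ker N) ⊔ (W ⊓ q) = W := by
    have h1 := sup_inf_assoc_of_le q hKW
    rw [hq.sup_eq_top, top_inf_eq] at h1
    rw [inf_comm W q]
    exact h1.symm
  have hdimU : finrank F ↥(W ⊓ q) + finrank F ↥(W ⊓ LinearMap.ker N) = finrank F W := by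
    have h1 := Submodule.finrank_sup_add_finrank_inf_eq (W ⊓ LinearMap.ker N) (W ⊓ q)
    rw [hUsup, inf_comm (W ⊓ LinearMap.ker N) (W ⊓ q), hUK, finrank_bot] at h1
    omega
  have hUND : Cfsg.Agent.Lib.Helper96.Sp.ND (Bm.compl₂ N) (W ⊓ q) := by
    intro u hu h
    have hNu : N u = 0 := by
      apply hWND (N u) (hNW u hu.1)
      intro w hw
      rw [hsymB, hbeta w u]
      rw [← hUsup] at hw
      obtain ⟨c, hc, v, hv, rfl⟩ := Submodule.mem_sup.mp hw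
      rw [map_add, map_add, LinearMap.mem_ker.mp hc.2, map_zero, zero_add]
      exact h v hv
    have hu0 : u ∈ (W ⊓ q) ⊓ (W ⊓ LinearMap.ker N) := ⟨hu, hu.1, LinearMap.mem_ker.mpr hNu⟩
    rw [hUK] at hu0
    exact hu0
  have hbalt : (Bm.compl₂ N).IsAlt := fun u => hbeta0 u
  obtain ⟨m, hm⟩ := Cfsg.Agent.Lib.Helper96.Sp.even_finrank_of_nd hbalt (W ⊓ q) hUND
  -- the totally singular subspace `U₀`
  obtain ⟨πU, hπU⟩ : ∃ πU : ((Fin k ⊕ Fin k) ⊕ Fin 2 → F) →ₗ[F] (Fin k ⊕ Fin 2 → F),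
      πU = LinearMap.funLeft F F
        (Sum.elim (fun i : Fin k => Sum.inl (Sum.inr i)) (fun j : Fin 2 => Sum.inr j)) :=
    ⟨_, rfl⟩
  have hU0mem : ∀ w, w ∈ LinearMap.ker πU ↔
      (∀ i, w (Sum.inl (Sum.inr i)) = 0) ∧ ∀ j, w (Sum.inr j) = 0 := by
    intro w
    rw [LinearMap.mem_ker, hπU]
    constructor
    · intro h
      refine ⟨fun i => ?_, fun j => ?_⟩
      · exact congrFun h (Sum.inl i)
      · exact congrFun h (Sum.inr j)
    · rintro ⟨h1, h2⟩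
      funext s
      rcases s with i | j
      · exact h1 i
      · exact h2 j
  have hIT : W.map N ≤ W ⊓ LinearMap.ker πU := by
    rintro _ ⟨w, hw, rfl⟩
    exact ⟨hNW w hw, (hU0mem _).mpr ⟨fun i => hNlr w i, fun j => hNr w j⟩⟩
  have hITle := Submodule.finrank_mono hIT
  have hQ0 : ∀ w ∈ W ⊓ LinearMap.ker πU, Cfsg.quadFormMinus k F a b w = 0 := by
    intro w hw
    obtain ⟨h1, h2⟩ := (hU0mem w).mp hw.2
    unfold Cfsg.quadFormMinus
    rw [h2 0, h2 1]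
    have h3 : ∑ i : Fin k, w (Sum.inl (Sum.inl i)) * w (Sum.inl (Sum.inr i)) = 0 := by
      apply Finset.sum_eq_zero
      intro i _
      rw [h1 i, mul_zero]
    rw [h3]
    ring
  -- `2 * dim (W ⊓ U₀) ≤ dim W`
  have hfp := Cfsg.Agent.Lib.Helper96.Sp.finrank_inf_perp hA hNtop
    (inf_le_left : W ⊓ LinearMap.ker πU ≤ W) hWND
  have hTperp : W ⊓ LinearMap.ker πU ≤ W ⊓ Bm.orthogonal (W ⊓ LinearMap.ker πU) := by
    refine le_inf inf_le_left ?_
    intro t ht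
    rw [Cfsg.Agent.Lib.Helper96.Sp.mem_perp_iff]
    intro t' ht'
    obtain ⟨h1, h2⟩ := (hU0mem t).mp ht.2
    obtain ⟨h1', h2'⟩ := (hU0mem t').mp ht'.2
    rw [hBapp, h2 0, h2 1, h2' 0, h2' 1]
    have h3 : ∑ i : Fin k, (t' (Sum.inl (Sum.inl i)) * t (Sum.inl (Sum.inr i))
        + t (Sum.inl (Sum.inl i)) * t' (Sum.inl (Sum.inr i))) = 0 := by
      apply Finset.sum_eq_zero
      intro i _
      rw [h1 i, h1' i, mul_zero, mul_zero, add_zero]
    rw [h3]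
    ring
  have hTperple := Submodule.finrank_mono hTperp
  -- `dim (W ⊓ ker N) ≤ dim (W ⊓ U₀) + 2`
  obtain ⟨πE, hπE⟩ : ∃ πE : ((Fin k ⊕ Fin k) ⊕ Fin 2 → F) →ₗ[F] (Fin 2 → F),
      πE = LinearMap.funLeft F F (fun j : Fin 2 => (Sum.inr j : (Fin k ⊕ Fin k) ⊕ Fin 2)) :=
    ⟨_, rfl⟩
  have hKT : finrank F ↥(W ⊓ LinearMap.ker N) ≤ finrank F ↥(W ⊓ LinearMap.ker πU) + 2 := by
    have h := LinearMap.finrank_range_add_finrank_ker
      (πE.comp (W ⊓ LinearMap.ker N).subtype)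
    have h2 : finrank F ↥(LinearMap.range (πE.comp (W ⊓ LinearMap.ker N).subtype)) ≤ 2 := by
      have h2' := Submodule.finrank_le
        (LinearMap.range (πE.comp (W ⊓ LinearMap.ker N).subtype))
      rw [Module.finrank_fin_fun] at h2'
      exact h2'
    have e : (LinearMap.ker (πE.comp (W ⊓ LinearMap.ker N).subtype)).map
        (W ⊓ LinearMap.ker N).subtype ≤ W ⊓ LinearMap.ker πU := by
      rintro _ ⟨y, hy, rfl⟩
      have hy1 : (y : (Fin k ⊕ Fin k) ⊕ Fin 2 → F) ∈ W ⊓ LinearMap.ker N := y.2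
      have hy2 : πE (y : (Fin k ⊕ Fin k) ⊕ Fin 2 → F) = 0 := by simpa using hy
      refine ⟨hy1.1, (hU0mem _).mpr ⟨fun i => ?_, fun j => ?_⟩⟩
      · exact hker _ (LinearMap.mem_ker.mp hy1.2) i
      · rw [hπE] at hy2
        exact congrFun hy2 j
    have h3 : finrank F ↥(LinearMap.ker (πE.comp (W ⊓ LinearMap.ker N).subtype))
        ≤ finrank F ↥(W ⊓ LinearMap.ker πU) := by
      have h3' := (Submodule.equivMapOfInjective (W ⊓ LinearMap.ker N).subtype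
        (W ⊓ LinearMap.ker N).injective_subtype
        (LinearMap.ker (πE.comp (W ⊓ LinearMap.ker N).subtype))).finrank_eq
      rw [h3']
      exact Submodule.finrank_mono e
    omega
  refine ⟨W ⊓ LinearMap.ker πU, inf_le_left, hQ0, ?_⟩
  omega

end Cfsg.Agent.Lib.Helper98.H74
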