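import Mathlib
import Cfsg.Agent.Lib.Helper22.HPDefs
import Cfsg.Agent.Lib.Helper83.IrrBasic
import Cfsg.Agent.Lib.Helper82.PQ
import Cfsg.Agent.Lib.Helper67.BFZCENT
import Cfsg.Agent.Lib.Helper80.Galois

/-!
# S4504 (helper22's HP project), piece GAL: a Galois exponent exists.
-/

set_option autoImplicit false
set_option linter.style.haveILetI false

namespace Cfsg.Agent.Lib.Helper34.HPT

open Cfsg Cfsg.Agent.Lib.Helper22.BFD Cfsg.Agent.Lib.Helper22.HPD
open scoped ComplexConjugate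

universe u

/-- PIECE GAL (a Galois exponent exists) -/
theorem hp_gal {G : Type u} [Group G] [Fintype G] (p : ℕ) [Fact p.Prime] (hp2 : p ≠ 2)
    (hdiv : p ∣ Nat.card G) (hsq : ¬ p ^ 2 ∣ Nat.card G) : ∃ k : ℕ, GalExp p G k := by
  classical
  have hp : p.Prime := Fact.out
  have hn : 0 < Nat.card G := Nat.card_pos
  have hn0 : Nat.card G ≠ 0 := hn.ne'
  obtain ⟨g', hg'⟩ := hdiv
  have hg'0 : g' ≠ 0 := by
    rintro rfl
    exact hn0 (by rw [hg', mul_zero])
  have hcop : Nat.Coprime p g' := by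
    rw [hp.coprime_iff_not_dvd]
    rintro ⟨c, rfl⟩
    exact hsq ⟨c, by rw [hg']; ring⟩
  -- a non-square
  obtain ⟨s, hs⟩ : ∃ s : ZMod p, ¬ IsSquare s := by
    apply FiniteField.exists_nonsquare
    rw [ZMod.ringChar_zmod_n]
    exact hp2
  have hs0 : s ≠ 0 := by
    rintro rfl
    exact hs ⟨0, by simp⟩
  -- the Chinese remainder theorem
  obtain ⟨k, hkp, hk1⟩ := Nat.chineseRemainder hcop s.val 1
  have hkz : (k : ZMod p) = s := by
    rw [(ZMod.natCast_eq_natCast_iff _ _ _).mpr hkp, ZMod.natCast_zmod_val]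
  have hkcp : Nat.Coprime k p := by
    rw [Nat.coprime_comm, hp.coprime_iff_not_dvd]
    intro hdvd
    have h0 : (k : ZMod p) = 0 := (ZMod.natCast_eq_zero_iff _ _).mpr hdvd
    rw [hkz] at h0
    exact hs0 h0
  have hkcg : Nat.Coprime k g' := by
    rw [Nat.Coprime, hk1.gcd_eq]
    simp
  have hkc : Nat.Coprime k (Nat.card G) := by
    rw [hg']
    exact Nat.Coprime.mul_right hkcp hkcg
  refine ⟨k, hkc, ?_, ?_, ?_⟩
  · rw [hkz]
    intro hmem
    unfold Sq at hmem
    rw [Finset.mem_filter] at hmem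
    exact hs hmem.2.2
  · intro g hg
    have h1 : orderOf g ∣ p * g' := by
      rw [← hg']
      exact orderOf_dvd_natCard g
    have h2 : Nat.Coprime (orderOf g) p := by
      rw [Nat.coprime_comm, hp.coprime_iff_not_dvd]
      exact hg
    have h3 : orderOf g ∣ g' := h2.dvd_of_dvd_mul_left h1
    have h4 : k ≡ 1 [MOD orderOf g] := hk1.of_dvd h3
    have h5 := pow_eq_pow_iff_modEq.mpr h4
    rw [h5, pow_one]
  · intro φ
    exact Cfsg.Agent.Lib.Helper80.isIrrCharacter_pow_coprime k hkc φ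

end Cfsg.Agent.Lib.Helper34.HPT
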