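import Mathlib
import Cfsg.Agent.Lib.Helper78.HarDefs

/-!
# Project HAR (S1235), piece DIHC (helper34)
-/

set_option autoImplicit false

namespace Cfsg.Agent.Lib.Helper34.Har

open Cfsg.Agent.Lib.Helper78.Har

-- PIECE DIHC
theorem dihedral_cyclic {D : Type*} [Group D] (m : ℕ) (hm : 1 ≤ m) (e : D ≃* DihedralGroup m) :
    ∃ C : Subgroup D, C.Normal ∧ IsCyclic C ∧ Nat.card D = 2 * Nat.card C := by
  have hm0 : NeZero m := ⟨by omega⟩
  have hfinD : Finite D := Finite.of_equiv _ e.symm.toEquiv
  have hcardC0 : Nat.card (Subgroup.zpowers (DihedralGroup.r (1 : ZMod m))) = m := by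
    rw [Nat.card_zpowers, DihedralGroup.orderOf_r_one]
  have hcardC : Nat.card ((Subgroup.zpowers (DihedralGroup.r (1 : ZMod m))).map
      e.symm.toMonoidHom) = m := by
    exact ((Nat.card_congr (e.symm.subgroupMap
      (Subgroup.zpowers (DihedralGroup.r (1 : ZMod m)))).toEquiv).symm).trans hcardC0
  have hcardD : Nat.card D = 2 * m := by
    rw [Nat.card_congr e.toEquiv, DihedralGroup.nat_card]
  refine ⟨(Subgroup.zpowers (DihedralGroup.r (1 : ZMod m))).map e.symm.toMonoidHom, ?_, ?_, ?_⟩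
  · apply Subgroup.normal_of_index_eq_two
    have h1 := Subgroup.card_mul_index ((Subgroup.zpowers (DihedralGroup.r (1 : ZMod m))).map
      e.symm.toMonoidHom)
    rw [hcardC, hcardD, mul_comm 2 m] at h1
    exact Nat.eq_of_mul_eq_mul_left (by omega) h1
  · exact isCyclic_of_surjective (e.symm.subgroupMap
      (Subgroup.zpowers (DihedralGroup.r (1 : ZMod m)))) (MulEquiv.surjective _)
  · rw [hcardC, hcardD]

end Cfsg.Agent.Lib.Helper34.Har
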