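import Mathlib
import Cfsg.Agent.Lib.Helper78.HarDefs

/-!
# Project HAR (S1235), piece SYLC (helper34)
-/

set_option autoImplicit false

namespace Cfsg.Agent.Lib.Helper34.Har

open Cfsg.Agent.Lib.Helper78.Har

-- PIECE SYLC
theorem eq_of_odd_relIndex {G : Type*} [Group G] [Finite G] (T C : Subgroup G) (hT : IsPGroup 2 T)
    (hTC : T ≤ C) (hodd : Odd (T.relIndex C)) :
    ∀ P : Subgroup G, IsPGroup 2 P → T ≤ P → P ≤ C → P = T := by
  intro P hP hTP hPC
  have h1 : T.relIndex P * P.relIndex C = T.relIndex C :=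
    Subgroup.relIndex_mul_relIndex T P C hTP hPC
  have hodd' : Odd (T.relIndex P) := by
    rw [← h1] at hodd
    exact (Nat.odd_mul.mp hodd).1
  have hdvd : T.relIndex P ∣ Nat.card P := Subgroup.relIndex_dvd_card T P
  obtain ⟨k, hk⟩ := IsPGroup.iff_card.mp hP
  rw [hk] at hdvd
  obtain ⟨j, -, hj'⟩ := (Nat.dvd_prime_pow Nat.prime_two).mp hdvd
  have hj0 : j = 0 := by
    by_contra h
    rw [hj'] at hodd'
    exact (Nat.not_even_iff_odd.mpr hodd') ((Nat.even_pow).mpr ⟨even_two, h⟩)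
  rw [hj0, pow_zero] at hj'
  exact le_antisymm (Subgroup.relIndex_eq_one.mp hj') hTP

end Cfsg.Agent.Lib.Helper34.Har
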