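import Cfsg.Agent.Lib.Helper96.HyDefs

/-!
# Project HE (S5993, helper96), piece UNIPHYP (helper34)

`T = 1 + N` an isometry of a nondegenerate symmetric form with
`dim V + 2 rk N² = 2 rk N + 1`: every `T`-invariant nondegenerate subspace `W` of even dimension
is hyperbolic; `N W` is a totally singular subspace of half the dimension.
-/

set_option autoImplicit false
set_option linter.unusedSectionVars false
set_option linter.unusedVariables false

namespace Cfsg.Agent.Lib.Helper34.He

open Module Cfsg.Agent.Lib.Helper96.Sp Cfsg.Agent.Lib.Helper96.Hy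

universe u

section Abstract

variable {F : Type u} [Field F] [Fintype F] {V : Type u} [AddCommGroup V] [Module F V]
  [FiniteDimensional F V] {B : LinearMap.BilinForm F V}

/-- rank–nullity for the restriction of `X` to a subspace -/
theorem uniphyp_finrank_map_add (X : Module.End F V) (R : Submodule F V) :
    finrank F ↥(R.map X) + finrank F ↥(R ⊓ LinearMap.ker X) = finrank F ↥R := by
  have h := LinearMap.finrank_range_add_finrank_ker (X.domRestrict R)
  rw [LinearMap.range_domRestrict, LinearMap.ker_domRestrict] at h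
  have h2 : finrank F ↥(Submodule.comap R.subtype (LinearMap.ker X)) =
      finrank F ↥(R ⊓ LinearMap.ker X) := by
    rw [← Submodule.map_comap_subtype, Submodule.finrank_map_subtype_eq]
  rw [h2] at h
  exact h

/-- for an `X`-invariant subspace `S`: `2 rk (X|S) ≤ dim S + rk (X²|S)` -/
theorem uniphyp_ineq (X : Module.End F V) (S : Submodule F V) (hS : S.map X ≤ S) :
    2 * finrank F ↥(S.map X) ≤ finrank F ↥S + finrank F ↥((S.map X).map X) := by
  have h1 := uniphyp_finrank_map_add X S
  have h2 := uniphyp_finrank_map_add X (S.map X)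
  have h3 : finrank F ↥(S.map X ⊓ LinearMap.ker X) ≤ finrank F ↥(S ⊓ LinearMap.ker X) :=
    Submodule.finrank_mono (inf_le_inf_right _ hS)
  omega

/-- additivity of the dimension of the image over two subspaces with independent images -/
theorem uniphyp_add (X : Module.End F V) (A A' : Submodule F V)
    (hd : A.map X ⊓ A'.map X = ⊥) :
    finrank F ↥((A ⊔ A').map X) = finrank F ↥(A.map X) + finrank F ↥(A'.map X) := by
  have h := Submodule.finrank_sup_add_finrank_inf_eq (A.map X) (A'.map X)
  rw [hd, finrank_bot, add_zero] at h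
  rw [Submodule.map_sup]
  exact h

-- PIECE UNIPHYP
theorem hyp_of_unip_inv (hS : B.IsSymm) (h2 : (2 : F) ≠ 0) (hN : ND B ⊤) (N : Module.End F V)
    (hT : Isom B (1 + N)) (hN3 : N ^ 3 = 0)
    (hrank : finrank F V + 2 * finrank F (LinearMap.range (N ^ 2))
      = 2 * finrank F (LinearMap.range N) + 1)
    (W : Submodule F V) (hW : W.map (1 + N) ≤ W) (hWnd : ND B W)
    (hWe : Even (finrank F W)) : Hyp B W := by
  have hW' : (B.orthogonal W).map (1 + N) ≤ B.orthogonal W := perp_invariant hN hT hW
  have hc : IsCompl W (B.orthogonal W) := Cfsg.Agent.Lib.Helper98.O72.nd_isCompl hS h2 hWnd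
  have hinv : ∀ S : Submodule F V, S.map (1 + N) ≤ S → S.map N ≤ S := by
    rintro S hS' _ ⟨x, hx, rfl⟩
    have h1 : (1 + N) x ∈ S := hS' ⟨x, hx, rfl⟩
    have h3 : N x = (1 + N) x - x := by
      rw [LinearMap.add_apply, Module.End.one_apply]
      abel
    rw [h3]
    exact S.sub_mem h1 hx
  have hWN := hinv W hW
  have hW'N := hinv _ hW'
  have hbot : W ⊓ B.orthogonal W = ⊥ := hc.inf_eq_bot
  have hd1 : W.map N ⊓ (B.orthogonal W).map N = ⊥ := by
    rw [eq_bot_iff, ← hbot]
    exact inf_le_inf hWN hW'N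
  have hWN2 : (W.map N).map N ≤ W.map N := Submodule.map_mono hWN
  have hW'N2 : ((B.orthogonal W).map N).map N ≤ (B.orthogonal W).map N :=
    Submodule.map_mono hW'N
  have hd2 : (W.map N).map N ⊓ ((B.orthogonal W).map N).map N = ⊥ := by
    rw [eq_bot_iff, ← hd1]
    exact inf_le_inf hWN2 hW'N2
  have hr1 : LinearMap.range N = (W ⊔ B.orthogonal W).map N := by
    rw [hc.sup_eq_top, Submodule.map_top]
  have hr2 : LinearMap.range (N ^ 2) = (W.map N ⊔ (B.orthogonal W).map N).map N := by
    rw [pow_two, Module.End.mul_eq_comp, LinearMap.range_comp, hr1, Submodule.map_sup]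
  have e1 := uniphyp_add N W (B.orthogonal W) hd1
  have e2 := uniphyp_add N (W.map N) ((B.orthogonal W).map N) hd2
  rw [← hr1] at e1
  rw [← hr2] at e2
  have e3 : finrank F ↥W + finrank F ↥(B.orthogonal W) = finrank F V :=
    Submodule.finrank_add_eq_of_isCompl hc
  have i1 := uniphyp_ineq N W hWN
  have i2 := uniphyp_ineq N (B.orthogonal W) hW'N
  obtain ⟨c, hc2⟩ := hWe
  have hz : finrank F ↥((W.map N).map N) = 0 ∧ finrank F ↥W = 2 * finrank F ↥(W.map N) := by
    omega
  obtain ⟨hz1, hz2⟩ := hz
  have hzero : (W.map N).map N = ⊥ := Submodule.finrank_eq_zero.mp hz1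
  have hNN : ∀ x ∈ W, N (N x) = 0 := by
    intro x hx
    have hmem : N (N x) ∈ (W.map N).map N := ⟨N x, ⟨x, hx, rfl⟩, rfl⟩
    rw [hzero] at hmem
    exact (Submodule.mem_bot F).mp hmem
  refine ⟨hWnd, W.map N, hWN, ?_, hz2.symm⟩
  rintro _ ⟨x, hx, rfl⟩ _ ⟨y, hy, rfl⟩
  have h := hT (N x) y
  rw [LinearMap.add_apply, LinearMap.add_apply, Module.End.one_apply, Module.End.one_apply,
    hNN x hx, add_zero, map_add] at h
  linear_combination h

end Abstract

end Cfsg.Agent.Lib.Helper34.He
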