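import Cfsg.Agent.Lib.Helper73.SpCount

/-!
# Project HY (S5992, helper96), piece ORBIT (helper34)

An isometry of prime order `r` from the divisibility by `r` of the size of a family of subspaces
that is stable under isometries and on which the isometries act transitively (orbit-stabiliser
and Cauchy for the group of isometric linear equivalences).  Generalises
`Cfsg.Agent.Lib.Helper14.SpCountTI.exists_isom_of_dvd_card_ti`.
-/

set_option autoImplicit false
set_option linter.unusedSectionVars false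
set_option linter.unusedVariables false

namespace Cfsg.Agent.Lib.Helper34.Hy

open Module Cfsg.Agent.Lib.Helper96.Sp Cfsg.Agent.Lib.Helper73.SpCount

universe u

section Abstract

variable {F : Type u} [Field F] [Fintype F] {V : Type u} [AddCommGroup V] [Module F V]
  [FiniteDimensional F V] {B : LinearMap.BilinForm F V}

/-- The action of the isometries on an isometry-stable family of subspaces. -/
@[reducible] noncomputable def hyOrbitAct (B : LinearMap.BilinForm F V)
    (P : Submodule F V → Prop)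
    (hP : ∀ (W : Submodule F V) (g : V ≃ₗ[F] V), Isom B (g : V →ₗ[F] V) → P W →
      P (W.map (g : V →ₗ[F] V))) :
    MulAction ↥(isoGrp B) {W : Submodule F V // P W} where
  smul g W := ⟨(W.1).map ((g : V ≃ₗ[F] V) : V →ₗ[F] V), hP W.1 g.1 g.2 W.2⟩
  one_smul W := Subtype.ext (Submodule.map_id _)
  mul_smul g h W := Subtype.ext (Submodule.map_comp _ _ _)

-- PIECE ORBIT
theorem exists_isom_of_dvd_card (hN : ND B ⊤) (P : Submodule F V → Prop)
    (hP : ∀ (W : Submodule F V) (g : V ≃ₗ[F] V), Isom B (g : V →ₗ[F] V) → P W →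
      P (W.map (g : V →ₗ[F] V)))
    (W₀ : Submodule F V) (hW₀ : P W₀)
    (hwitt : ∀ W W' : Submodule F V, P W → P W' →
      ∃ h : V ≃ₗ[F] V, Isom B (h : V →ₗ[F] V) ∧ W.map (h : V →ₗ[F] V) = W')
    (r : ℕ) [Fact r.Prime] (hΩ : r ∣ Nat.card {W : Submodule F V // P W}) :
    ∃ g : Module.End F V, Isom B g ∧ g ^ r = 1 ∧ g ≠ 1 := by
  classical
  have hr : r.Prime := Fact.out
  haveI : Finite V := Module.finite_of_finite F
  haveI : Finite (V ≃ₗ[F] V) :=
    Finite.of_injective (fun g : V ≃ₗ[F] V => (g : V → V)) DFunLike.coe_injective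
  have h2 : Nat.card {W : Submodule F V // P W} ∣ Nat.card ↥(isoGrp B) := by
    letI := hyOrbitAct B P hP
    haveI : MulAction.IsPretransitive ↥(isoGrp B) {W : Submodule F V // P W} :=
      ⟨by
        intro D D'
        obtain ⟨g, hg, hgD⟩ := hwitt D.1 D'.1 D.2 D'.2
        exact ⟨⟨g, hg⟩, Subtype.ext hgD⟩⟩
    rw [← MulAction.index_stabilizer_of_transitive ↥(isoGrp B)
      (⟨W₀, hW₀⟩ : {W : Submodule F V // P W})]
    exact Subgroup.index_dvd_card _
  have h3 : r ∣ Nat.card ↥(isoGrp B) := dvd_trans hΩ h2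
  obtain ⟨g, hg⟩ := exists_prime_orderOf_dvd_card' (G := ↥(isoGrp B)) r h3
  have hgr : (g : V ≃ₗ[F] V) ^ r = 1 := by
    have : g ^ r = 1 := by
      rw [← hg]
      exact pow_orderOf_eq_one g
    have h := congrArg (fun x : ↥(isoGrp B) => (x : V ≃ₗ[F] V)) this
    simpa using h
  have hpow : ∀ (k : ℕ) (x : V),
      ((((g : V ≃ₗ[F] V) : V →ₗ[F] V) : Module.End F V) ^ k) x = ((g : V ≃ₗ[F] V) ^ k) x := by
    intro k
    induction k with
    | zero => intro x; rfl
    | succ k ih =>
      intro x
      rw [pow_succ, pow_succ]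
      show ((((g : V ≃ₗ[F] V) : V →ₗ[F] V) : Module.End F V) ^ k) ((g : V ≃ₗ[F] V) x) =
        ((g : V ≃ₗ[F] V) ^ k) ((g : V ≃ₗ[F] V) x)
      exact ih _
  refine ⟨((g : V ≃ₗ[F] V) : V →ₗ[F] V), g.2, ?_, ?_⟩
  · ext x
    rw [hpow, hgr]
    rfl
  · intro h
    have hg1 : g = 1 := by
      apply Subtype.ext
      ext x
      have := LinearMap.congr_fun h x
      exact this
    rw [hg1, orderOf_one] at hg
    exact hr.one_lt.ne hg

end Abstract

end Cfsg.Agent.Lib.Helper34.Hy
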