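import Mathlib
import Cfsg.Agent.Lib.Helper72.JPDefs

/-!
# Project JP (helper72), piece KB (helper34)

Basic structure of `K = KOf Q k = ⟨k^Q⟩` for a normal 2-subgroup `Q` and an element `k` of order 3:
`Q` normalizes `K`, `K` is generated by elements of odd order, `K = (K ⊓ Q)⟨k⟩`, and the
elements of odd order of `Q⟨k⟩` lie in `K`.
-/

set_option autoImplicit false

namespace Cfsg.Agent.Lib.Helper34.JP

open Cfsg.Agent.Lib.Helper72.JP Cfsg.Agent.Lib.Helper72.JM Cfsg.Agent.Lib.Helper72.JL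
  Cfsg.Agent.Lib.Helper72.SC Cfsg.Agent.Lib.Helper78.Jc

open scoped commutatorElement

universe u

/-- `KOf Q k` is stable under conjugation by `Q` -/
theorem kb_conj_mem {X : Type u} [Group X] (Q : Subgroup X) (k : X) (q0 : X) (hq0 : q0 ∈ Q)
    (x : X) (hx : x ∈ KOf Q k) : q0 * x * q0⁻¹ ∈ KOf Q k := by
  unfold KOf at hx ⊢
  induction hx using Subgroup.closure_induction with
  | mem y hy =>
    obtain ⟨q, hq, rfl⟩ := hy
    apply Subgroup.subset_closure
    exact ⟨q0 * q, Q.mul_mem hq0 hq, by group⟩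
  | one =>
    have e : q0 * 1 * q0⁻¹ = 1 := by group
    rw [e]
    exact Subgroup.one_mem _
  | mul y z _ _ ihy ihz =>
    have e : q0 * (y * z) * q0⁻¹ = (q0 * y * q0⁻¹) * (q0 * z * q0⁻¹) := by group
    rw [e]
    exact Subgroup.mul_mem _ ihy ihz
  | inv y _ ih =>
    have e : q0 * y⁻¹ * q0⁻¹ = (q0 * y * q0⁻¹)⁻¹ := by group
    rw [e]
    exact Subgroup.inv_mem _ ih

/-- `k ∈ KOf Q k` -/
theorem kb_self_mem {X : Type u} [Group X] (Q : Subgroup X) (k : X) : k ∈ KOf Q k := by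
  unfold KOf
  apply Subgroup.subset_closure
  exact ⟨1, Q.one_mem, by group⟩

/-- every element of `KOf Q k` is `q * k ^ i` with `q ∈ Q` -/
theorem kb_decomp {X : Type u} [Group X] (Q : Subgroup X) (k : X) (hQ : Q.Normal)
    (hk3 : k ^ 3 = 1) (x : X) (hx : x ∈ KOf Q k) : ∃ q ∈ Q, ∃ i : ℕ, x = q * k ^ i := by
  unfold KOf at hx
  induction hx using Subgroup.closure_induction with
  | mem y hy =>
    obtain ⟨q, hq, rfl⟩ := hy
    refine ⟨q * (k * q⁻¹ * k⁻¹), Q.mul_mem hq (hQ.conj_mem _ (Q.inv_mem hq) k), 1, ?_⟩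
    rw [pow_one]
    group
  | one => exact ⟨1, Q.one_mem, 0, by rw [pow_zero, mul_one]⟩
  | mul y z _ _ ihy ihz =>
    obtain ⟨q, hq, i, rfl⟩ := ihy
    obtain ⟨q', hq', j, rfl⟩ := ihz
    refine ⟨q * (k ^ i * q' * (k ^ i)⁻¹), Q.mul_mem hq (hQ.conj_mem _ hq' (k ^ i)), i + j, ?_⟩
    rw [pow_add]
    group
  | inv y _ ih =>
    obtain ⟨q, hq, i, rfl⟩ := ih
    have hinv : (k ^ i)⁻¹ = k ^ (2 * i) := by
      apply inv_eq_of_mul_eq_one_right
      rw [← pow_add, show i + 2 * i = 3 * i by ring, pow_mul, hk3, one_pow]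
    have hmem : (k ^ i)⁻¹ * q⁻¹ * ((k ^ i)⁻¹)⁻¹ ∈ Q := hQ.conj_mem _ (Q.inv_mem hq) _
    refine ⟨(k ^ i)⁻¹ * q⁻¹ * ((k ^ i)⁻¹)⁻¹, hmem, 2 * i, ?_⟩
    rw [← hinv]
    group

theorem kb : KbStmt.{u} := by
  intro X _ _ Q k hQ hQ2 hk3 hk1
  haveI : Fact (Nat.Prime 3) := ⟨Nat.prime_three⟩
  have hkK : k ∈ KOf Q k := kb_self_mem Q k
  refine ⟨?_, ?_, ?_, ?_⟩
  · intro q0 hq0
    rw [Subgroup.mem_normalizer_iff]
    intro x
    constructor
    · intro hx
      exact kb_conj_mem Q k q0 hq0 x hx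
    · intro hx
      have h := kb_conj_mem Q k q0⁻¹ (Q.inv_mem hq0) _ hx
      have e : q0⁻¹ * (q0 * x * q0⁻¹) * q0⁻¹⁻¹ = x := by group
      rwa [e] at h
  · apply le_antisymm
    · rw [Subgroup.closure_le]
      intro g hg
      exact hg.1
    · have hle : KOf Q k ≤ Subgroup.closure {g : X | g ∈ KOf Q k ∧ Odd (orderOf g)} := by
        unfold KOf
        rw [Subgroup.closure_le]
        rintro _ ⟨q, hq, rfl⟩
        apply Subgroup.subset_closure
        refine ⟨Subgroup.subset_closure ⟨q, hq, rfl⟩, ?_⟩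
        have e1 : orderOf (q * k * q⁻¹) = orderOf k := by
          have := MulEquiv.orderOf_eq (MulAut.conj q) k
          rwa [MulAut.conj_apply] at this
        have e2 : orderOf k = 3 := orderOf_eq_prime hk3 hk1
        rw [e1, e2]
        exact ⟨1, rfl⟩
      exact hle
  · intro x hx
    obtain ⟨q, hq, i, rfl⟩ := kb_decomp Q k hQ hk3 x hx
    refine ⟨q, ⟨?_, hq⟩, i, rfl⟩
    have e : q = q * k ^ i * (k ^ i)⁻¹ := by group
    rw [e]
    exact Subgroup.mul_mem _ hx (Subgroup.inv_mem _ (Subgroup.pow_mem _ hkK i))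
  · rintro g ⟨q, hq, i, rfl⟩ hodd
    have hpow : ∀ n : ℕ, (q ^ n)⁻¹ * (q * k ^ i) ^ n ∈ KOf Q k := by
      intro n
      induction n with
      | zero =>
        rw [pow_zero, pow_zero, inv_one, one_mul]
        exact Subgroup.one_mem _
      | succ n ih =>
        have h1 : q⁻¹ * ((q ^ n)⁻¹ * (q * k ^ i) ^ n) * q⁻¹⁻¹ ∈ KOf Q k :=
          kb_conj_mem Q k q⁻¹ (Q.inv_mem hq) _ ih
        have h2 : k ^ i ∈ KOf Q k := Subgroup.pow_mem _ hkK i
        have e : (q ^ (n + 1))⁻¹ * (q * k ^ i) ^ (n + 1)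
            = q⁻¹ * ((q ^ n)⁻¹ * (q * k ^ i) ^ n) * q⁻¹⁻¹ * k ^ i := by
          rw [pow_succ, pow_succ]
          group
        rw [e]
        exact Subgroup.mul_mem _ h1 h2
    obtain ⟨s, hs⟩ := hQ2 ⟨q, hq⟩
    have hs' : q ^ 2 ^ s = 1 := by
      have := congrArg Subtype.val hs
      simpa using this
    have h3 := hpow (2 ^ s)
    rw [hs', inv_one, one_mul] at h3
    have hcop : Nat.Coprime (2 ^ s) (orderOf (q * k ^ i)) :=
      Nat.Coprime.pow_left s (Nat.coprime_two_left.mpr hodd)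
    obtain ⟨m, hm⟩ := exists_pow_eq_self_of_coprime hcop
    rw [← hm]
    exact Subgroup.pow_mem _ h3 m

end Cfsg.Agent.Lib.Helper34.JP
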