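import Mathlib
import Cfsg.Prelude.Def_LieTypeChar
import Cfsg.Agent.Lib.Lead.LTBCore
import Cfsg.Agent.Lib.Lead.LTBDefs

/-!
S2363 (lead's LTB project), piece OMINUS: the order bound for the minus-type orthogonal groups.
-/

set_option autoImplicit false

namespace Cfsg.Agent.Lib.Lead.LTB

open Cfsg

theorem ltbominus_prod (q : ℕ) (hq : 1 ≤ q) (k : ℕ) :
    ∏ i ∈ Finset.range k, (q ^ (2 * (i + 1 + 1)) - 1) ≤ q ^ (k * k + 3 * k) := by
  induction k with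
  | zero => simp
  | succ k ih =>
    rw [Finset.prod_range_succ]
    calc (∏ i ∈ Finset.range k, (q ^ (2 * (i + 1 + 1)) - 1)) * (q ^ (2 * (k + 1 + 1)) - 1)
        ≤ q ^ (k * k + 3 * k) * q ^ (2 * (k + 1 + 1)) :=
          Nat.mul_le_mul ih (Nat.sub_le _ _)
      _ = q ^ ((k + 1) * (k + 1) + 3 * (k + 1)) := by
          rw [← pow_add]
          congr 1
          ring

theorem ltbominus_arith (q m : ℕ) (hq : 2 ≤ q) (hm : 4 ≤ m) :
    (q ^ m + 1) * ∏ i ∈ Finset.range (m - 1), (q ^ (2 * (i + 1)) - 1) < q ^ (m ^ 2) := by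
  obtain ⟨k, rfl⟩ : ∃ k, m = k + 2 := ⟨m - 2, by omega⟩
  have hk1 : k + 2 - 1 = k + 1 := by omega
  rw [hk1, Finset.prod_range_succ']
  have hq0 : 0 < q := by omega
  have hP := ltbominus_prod q (by omega) k
  have hc : q ^ (2 * (0 + 1)) - 1 + 1 = q ^ 2 := by
    have h1 : 1 ≤ q ^ 2 := Nat.one_le_pow _ _ hq0
    simp only [zero_add, mul_one]
    omega
  have hlt : (q ^ (k + 2) + 1) * (q ^ (2 * (0 + 1)) - 1) < q ^ (k + 2 + 2) := by
    have h2 : q ^ 2 ≤ q ^ (k + 2) := Nat.pow_le_pow_right hq0 (by omega)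
    have h3 : q ^ (2 * (0 + 1)) - 1 < q ^ (k + 2) := by omega
    calc (q ^ (k + 2) + 1) * (q ^ (2 * (0 + 1)) - 1)
        = q ^ (k + 2) * (q ^ (2 * (0 + 1)) - 1) + (q ^ (2 * (0 + 1)) - 1) := by ring
      _ < q ^ (k + 2) * (q ^ (2 * (0 + 1)) - 1) + q ^ (k + 2) := by omega
      _ = q ^ (k + 2) * (q ^ (2 * (0 + 1)) - 1 + 1) := by ring
      _ = q ^ (k + 2 + 2) := by rw [hc, ← pow_add]
  calc (q ^ (k + 2) + 1) *
        ((∏ i ∈ Finset.range k, (q ^ (2 * (i + 1 + 1)) - 1)) * (q ^ (2 * (0 + 1)) - 1))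
      = ((q ^ (k + 2) + 1) * (q ^ (2 * (0 + 1)) - 1)) *
        ∏ i ∈ Finset.range k, (q ^ (2 * (i + 1 + 1)) - 1) := by ring
    _ ≤ ((q ^ (k + 2) + 1) * (q ^ (2 * (0 + 1)) - 1)) * q ^ (k * k + 3 * k) :=
        Nat.mul_le_mul_left _ hP
    _ < q ^ (k + 2 + 2) * q ^ (k * k + 3 * k) :=
        Nat.mul_lt_mul_of_pos_right hlt (Nat.pow_pos hq0)
    _ = q ^ ((k + 2) ^ 2) := by
        rw [← pow_add]
        congr 1
        ring

theorem ominus_stmt : OmegaMinusStmt := by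
  intro p hp F _ _ _ m a b hm heq
  obtain ⟨f, _, hq⟩ := FiniteField.card F p
  have hf : 0 < (f : ℕ) := f.pos
  rw [hq] at heq
  have hq2 : 2 ≤ p ^ (f : ℕ) := by
    calc 2 ≤ p := hp.two_le
      _ = p ^ 1 := (pow_one p).symm
      _ ≤ p ^ (f : ℕ) := Nat.pow_le_pow_right hp.pos hf
  have hM := ltbominus_arith (p ^ (f : ℕ)) m hq2 hm
  have hfin : Finite (POmega F (quadFormMinus (m - 1) F a b)) := by
    apply Nat.finite_of_card_ne_zero
    intro h0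
    rw [h0, mul_zero] at heq
    have hpos : 0 < (p ^ (f : ℕ)) ^ (m * (m - 1)) * ((p ^ (f : ℕ)) ^ m + 1) *
        ∏ i ∈ Finset.range (m - 1), ((p ^ (f : ℕ)) ^ (2 * (i + 1)) - 1) := by
      refine Nat.mul_pos (Nat.mul_pos (Nat.pow_pos (by omega)) (by omega)) ?_
      refine Finset.prod_pos (fun i _ => ?_)
      have h1 : 2 ≤ (p ^ (f : ℕ)) ^ (2 * (i + 1)) := by
        calc 2 ≤ p ^ (f : ℕ) := hq2
          _ = (p ^ (f : ℕ)) ^ 1 := (pow_one _).symm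
          _ ≤ (p ^ (f : ℕ)) ^ (2 * (i + 1)) := Nat.pow_le_pow_right (by omega) (by omega)
      omega
    omega
  refine goal_of_q_mul_bounds p hp f (m * (m - 1)) (m ^ 2)
    (Nat.gcd 4 ((p ^ (f : ℕ)) ^ m + 1))
    (((p ^ (f : ℕ)) ^ m + 1) * ∏ i ∈ Finset.range (m - 1), ((p ^ (f : ℕ)) ^ (2 * (i + 1)) - 1))
    ?_ (heq.trans (mul_assoc _ _ _)) hM ?_
  · intro h
    have h1 : p ∣ (p ^ (f : ℕ)) ^ m + 1 := h.trans (Nat.gcd_dvd_right _ _)
    have h2 : p ∣ (p ^ (f : ℕ)) ^ m := dvd_pow (dvd_pow_self p hf.ne') (by omega)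
    have h3 : p ∣ 1 := (Nat.dvd_add_right h2).mp h1
    exact hp.one_lt.ne' (Nat.dvd_one.mp h3)
  · obtain ⟨k, rfl⟩ : ∃ k, m = k + 4 := ⟨m - 4, by omega⟩
    have hk1 : k + 4 - 1 = k + 3 := by omega
    rw [hk1]
    nlinarith [Nat.zero_le (k * k)]

end Cfsg.Agent.Lib.Lead.LTB
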