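import Mathlib

namespace Cfsg.Agent.Lib.Helper34

namespace NSubGUAux

/-- The relative index into a normal subgroup divides the index. -/
theorem relIndex_dvd_index_normal_right {G : Type*} [Group G] [Finite G] (H Q : Subgroup G)
    [Q.Normal] : H.relIndex Q ∣ H.index := by
  have h1 : H.relIndex (H ⊔ Q) ∣ H.index := Subgroup.relIndex_dvd_index_of_le le_sup_left
  have h2 : H.relIndex Q = H.relIndex (H ⊔ Q) := by
    have e1 : (H ⊓ Q).relIndex Q = H.relIndex Q := Subgroup.inf_relIndex_right _ _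
    have e2 : (H ⊓ Q).relIndex H = Q.relIndex H := Subgroup.inf_relIndex_left _ _
    have e3 : Q.relIndex (H ⊔ Q) = Q.relIndex H := Subgroup.relIndex_sup_right _ _
    have c1 := Subgroup.relIndex_mul_relIndex ⊥ Q (H ⊔ Q) bot_le le_sup_right
    have c2 := Subgroup.relIndex_mul_relIndex ⊥ H (H ⊔ Q) bot_le le_sup_left
    have c3 := Subgroup.relIndex_mul_relIndex ⊥ (H ⊓ Q) H bot_le inf_le_left
    have c4 := Subgroup.relIndex_mul_relIndex ⊥ (H ⊓ Q) Q bot_le inf_le_right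
    rw [Subgroup.relIndex_bot_left, Subgroup.relIndex_bot_left] at c1 c2 c3 c4
    rw [e3] at c1
    rw [e2] at c3
    rw [e1] at c4
    have hI : 0 < Nat.card ↥(H ⊓ Q) := Nat.card_pos
    have hQH : 0 < Q.relIndex H := by
      have : 0 < Nat.card ↥H := Nat.card_pos
      rw [← c3] at this
      exact Nat.pos_of_mul_pos_left this
    have : Nat.card ↥(H ⊓ Q) * Q.relIndex H * H.relIndex Q
        = Nat.card ↥(H ⊓ Q) * Q.relIndex H * H.relIndex (H ⊔ Q) := by
      calc Nat.card ↥(H ⊓ Q) * Q.relIndex H * H.relIndex Q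
          = (Nat.card ↥(H ⊓ Q) * H.relIndex Q) * Q.relIndex H := by ring
        _ = Nat.card ↥(H ⊔ Q) := by rw [c4, c1]
        _ = Nat.card ↥(H ⊓ Q) * Q.relIndex H * H.relIndex (H ⊔ Q) := by rw [c3, c2]
    exact Nat.eq_of_mul_eq_mul_left (Nat.mul_pos hI hQH) this
  rw [h2]; exact h1

/-- `S ⊓ N` has `p'`-index in a normal subgroup `N`. -/
theorem not_dvd_relIndex_sylow_inf {G : Type*} [Group G] [Finite G] {p : ℕ} [Fact p.Prime]
    (S : Sylow p G) (N : Subgroup G) [N.Normal] :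
    ¬ p ∣ ((S : Subgroup G) ⊓ N).relIndex N := by
  rw [Subgroup.inf_relIndex_right]
  intro h
  exact S.not_dvd_index (h.trans (relIndex_dvd_index_normal_right _ _))

/-- A `p`-subgroup between `T` and `M`, where `T` has `p'`-index in `M`, is `T`. -/
theorem le_of_pgroup_of_not_dvd_relIndex {G : Type*} [Group G] [Finite G] {p : ℕ} [Fact p.Prime]
    {T P M : Subgroup G} (hP : IsPGroup p P) (hTP : T ≤ P) (hPM : P ≤ M)
    (hTM : ¬ p ∣ T.relIndex M) : P ≤ T := by
  rw [← Subgroup.relIndex_eq_one]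
  obtain ⟨n, hn⟩ : ∃ n, T.relIndex P = p ^ n := hP.index _
  have hb : T.relIndex P ∣ T.relIndex M :=
    Dvd.intro _ (Subgroup.relIndex_mul_relIndex T P M hTP hPM)
  rcases n with _ | n
  · simpa using hn
  · exfalso
    apply hTM
    refine Dvd.dvd.trans ?_ hb
    rw [hn]
    exact dvd_pow_self p (Nat.succ_ne_zero n)

end NSubGUAux

open NSubGUAux in
theorem nsub_gu {G : Type*} [Group G] [Finite G] {p : ℕ} [Fact p.Prime] (S : Sylow p G)
    (Q T H₁ H₂ : Subgroup G) [Q.Normal] [H₁.Normal] [H₂.Normal] (hQp : IsPGroup p Q)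
    (hCQ : Subgroup.centralizer (Q : Set G) ≤ Q)
    (hT₁ : (S : Subgroup G) ⊓ H₁ = T) (hT₂ : (S : Subgroup G) ⊓ H₂ = T)
    (hN : ∀ n ∈ H₁, n ∈ Subgroup.normalizer (T : Set G) →
      ∃ n' ∈ H₂, ∀ t ∈ T, n * t * n⁻¹ = n' * t * n'⁻¹) :
    H₁ ≤ H₂ := by
  have hp : p.Prime := Fact.out
  have hQS : Q ≤ (S : Subgroup G) := hQp.le_sylow_of_normal S
  have hTS : T ≤ (S : Subgroup G) := hT₁ ▸ inf_le_left
  have hTH₁ : T ≤ H₁ := hT₁ ▸ inf_le_right
  have hTH₂ : T ≤ H₂ := hT₂ ▸ inf_le_right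
  have hTp : IsPGroup p T := S.2.to_le hTS
  have hH₁n : H₁.Normal := inferInstance
  have hH₂n : H₂.Normal := inferInstance
  have hQn : Q.Normal := inferInstance
  -- S normalizes T
  have hSN : ∀ s ∈ (S : Subgroup G), ∀ t ∈ T, s * t * s⁻¹ ∈ T := by
    intro s hs t ht
    rw [← hT₁]
    exact Subgroup.mem_inf.mpr
      ⟨mul_mem (mul_mem hs (hTS ht)) (inv_mem hs), hH₁n.conj_mem t (hTH₁ ht) s⟩
  -- M and D
  obtain ⟨M, hM⟩ : ∃ M : Subgroup G, M = H₁ ⊔ H₂ := ⟨_, rfl⟩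
  have hMn : M.Normal := by rw [hM]; infer_instance
  obtain ⟨D, hD⟩ : ∃ D : Subgroup G, D = H₁ ⊓ H₂ := ⟨_, rfl⟩
  have hDn : D.Normal := by rw [hD]; infer_instance
  have hTD : T ≤ D := by rw [hD]; exact le_inf hTH₁ hTH₂
  have hDH₁ : D ≤ H₁ := by rw [hD]; exact inf_le_left
  have hDH₂ : D ≤ H₂ := by rw [hD]; exact inf_le_right
  have hH₁M : H₁ ≤ M := by rw [hM]; exact le_sup_left
  have hH₂M : H₂ ≤ M := by rw [hM]; exact le_sup_right
  have hTM : T ≤ M := hTH₁.trans hH₁M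
  -- indices
  have hi1 : ¬ p ∣ T.relIndex H₁ := by
    have := not_dvd_relIndex_sylow_inf S H₁
    rwa [hT₁] at this
  have hi2 : ¬ p ∣ T.relIndex H₂ := by
    have := not_dvd_relIndex_sylow_inf S H₂
    rwa [hT₂] at this
  have hiD : ¬ p ∣ T.relIndex D := by
    intro hd
    apply hi1
    rw [← Subgroup.relIndex_mul_relIndex T D H₁ hTD hDH₁]
    exact Dvd.dvd.mul_right hd _
  have hiM : ¬ p ∣ T.relIndex M := by
    rw [← Subgroup.relIndex_mul_relIndex T H₁ M hTH₁ hH₁M]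
    intro hd
    rcases (Nat.Prime.dvd_mul hp).mp hd with h | h
    · exact hi1 h
    · have e1 : H₁.relIndex M = H₁.relIndex H₂ := by
        rw [hM]; exact Subgroup.relIndex_sup_left _ _
      have e2 : D.relIndex H₂ = H₁.relIndex H₂ := by
        rw [hD]; exact Subgroup.inf_relIndex_right _ _
      rw [e1, ← e2] at h
      apply hi2
      rw [← Subgroup.relIndex_mul_relIndex T D H₂ hTD hDH₂]
      exact Dvd.dvd.mul_left h _
  -- (1) S ⊓ M = T
  have h1 : (S : Subgroup G) ⊓ M = T := by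
    apply le_antisymm
    · exact le_of_pgroup_of_not_dvd_relIndex (S.2.to_le inf_le_left) (le_inf hTS hTM)
        inf_le_right hiM
    · exact le_inf hTS hTM
  -- (2a)
  have h2a : ∀ k ∈ M, k ∈ Subgroup.centralizer (T : Set G) → (orderOf k).Coprime p →
      k = 1 := by
    intro k hkM hkC hk
    have hkQ : k ∈ Subgroup.centralizer (Q : Set G) := by
      rw [Subgroup.mem_centralizer_iff]
      intro q hq
      have hvQ : q * k * q⁻¹ * k⁻¹ ∈ Q := by
        have : q * k * q⁻¹ * k⁻¹ = q * (k * q⁻¹ * k⁻¹) := by group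
        rw [this]
        exact mul_mem hq (hQn.conj_mem _ (inv_mem hq) k)
      have hvM : q * k * q⁻¹ * k⁻¹ ∈ M :=
        mul_mem (hMn.conj_mem _ hkM q) (inv_mem hkM)
      have hvT : q * k * q⁻¹ * k⁻¹ ∈ T := by
        rw [← h1]; exact Subgroup.mem_inf.mpr ⟨hQS hvQ, hvM⟩
      have hcomm : Commute (q * k * q⁻¹ * k⁻¹) k :=
        (Subgroup.mem_centralizer_iff.mp hkC _ hvT)
      have hpow : (q * k * q⁻¹) ^ (orderOf k)
          = (q * k * q⁻¹ * k⁻¹) ^ (orderOf k) * k ^ (orderOf k) := by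
        rw [← hcomm.mul_pow]; congr 1; group
      have hpow2 : (q * k * q⁻¹) ^ (orderOf k) = 1 := by
        rw [conj_pow, pow_orderOf_eq_one]; group
      rw [hpow2, pow_orderOf_eq_one, mul_one] at hpow
      have hv1 : q * k * q⁻¹ * k⁻¹ = 1 := by
        obtain ⟨a, ha⟩ := hQp ⟨_, hvQ⟩
        have ha' : (q * k * q⁻¹ * k⁻¹) ^ (p ^ a) = 1 := by
          simpa [Subtype.ext_iff] using ha
        have hd1 : orderOf (q * k * q⁻¹ * k⁻¹) ∣ p ^ a := orderOf_dvd_of_pow_eq_one ha'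
        have hd2 : orderOf (q * k * q⁻¹ * k⁻¹) ∣ orderOf k :=
          orderOf_dvd_of_pow_eq_one hpow.symm
        have hc : (orderOf (q * k * q⁻¹ * k⁻¹)).Coprime (p ^ a) :=
          Nat.Coprime.coprime_dvd_left hd2 (Nat.Coprime.pow_right a hk)
        exact orderOf_eq_one_iff.mp (Nat.Coprime.eq_one_of_dvd hc hd1)
      calc q * k = (q * k * q⁻¹ * k⁻¹) * k * q := by group
        _ = k * q := by rw [hv1, one_mul]
    have hkQ' : k ∈ Q := hCQ hkQ
    obtain ⟨a, ha⟩ := hQp ⟨k, hkQ'⟩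
    have ha' : k ^ (p ^ a) = 1 := by simpa [Subtype.ext_iff] using ha
    have hd1 : orderOf k ∣ p ^ a := orderOf_dvd_of_pow_eq_one ha'
    exact orderOf_eq_one_iff.mp
      (Nat.Coprime.eq_one_of_dvd (Nat.Coprime.pow_right a hk) hd1)
  -- (2b)
  obtain ⟨C, hC⟩ : ∃ C : Subgroup G, C = M ⊓ Subgroup.centralizer (T : Set G) := ⟨_, rfl⟩
  have hCM : C ≤ M := by rw [hC]; exact inf_le_left
  have hCc : C ≤ Subgroup.centralizer (T : Set G) := by rw [hC]; exact inf_le_right
  have hCp : IsPGroup p C := by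
    rintro ⟨c, hc⟩
    obtain ⟨a, m, hm, hcm⟩ :=
      Nat.exists_eq_pow_mul_and_not_dvd (orderOf_pos c).ne' p hp.ne_one
    have hk1 : c ^ (p ^ a) = 1 := by
      apply h2a _ (pow_mem (hCM hc) _) (pow_mem (hCc hc) _)
      have hdvd : orderOf (c ^ (p ^ a)) ∣ m := by
        apply orderOf_dvd_of_pow_eq_one
        rw [← pow_mul, ← hcm, pow_orderOf_eq_one]
      exact Nat.Coprime.coprime_dvd_left hdvd
        ((Nat.Prime.coprime_iff_not_dvd hp).mpr hm).symm
    exact ⟨a, Subtype.ext (by simpa using hk1)⟩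
  have hTC : T ≤ Subgroup.normalizer (C : Set G) := by
    intro t ht
    rw [Subgroup.mem_normalizer_iff]
    intro c
    constructor
    · intro hc
      have h2 := Subgroup.mem_centralizer_iff.mp (hCc hc) t ht
      have : t * c * t⁻¹ = c := by rw [h2]; group
      rw [this]; exact hc
    · intro hc
      have h2 := Subgroup.mem_centralizer_iff.mp (hCc hc) t ht
      have h3 : t * (t * c * t⁻¹) = t * c := by rw [h2]; group
      have h4 := mul_left_cancel h3
      rw [h4] at hc; exact hc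
  have hPp : IsPGroup p (T ⊔ C : Subgroup G) := hTp.to_sup_of_normal_right' hCp hTC
  have hCT : C ≤ T :=
    le_sup_right.trans
      (le_of_pgroup_of_not_dvd_relIndex hPp le_sup_left (sup_le hTM hCM) hiM)
  -- (3) Frattini
  let PD : Sylow p D := (hTp.comap_subtype : IsPGroup p (T.subgroupOf D)).toSylow hiD
  have hPD : (PD : Subgroup D).map D.subtype = T := by
    show (T.subgroupOf D).map D.subtype = T
    exact Subgroup.map_subgroupOf_eq_of_le hTD
  have hfr := Sylow.normalizer_sup_eq_top PD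
  rw [hPD] at hfr
  intro h hh
  have hmem : h ∈ ((Subgroup.normalizer (T : Set G) ⊔ D : Subgroup G) : Set G) := by
    rw [hfr]; trivial
  rw [Subgroup.mul_normal] at hmem
  obtain ⟨n, hn, d, hd, rfl⟩ := Set.mem_mul.mp hmem
  have hnH₁ : n ∈ H₁ := by
    have : n = (n * d) * d⁻¹ := by group
    rw [this]; exact mul_mem hh (inv_mem (hDH₁ hd))
  obtain ⟨n', hn', hnn'⟩ := hN n hnH₁ hn
  have hcent : n'⁻¹ * n ∈ C := by
    rw [hC]
    refine Subgroup.mem_inf.mpr ⟨mul_mem (inv_mem (hH₂M hn')) (hH₁M hnH₁), ?_⟩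
    rw [Subgroup.mem_centralizer_iff]
    intro t ht
    have := hnn' t ht
    calc t * (n'⁻¹ * n) = n'⁻¹ * (n' * t * n'⁻¹) * n := by group
      _ = n'⁻¹ * (n * t * n⁻¹) * n := by rw [this]
      _ = n'⁻¹ * n * t := by group
  have hnH₂ : n ∈ H₂ := by
    have : n = n' * (n'⁻¹ * n) := by group
    rw [this]; exact mul_mem hn' (hTH₂ (hCT hcent))
  exact mul_mem hnH₂ (hDH₂ hd)

end Cfsg.Agent.Lib.Helper34
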