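import Mathlib
import Cfsg.Agent.Lib.Helper34.Narrow2
import Cfsg.Prelude.Def_OddOrderLocal

/-!
# Narrow p-groups, part 3 (helper34)

`narrow_core` / `narrow_aut` : for a narrow `p`-group `R` (`p` odd) of rank at least 3, `MulAut R`
has a normal `p`-subgroup `N` with `MulAut R / N` abelian of exponent dividing `p - 1`.
-/

set_option autoImplicit false

namespace Cfsg.Agent.Lib.Helper34

open Cfsg

section narrow3

universe u

variable {R : Type u} [Group R] [Finite R] {p : ℕ} [Fact p.Prime]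

theorem comm_of_conj_eq {m m' s : R} (e : m * s * m⁻¹ * s⁻¹ = m' * s * m'⁻¹ * s⁻¹) :
    m⁻¹ * m' * s = s * (m⁻¹ * m') := by
  have e2 : m * s * m⁻¹ = m' * s * m'⁻¹ := mul_right_cancel e
  calc m⁻¹ * m' * s = m⁻¹ * (m' * s * m'⁻¹) * m' := by group
    _ = m⁻¹ * (m * s * m⁻¹) * m' := by rw [e2]
    _ = s * (m⁻¹ * m') := by group

theorem narrow_gen (R₀ : Subgroup R) (h0 : Nat.card R₀ = p) {s : R} (hs : s ∈ R₀) (hs1 : s ≠ 1) :
    ∀ x ∈ R₀, x ∈ Subgroup.zpowers s := by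
  intro x hx
  have h := mem_zpowers_of_prime_card (G := ↥R₀) h0 (g := ⟨s, hs⟩) (g' := ⟨x, hx⟩)
    (by intro h; exact hs1 (congrArg Subtype.val h))
  obtain ⟨k, hk⟩ := h
  refine ⟨k, ?_⟩
  have := congrArg Subtype.val hk
  simpa using this

theorem narrow_mem_centralizer (R₀ : Subgroup R) (h0 : Nat.card R₀ = p) {s : R} (hs : s ∈ R₀)
    (hs1 : s ≠ 1) (g : R) (hg : g * s = s * g) : g ∈ Subgroup.centralizer (R₀ : Set R) := by
  rw [Subgroup.mem_centralizer_iff]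
  intro x hx
  obtain ⟨k, rfl⟩ := narrow_gen R₀ h0 hs hs1 x hx
  exact ((Commute.zpow_right (show Commute g s from hg) k)).eq.symm

theorem narrow_inf_eq_bot (R₀ : Subgroup R) (h0 : Nat.card R₀ = p) {s : R} (hs : s ∈ R₀)
    (X : Subgroup R) (hsX : s ∉ X) : R₀ ⊓ X = ⊥ := by
  rw [eq_bot_iff]
  rintro x ⟨hx0, hxX⟩
  rw [Subgroup.mem_bot]
  by_contra hx1
  apply hsX
  obtain ⟨k, hk⟩ := narrow_gen R₀ h0 hx0 hx1 s hs
  rw [← hk]
  exact X.zpow_mem hxX k

theorem narrow_pow (R₀ : Subgroup R) (h0 : Nat.card R₀ = p) : ∀ a ∈ R₀, a ^ p = 1 := by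
  intro a ha
  have h : (⟨a, ha⟩ : ↥R₀) ^ p = 1 := by rw [← h0]; exact pow_card_eq_one'
  exact congrArg Subtype.val h

/-- the elements of order dividing `p` in `C_R(R₀) = R₀ × R₁` -/
theorem narrow_omega_card (R₀ R₁ : Subgroup R) (h0 : Nat.card R₀ = p) (h1 : IsCyclic R₁)
    (hcomm : ∀ a ∈ R₀, ∀ b ∈ R₁, a * b = b * a)
    (hcent : R₀ ⊔ R₁ = Subgroup.centralizer (R₀ : Set R)) :
    Nat.card {x : R // x ∈ Subgroup.centralizer (R₀ : Set R) ∧ x ^ p = 1} ≤ p ^ 2 := by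
  classical
  have hp := (Fact.out : p.Prime)
  have hdec : ∀ x ∈ Subgroup.centralizer (R₀ : Set R), ∃ a : ↥R₀, ∃ b : ↥R₁,
      x = (a : R) * (b : R) := by
    intro x hx
    rw [← hcent] at hx
    have hr := MonoidHom.noncommCoprod_range R₀.subtype R₁.subtype
      (fun m n => hcomm m.1 m.2 n.1 n.2)
    rw [Subgroup.range_subtype, Subgroup.range_subtype] at hr
    rw [← hr] at hx
    obtain ⟨⟨a, b⟩, hab⟩ := hx
    exact ⟨a, b, hab.symm⟩
  have ex : ∀ x : {x : R // x ∈ Subgroup.centralizer (R₀ : Set R) ∧ x ^ p = 1},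
      ∃ ab : ↥R₀ × {b : ↥R₁ // b ^ p = 1}, (x : R) = (ab.1 : R) * ((ab.2 : ↥R₁) : R) := by
    rintro ⟨x, hx, hxp⟩
    obtain ⟨a, b, hab⟩ := hdec x hx
    have hap : (a : R) ^ p = 1 := narrow_pow R₀ h0 a a.2
    have hbp : b ^ p = 1 := by
      apply Subtype.ext
      have hc : Commute (a : R) (b : R) := hcomm a a.2 b b.2
      have h2 : (a : R) ^ p * (b : R) ^ p = 1 := by rw [← hc.mul_pow, ← hab, hxp]
      rw [hap, one_mul] at h2
      exact h2
    exact ⟨(a, ⟨b, hbp⟩), hab⟩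
  choose f hf using ex
  have finj : Function.Injective f := by
    intro x y hxy
    apply Subtype.ext
    rw [hf x, hf y, hxy]
  have h2 := Nat.card_le_card_of_injective f finj
  rw [Nat.card_prod, h0] at h2
  have h3 : Nat.card {b : ↥R₁ // b ^ p = 1} ≤ p := by
    haveI := Fintype.ofFinite ↥R₁
    rw [Nat.card_eq_fintype_card, Fintype.card_subtype]
    exact IsCyclic.card_pow_eq_one_le hp.pos
  calc Nat.card {x : R // x ∈ Subgroup.centralizer (R₀ : Set R) ∧ x ^ p = 1}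
      ≤ p * Nat.card {b : ↥R₁ // b ^ p = 1} := h2
    _ ≤ p * p := Nat.mul_le_mul_left _ h3
    _ = p ^ 2 := (sq p).symm

/-- a subgroup of exponent `p` avoiding `R₀` meets `C_R(R₀)` in at most `p` elements -/
theorem narrow_inf_card (R₀ R₁ : Subgroup R) (h0 : Nat.card R₀ = p) (h1 : IsCyclic R₁)
    (hcomm : ∀ a ∈ R₀, ∀ b ∈ R₁, a * b = b * a)
    (hcent : R₀ ⊔ R₁ = Subgroup.centralizer (R₀ : Set R))
    (X : Subgroup R) (hXe : ∀ x ∈ X, x ^ p = 1) (hX0 : R₀ ⊓ X = ⊥) :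
    Nat.card ↥(X ⊓ Subgroup.centralizer (R₀ : Set R)) ≤ p := by
  have hp := (Fact.out : p.Prime)
  have hC := narrow_omega_card R₀ R₁ h0 h1 hcomm hcent
  have hR₀C : R₀ ≤ Subgroup.centralizer (R₀ : Set R) := by rw [← hcent]; exact le_sup_left
  let g : ↥(X ⊓ Subgroup.centralizer (R₀ : Set R)) × ↥R₀ →
      {x : R // x ∈ Subgroup.centralizer (R₀ : Set R) ∧ x ^ p = 1} :=
    fun xa => ⟨(xa.1 : R) * (xa.2 : R), ⟨Subgroup.mul_mem _ xa.1.2.2 (hR₀C xa.2.2), by
      have hc : Commute (xa.1 : R) (xa.2 : R) :=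
        (Subgroup.mem_centralizer_iff.mp xa.1.2.2 xa.2 xa.2.2).symm
      rw [hc.mul_pow, hXe _ xa.1.2.1, narrow_pow R₀ h0 _ xa.2.2, one_mul]⟩⟩
  have ginj : Function.Injective g := by
    rintro ⟨x, a⟩ ⟨x', a'⟩ h
    have e : (x : R) * (a : R) = (x' : R) * (a' : R) := congrArg Subtype.val h
    have e2 : (a : R) * (a' : R)⁻¹ = (x : R)⁻¹ * (x' : R) := by
      calc (a : R) * (a' : R)⁻¹ = (x : R)⁻¹ * ((x : R) * (a : R)) * (a' : R)⁻¹ := by group
        _ = (x : R)⁻¹ * ((x' : R) * (a' : R)) * (a' : R)⁻¹ := by rw [e]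
        _ = (x : R)⁻¹ * (x' : R) := by group
    have hmem : (a : R) * (a' : R)⁻¹ ∈ R₀ ⊓ X :=
      ⟨R₀.mul_mem a.2 (R₀.inv_mem a'.2), by rw [e2]; exact X.mul_mem (X.inv_mem x.2.1) x'.2.1⟩
    rw [hX0, Subgroup.mem_bot] at hmem
    have ha : (a : R) = a' := mul_inv_eq_one.mp hmem
    have hx : (x : R) = x' := by
      rw [ha] at e
      exact mul_right_cancel e
    exact Prod.ext (Subtype.ext hx) (Subtype.ext ha)
  have h2 := Nat.card_le_card_of_injective g ginj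
  rw [Nat.card_prod, h0] at h2
  have h3 : Nat.card ↥(X ⊓ Subgroup.centralizer (R₀ : Set R)) * p ≤ p * p := by
    rw [← sq]; exact h2.trans hC
  exact Nat.le_of_mul_le_mul_right h3 hp.pos

/-- an elementary abelian subgroup through `R₀` has order at most `p ^ 2` -/
theorem narrow_elemAb_card (R₀ R₁ : Subgroup R) (h0 : Nat.card R₀ = p) (h1 : IsCyclic R₁)
    (hcomm : ∀ a ∈ R₀, ∀ b ∈ R₁, a * b = b * a)
    (hcent : R₀ ⊔ R₁ = Subgroup.centralizer (R₀ : Set R))
    (E : Subgroup R) (hE : IsElementaryAbelian p E) {s : R} (hs : s ∈ R₀) (hs1 : s ≠ 1)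
    (hsE : s ∈ E) : Nat.card E ≤ p ^ 2 := by
  have hC := narrow_omega_card R₀ R₁ h0 h1 hcomm hcent
  refine le_trans (Nat.card_le_card_of_injective
    (fun e : ↥E => (⟨e.1, ⟨narrow_mem_centralizer R₀ h0 hs hs1 e.1
      (Cfsg.Agent.Lib.Helper31.isMulComm_iff.mp hE.1 e.1 e.2 s hsE), hE.2 e.1 e.2⟩⟩ :
      {x : R // x ∈ Subgroup.centralizer (R₀ : Set R) ∧ x ^ p = 1})) ?_) hC
  intro e e' h
  have h' := congrArg Subtype.val h
  exact Subtype.ext h'

/-- `C_R(R₀)` has index greater than `p` -/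
theorem narrow_index_gt (hR : IsPGroup p R) (hn : ¬ PRankLE p 2 R)
    (R₀ R₁ : Subgroup R) (h0 : Nat.card R₀ = p) (h1 : IsCyclic R₁)
    (hcomm : ∀ a ∈ R₀, ∀ b ∈ R₁, a * b = b * a)
    (hcent : R₀ ⊔ R₁ = Subgroup.centralizer (R₀ : Set R)) {s : R} (hs : s ∈ R₀) (hs1 : s ≠ 1) :
    ¬ (Nat.card R ≤ p * Nat.card ↥(Subgroup.centralizer (R₀ : Set R))) := by
  have hp := (Fact.out : p.Prime)
  intro hle
  obtain ⟨E, hE, hEc⟩ := Cfsg.Agent.Lib.Helper31.exists_of_not_pRankLE_top hn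
  have hR₀C : R₀ ≤ Subgroup.centralizer (R₀ : Set R) := by rw [← hcent]; exact le_sup_left
  set C := Subgroup.centralizer (R₀ : Set R) with hCdef
  have hidx : C.index ≤ p := by
    have h1 := Subgroup.card_mul_index C
    rw [← h1] at hle
    have h2 : 0 < Nat.card C := Nat.card_pos
    rw [mul_comm p] at hle
    exact Nat.le_of_mul_le_mul_left hle h2
  have h2 := card_le_inf_mul_of_fibers E C (fun e => (QuotientGroup.mk (e : R) : R ⧸ C)) (by
    intro m m' h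
    exact QuotientGroup.eq.mp h)
  have h3 : Nat.card ↥E ≤ Nat.card ↥(E ⊓ C) * p := h2.trans (Nat.mul_le_mul_left _ hidx)
  obtain ⟨j, hj⟩ := IsPGroup.iff_card.mp (hR.to_subgroup (E ⊓ C))
  have hj2 : 2 ≤ j := by
    by_contra hj2
    have hj1 : j ≤ 1 := by omega
    have h4 : Nat.card ↥(E ⊓ C) ≤ p := by
      rw [hj]
      calc p ^ j ≤ p ^ 1 := Nat.pow_le_pow_right hp.pos hj1
        _ = p := pow_one p
    have h5 : Nat.card ↥E ≤ p * p := h3.trans (Nat.mul_le_mul_right _ h4)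
    rw [sq] at hEc
    omega
  have h4 : p ^ 2 ≤ Nat.card ↥(E ⊓ C) := by rw [hj]; exact Nat.pow_le_pow_right hp.pos hj2
  have hΩ := narrow_omega_card R₀ R₁ h0 h1 hcomm hcent
  let ι : ↥(E ⊓ C) → {x : R // x ∈ Subgroup.centralizer (R₀ : Set R) ∧ x ^ p = 1} :=
    fun e => ⟨e.1, ⟨e.2.2, hE.2 e.1 e.2.1⟩⟩
  have hι : Function.Injective ι := by
    intro e e' h
    have h' := congrArg Subtype.val h
    exact Subtype.ext h'
  have hbij := hι.bijective_of_nat_card_le (hΩ.trans h4)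
  obtain ⟨e, he⟩ := hbij.2 ⟨s, ⟨hR₀C hs, narrow_pow R₀ h0 s hs⟩⟩
  have hsE : s ∈ E := by
    have h5 : (e : R) = s := congrArg Subtype.val he
    rw [← h5]
    exact e.2.1
  have h6 := narrow_elemAb_card R₀ R₁ h0 h1 hcomm hcent E hE hs hs1 hsE
  omega

/-- the generator of `R₀` does not lie in the second centre -/
theorem narrow_not_mem_Z2 (hR : IsPGroup p R) (hn : ¬ PRankLE p 2 R)
    (R₀ R₁ : Subgroup R) (h0 : Nat.card R₀ = p) (h1 : IsCyclic R₁)
    (hcomm : ∀ a ∈ R₀, ∀ b ∈ R₁, a * b = b * a)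
    (hcent : R₀ ⊔ R₁ = Subgroup.centralizer (R₀ : Set R)) {s : R} (hs : s ∈ R₀) (hs1 : s ≠ 1) :
    s ∉ Subgroup.upperCentralSeries R 2 := by
  have hp := (Fact.out : p.Prime)
  intro hsZ
  have hgt := narrow_index_gt hR hn R₀ R₁ h0 h1 hcomm hcent hs hs1
  have hsp := narrow_pow R₀ h0 s hs
  have hsZ' : ∀ r : R, s * r * s⁻¹ * r⁻¹ ∈ Subgroup.center R := by
    intro r
    have h := (Subgroup.mem_upperCentralSeries_succ_iff.mp hsZ) r
    rw [Subgroup.upperCentralSeries_one, commutatorElement_def] at h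
    exact h
  have hsnc : s ∉ Subgroup.center R := by
    intro hsc
    apply hgt
    have h : Subgroup.centralizer (R₀ : Set R) = ⊤ := by
      rw [eq_top_iff]
      intro g _
      exact narrow_mem_centralizer R₀ h0 hs hs1 g (Subgroup.mem_center_iff.mp hsc g)
    rw [h, Subgroup.card_top]
    exact Nat.le_mul_of_pos_left _ hp.pos
  set ZΩ := Cfsg.Agent.Lib.Helper31.omegaOne p (Subgroup.center R) inferInstance with hZΩ
  have hZΩC : ZΩ ≤ Subgroup.centralizer (R₀ : Set R) := by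
    intro z hz
    rw [Subgroup.mem_centralizer_iff]
    intro h _
    exact Subgroup.mem_center_iff.mp hz.1 h
  have hZΩcard : Nat.card ↥ZΩ ≤ p := by
    have h2 := narrow_inf_card R₀ R₁ h0 h1 hcomm hcent ZΩ (fun x hx => hx.2)
      (narrow_inf_eq_bot R₀ h0 hs ZΩ (fun h => hsnc h.1))
    rwa [inf_eq_left.mpr hZΩC] at h2
  have hmem : ∀ r : R, r * s * r⁻¹ * s⁻¹ ∈ ZΩ := by
    intro r
    have hz : r * s * r⁻¹ * s⁻¹ ∈ Subgroup.center R := by
      have h := Subgroup.inv_mem _ (hsZ' r)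
      have e : (s * r * s⁻¹ * r⁻¹)⁻¹ = r * s * r⁻¹ * s⁻¹ := by group
      rwa [e] at h
    refine ⟨hz, ?_⟩
    have e1 : r * s * r⁻¹ = (r * s * r⁻¹ * s⁻¹) * s := by group
    have hc : Commute (r * s * r⁻¹ * s⁻¹) s := (Subgroup.mem_center_iff.mp hz s).symm
    have e2 : ((r * s * r⁻¹ * s⁻¹) * s) ^ p = 1 := by
      rw [← e1, conj_pow, hsp]; group
    rw [hc.mul_pow, hsp, mul_one] at e2
    exact e2
  have h3 := card_le_inf_mul_of_fibers (⊤ : Subgroup R) (Subgroup.centralizer (R₀ : Set R))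
    (fun m => (⟨_, hmem m.1⟩ : ↥ZΩ)) (by
      intro m m' hmm
      apply narrow_mem_centralizer R₀ h0 hs hs1
      exact comm_of_conj_eq (congrArg Subtype.val hmm))
  apply hgt
  calc Nat.card R = Nat.card ↥(⊤ : Subgroup R) := Subgroup.card_top.symm
    _ ≤ Nat.card ↥((⊤ : Subgroup R) ⊓ Subgroup.centralizer (R₀ : Set R)) * Nat.card ↥ZΩ := h3
    _ ≤ Nat.card ↥(Subgroup.centralizer (R₀ : Set R)) * p :=
        Nat.mul_le_mul (Subgroup.card_le_of_le inf_le_right) hZΩcard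
    _ = p * Nat.card ↥(Subgroup.centralizer (R₀ : Set R)) := mul_comm _ _

/-- **Automorphisms of narrow `p`-groups of rank at least 3.** -/
theorem narrow_core (hp2 : p ≠ 2) (hR : IsPGroup p R) (hn : ¬ PRankLE p 2 R)
    (R₀ R₁ : Subgroup R) (h0 : Nat.card R₀ = p) (h1 : IsCyclic R₁)
    (hcomm : ∀ a ∈ R₀, ∀ b ∈ R₁, a * b = b * a)
    (hcent : R₀ ⊔ R₁ = Subgroup.centralizer (R₀ : Set R)) :
    ∃ N : Subgroup (MulAut R), N.Normal ∧ IsPGroup p N ∧
      (∀ α β : MulAut R, α * β * α⁻¹ * β⁻¹ ∈ N) ∧ (∀ α : MulAut R, α ^ (p - 1) ∈ N) := by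
  have hp := (Fact.out : p.Prime)
  obtain ⟨s, hs, hs1⟩ : ∃ s ∈ R₀, s ≠ 1 := by
    by_contra hcon
    push Not at hcon
    have h : R₀ = ⊥ := (Subgroup.eq_bot_iff_forall R₀).mpr hcon
    rw [h, Subgroup.card_bot] at h0
    exact hp.one_lt.ne h0
  have hgenC := narrow_mem_centralizer R₀ h0 hs hs1
  have hsZ2 := narrow_not_mem_Z2 hR hn R₀ R₁ h0 h1 hcomm hcent hs hs1
  have hZ2cen : ∀ a ∈ Subgroup.upperCentralSeries R 2, ∀ b ∈ Subgroup.upperCentralSeries R 2,
      ∀ c ∈ Subgroup.upperCentralSeries R 2,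
      c * (a * b * a⁻¹ * b⁻¹) = (a * b * a⁻¹ * b⁻¹) * c := by
    intro a ha b _ c _
    have h := (Subgroup.mem_upperCentralSeries_succ_iff.mp ha) b
    rw [Subgroup.upperCentralSeries_one, commutatorElement_def] at h
    exact Subgroup.mem_center_iff.mp h c
  set Ω := Subgroup.closure {y : R | y ∈ Subgroup.upperCentralSeries R 2 ∧ y ^ p = 1} with hΩ
  have hΩchar : Ω.Characteristic := omega_char p _ inferInstance
  have hΩexp : ∀ w ∈ Ω, w ^ p = 1 := omega_exp hp2 hR _ hZ2cen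
  have hsΩ : s ∉ Ω := fun h => hsZ2 (omega_le p _ h)
  have hΩC : Nat.card ↥(Ω ⊓ Subgroup.centralizer (R₀ : Set R)) ≤ p :=
    narrow_inf_card R₀ R₁ h0 h1 hcomm hcent Ω hΩexp (narrow_inf_eq_bot R₀ h0 hs Ω hsΩ)
  have hΩuniq := uniserial' hR Ω s _ hgenC hΩC
  -- T
  obtain ⟨E, hE, hEc⟩ := Cfsg.Agent.Lib.Helper31.exists_of_not_pRankLE_top hn
  obtain ⟨N₀, hN₀n, hN₀e, hN₀c⟩ := Cfsg.Agent.Lib.Helper31.exists_normal_elemAb_sq hR hE hEc
  haveI := hN₀n
  obtain ⟨T, hTN₀, hTn, hTc⟩ := Cfsg.Agent.Lib.Helper31.exists_normal_le_card_eq hR (N := N₀)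
    (k := 2) hN₀c
  have hTe : ∀ t ∈ T, t ^ p = 1 := fun t ht => hN₀e.2 t (hTN₀ ht)
  haveI := hTn
  obtain ⟨K, hKT, hKn, hKc⟩ := Cfsg.Agent.Lib.Helper31.exists_normal_le_card_eq hR (N := T)
    (k := 1) (by rw [hTc]; exact Nat.pow_le_pow_right hp.pos (by norm_num))
  haveI := hKn
  have hKcen : K ≤ Subgroup.center R := by
    have h := le_cmod_of_card hR (N := K) (K := ⊥) bot_le
      (by rw [hKc, Subgroup.card_bot, pow_one, mul_one])
    intro k hk
    rw [Subgroup.mem_center_iff]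
    intro g
    have h2 := mem_cmod.mp (h hk) g
    rw [Subgroup.mem_bot] at h2
    calc g * k = (k * g * k⁻¹ * g⁻¹)⁻¹ * (k * g) := by group
      _ = k * g := by rw [h2, inv_one, one_mul]
  have hTcmod : T ≤ cmod K := le_cmod_of_card hR hKT (by rw [hTc, hKc]; ring)
  have hTZ2 : T ≤ Subgroup.upperCentralSeries R 2 := by
    intro t ht
    refine Subgroup.mem_upperCentralSeries_succ_iff.mpr ?_
    intro y
    rw [Subgroup.upperCentralSeries_one, commutatorElement_def]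
    exact hKcen (mem_cmod.mp (hTcmod ht) y)
  have hTΩ : T ≤ Ω := fun t ht => Subgroup.subset_closure ⟨hTZ2 ht, hTe t ht⟩
  have hTchar : T.Characteristic := char_of_unique Ω hΩchar hΩuniq T hTn hTΩ
  -- S
  haveI := hTchar
  have hSchar : (Subgroup.centralizer (T : Set R)).Characteristic := inferInstance
  have hsS : s ∉ Subgroup.centralizer (T : Set R) := by
    intro hsS
    have hTC : T ≤ Subgroup.centralizer (R₀ : Set R) := by
      intro t ht
      apply hgenC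
      exact Subgroup.mem_centralizer_iff.mp hsS t ht
    have h2 := narrow_inf_card R₀ R₁ h0 h1 hcomm hcent T hTe
      (narrow_inf_eq_bot R₀ h0 hs T (fun h => hsΩ (hTΩ h)))
    rw [inf_eq_left.mpr hTC, hTc] at h2
    have h3 : p < p ^ 2 := by
      rw [sq]
      exact lt_mul_self hp.one_lt
    omega
  have hcS : Nat.card R = p * Nat.card ↥(Subgroup.centralizer (T : Set R)) := by
    have h2 := Cfsg.Agent.Lib.Helper31.card_le_mul_card_inf_centralizer hR hTc (⊤ : Subgroup R)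
    rw [Subgroup.card_top, top_inf_eq] at h2
    have h3 := Subgroup.card_mul_index (Subgroup.centralizer (T : Set R))
    have hidx1 : (Subgroup.centralizer (T : Set R)).index ≠ 1 := by
      intro h
      rw [Subgroup.index_eq_one] at h
      exact hsS (h ▸ Subgroup.mem_top s)
    have hidxp : (Subgroup.centralizer (T : Set R)).index ≤ p := by
      rw [← h3, mul_comm p] at h2
      exact Nat.le_of_mul_le_mul_left h2 Nat.card_pos
    have hidxdvd : (Subgroup.centralizer (T : Set R)).index ∣ Nat.card R :=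
      Subgroup.index_dvd_card _
    obtain ⟨n, hn'⟩ := IsPGroup.iff_card.mp hR
    rw [hn'] at hidxdvd
    obtain ⟨j, hj, hjeq⟩ := (Nat.dvd_prime_pow hp).mp hidxdvd
    have h4 : (Subgroup.centralizer (T : Set R)).index = p := by
      rcases Nat.eq_zero_or_pos j with h0' | hpos
      · rw [h0', pow_zero] at hjeq
        exact absurd hjeq hidx1
      · have h5 : p ≤ (Subgroup.centralizer (T : Set R)).index := by
          rw [hjeq]
          calc p = p ^ 1 := (pow_one p).symm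
            _ ≤ p ^ j := Nat.pow_le_pow_right hp.pos hpos
        omega
    rw [← h3, h4, mul_comm]
  -- W, X
  obtain ⟨W, hWchar, hWexp, hWfaith⟩ :=
    exists_faithful_omega (S := ↥(Subgroup.centralizer (T : Set R))) p hp2
      (hR.to_subgroup _)
  have hXS : W.map (Subgroup.centralizer (T : Set R)).subtype ≤ Subgroup.centralizer (T : Set R) := by
    rintro _ ⟨w, _, rfl⟩
    exact w.2
  have hXchar : (W.map (Subgroup.centralizer (T : Set R)).subtype).Characteristic := by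
    rw [Subgroup.characteristic_iff_le_comap]
    intro ϕ
    rintro _ ⟨w, hw, rfl⟩
    exact ⟨resChar _ hSchar ϕ w, mem_of_char hWchar (resChar _ hSchar ϕ) hw, rfl⟩
  have hXexp : ∀ x ∈ W.map (Subgroup.centralizer (T : Set R)).subtype, x ^ p = 1 := by
    rintro _ ⟨w, hw, rfl⟩
    have h := hWexp w hw
    exact congrArg Subtype.val h
  have hXC : Nat.card ↥(W.map (Subgroup.centralizer (T : Set R)).subtype ⊓
      Subgroup.centralizer (R₀ : Set R)) ≤ p :=
    narrow_inf_card R₀ R₁ h0 h1 hcomm hcent _ hXexp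
      (narrow_inf_eq_bot R₀ h0 hs _ (fun h => hsS (hXS h)))
  have hXuniq := uniserial' hR _ s _ hgenC hXC
  apply chain_normal_pgroup hR _ _ hXchar hSchar hcS hXuniq
  intro β hβ hβX x hx
  have h2 : resChar _ hSchar β = 1 := by
    apply hWfaith
    · exact Nat.Coprime.coprime_dvd_left (orderOf_map_dvd (resChar _ hSchar) β) hβ
    · intro w hw
      apply Subtype.ext
      exact hβX w ⟨w, hw, rfl⟩
  have h3 : resChar _ hSchar β ⟨x, hx⟩ = ⟨x, hx⟩ := by rw [h2]; rfl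
  exact congrArg Subtype.val h3

/-- `narrow_core` for the predicate `IsNarrow`. -/
theorem narrow_aut (hp2 : p ≠ 2) (hR : IsPGroup p R) (hRn : IsNarrow p R)
    (hn : ¬ PRankLE p 2 R) :
    ∃ N : Subgroup (MulAut R), N.Normal ∧ IsPGroup p N ∧
      (∀ α β : MulAut R, α * β * α⁻¹ * β⁻¹ ∈ N) ∧ (∀ α : MulAut R, α ^ (p - 1) ∈ N) := by
  rcases hRn with h | ⟨R₀, R₁, h0, h1, -, hcomm, hcent⟩
  · exact absurd h hn
  · exact narrow_core hp2 hR hn R₀ R₁ h0 h1 hcomm hcent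

end narrow3

end Cfsg.Agent.Lib.Helper34
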