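import Mathlib
import Cfsg.Agent.Lib.Helper34.Narrow3
import Cfsg.Agent.Lib.Helper34.Rank2c
import Cfsg.Agent.Lib.Helper34.Rank2d
import Cfsg.Agent.Lib.Helper34.PLen2
import Cfsg.Agent.Lib.Helper34.CN2

/-!
# Narrow p-groups, part 4 (helper34)

* `prankLE_of_sylow`, `isNarrow_of_mulEquiv`, `plength_one_mem_pCore'`
* `narrow_quotient_core` : the structure of `G / O_{p'}(G)` for a solvable group of odd order with a
  narrow Sylow `p`-subgroup of rank at least 3 and `p`-length 1.
-/

set_option autoImplicit false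

namespace Cfsg.Agent.Lib.Helper34

open Cfsg

section narrow4

universe u v

theorem prankLE_of_sylow {G : Type*} [Group G] [Finite G] (p k : ℕ) [Fact p.Prime]
    (S : Sylow p G) (h : PRankLE p k ↥(S : Subgroup G)) : PRankLE p k G := by
  intro A hAc hAp
  have hApg : IsPGroup p A := by
    rintro ⟨a, ha⟩
    exact ⟨1, Subtype.ext (by simpa using hAp a ha)⟩
  obtain ⟨Q, hQ⟩ := hApg.exists_le_sylow
  obtain ⟨g, hg⟩ := MulAction.exists_smul_eq G Q S
  have hmem : ∀ a : ↥A, g * (a : G) * g⁻¹ ∈ (S : Subgroup G) := by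
    intro a
    rw [← hg, mem_sylow_smul]
    have e : g⁻¹ * (g * (a : G) * g⁻¹) * g = a := by group
    rw [e]
    exact hQ a.2
  let f : ↥A →* ↥(S : Subgroup G) :=
    { toFun := fun a => ⟨g * (a : G) * g⁻¹, hmem a⟩
      map_one' := Subtype.ext (by simp)
      map_mul' := fun a b => Subtype.ext (by
        show g * ((a : G) * (b : G)) * g⁻¹ = (g * (a : G) * g⁻¹) * (g * (b : G) * g⁻¹)
        group) }
  have hf : Function.Injective f := by
    intro a b hab
    have h1 : g * (a : G) * g⁻¹ = g * (b : G) * g⁻¹ := congrArg Subtype.val hab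
    exact Subtype.ext (mul_left_cancel (mul_right_cancel h1))
  have h2 := prankLE_of_injective p k f hf h
  have h3 := h2 ⊤ ⟨⟨fun a b => Subtype.ext (hAc.is_comm.comm a.1 b.1)⟩⟩
    (fun a _ => Subtype.ext (hAp a a.2))
  rwa [Subgroup.card_top] at h3

theorem isNarrow_of_mulEquiv {R : Type u} {R' : Type v} [Group R] [Group R'] (p : ℕ)
    (e : R ≃* R') (h : IsNarrow p R) : IsNarrow p R' := by
  rcases h with h | ⟨R₀, R₁, h0, h1, h01, hcomm, hcent⟩
  · left
    exact prankLE_of_injective p 2 e.symm.toMonoidHom e.symm.injective h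
  · right
    refine ⟨R₀.map e.toMonoidHom, R₁.map e.toMonoidHom, ?_, ?_, ?_, ?_, ?_⟩
    · rw [Subgroup.card_map_of_injective e.injective]
      exact h0
    · haveI := h1
      exact isCyclic_of_surjective (e.subgroupMap R₁) (e.subgroupMap R₁).surjective
    · rw [← Subgroup.map_inf _ _ _ e.injective, h01, Subgroup.map_bot]
    · rintro _ ⟨a, ha, rfl⟩ _ ⟨b, hb, rfl⟩
      show e a * e b = e b * e a
      rw [← map_mul, ← map_mul, hcomm a ha b hb]
    · rw [← Subgroup.map_sup, hcent]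
      ext x
      constructor
      · rintro ⟨y, hy, rfl⟩
        rw [Subgroup.mem_centralizer_iff]
        rintro _ ⟨h₀, hh₀, rfl⟩
        show e h₀ * e y = e y * e h₀
        rw [← map_mul, ← map_mul, Subgroup.mem_centralizer_iff.mp hy h₀ hh₀]
      · intro hx
        refine ⟨e.symm x, ?_, e.apply_symm_apply x⟩
        show e.symm x ∈ Subgroup.centralizer (R₀ : Set R)
        rw [Subgroup.mem_centralizer_iff]
        intro h₀ hh₀
        apply e.injective
        rw [map_mul, map_mul, e.apply_symm_apply]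
        exact Subgroup.mem_centralizer_iff.mp hx (e h₀) ⟨h₀, hh₀, rfl⟩

theorem plength_one_mem_pCore' {G : Type*} [Group G] [Finite G] (p : ℕ) [Fact p.Prime]
    (hpl : PLengthLE p 1 G) (x : G) (k : ℕ) (hx : x ^ (p ^ k) ∈ pPrimeCore p G) :
    QuotientGroup.mk' (pPrimeCore p G) x ∈ pCore p (G ⧸ pPrimeCore p G) := by
  have key : ∀ (K : Subgroup G) [K.Normal], K = (upperPSeries p G 1).1 → x ^ (p ^ k) ∈ K →
      QuotientGroup.mk' K x ∈ pCore p (G ⧸ K) := by
    intro K _ h hxK
    subst h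
    exact plength_one_mem_pCore p hpl x k hxK
  exact key _ (upperPSeries_one_eq p).symm hx

/-- the analogue of `rank2_quotient_core` for narrow Sylow subgroups of rank at least 3 -/
theorem narrow_quotient_core {G : Type u} [Group G] [Finite G] [Group.IsSolvable G]
    (hodd : Odd (Nat.card G)) (p : ℕ) [Fact p.Prime] (hp : p ≠ 2) (S : Sylow p G)
    (hS : IsNarrow p ↥(S : Subgroup G)) (hn : ¬ PRankLE p 2 ↥(S : Subgroup G))
    (hpl : PLengthLE p 1 G) :
    IsPGroup p (commutator (G ⧸ pPrimeCore p G)) ∧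
      ∀ q : ℕ, q.Prime → q ∣ (pPrimeCore p G).index → q ≤ p := by
  have hpp : p.Prime := Fact.out
  have hKc : (Nat.card (pPrimeCore p G)).Coprime p := Helper30.pPrimeCore_coprime p
  have hRp : IsPGroup p ↥(pCore p (G ⧸ pPrimeCore p G)) := Helper30.pCore_isPGroup p
  have hcent : Subgroup.centralizer (pCore p (G ⧸ pPrimeCore p G) : Set (G ⧸ pPrimeCore p G)) ≤
      pCore p (G ⧸ pPrimeCore p G) :=
    solv_centralizer_pCore_le p (Helper30.pPrimeCore_quotient_eq_bot p)
  have hmem : ∀ x : ↥(S : Subgroup G),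
      ((QuotientGroup.mk' (pPrimeCore p G)).comp (S : Subgroup G).subtype) x ∈
        pCore p (G ⧸ pPrimeCore p G) := by
    intro x
    obtain ⟨k, hk⟩ := S.isPGroup' x
    have hk' : (x : G) ^ (p ^ k) = 1 := by simpa using congrArg Subtype.val hk
    exact plength_one_mem_pCore' p hpl x k (by rw [hk']; exact Subgroup.one_mem _)
  let f : ↥(S : Subgroup G) →* ↥(pCore p (G ⧸ pPrimeCore p G)) :=
    ((QuotientGroup.mk' (pPrimeCore p G)).comp (S : Subgroup G).subtype).codRestrict _ hmem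
  have hf : Function.Injective f := by
    rw [injective_iff_map_eq_one]
    intro x hx
    have h1 : QuotientGroup.mk' (pPrimeCore p G) (x : G) = 1 := congrArg Subtype.val hx
    have h2 : (x : G) ∈ pPrimeCore p G := (QuotientGroup.eq_one_iff _).mp h1
    obtain ⟨k, hk⟩ := S.isPGroup' x
    have hk' : (x : G) ^ (p ^ k) = 1 := by simpa using congrArg Subtype.val hk
    exact Subtype.ext (eq_one_of_mem_coprime_of_pow p _ hKc x h2 k hk')
  have hcard : Nat.card ↥(pCore p (G ⧸ pPrimeCore p G)) ≤ Nat.card ↥(S : Subgroup G) := by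
    obtain ⟨j, hj⟩ := IsPGroup.iff_card.mp hRp
    rw [hj, Sylow.card_eq_multiplicity]
    apply Nat.pow_le_pow_right hpp.pos
    have h1 : p ^ j ∣ Nat.card G := by
      rw [← hj]
      refine (Subgroup.card_subgroup_dvd_card _).trans ?_
      rw [← Subgroup.index_eq_card]
      exact Subgroup.index_dvd_card _
    exact (hpp.pow_dvd_iff_le_factorization Nat.card_pos.ne').mp h1
  have hbij : Function.Bijective f := hf.bijective_of_nat_card_le hcard
  have hRn : IsNarrow p ↥(pCore p (G ⧸ pPrimeCore p G)) :=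
    isNarrow_of_mulEquiv p (MulEquiv.ofBijective f hbij) hS
  have hRr : ¬ PRankLE p 2 ↥(pCore p (G ⧸ pPrimeCore p G)) :=
    fun h => hn (prankLE_of_injective p 2 f hf h)
  obtain ⟨N, hNn, hNp, hNc, hNpow⟩ := narrow_aut hp hRp hRn hRr
  let θ : (G ⧸ pPrimeCore p G) →* MulAut ↥(pCore p (G ⧸ pPrimeCore p G)) :=
    MulAut.conjNormal
  have hker : ∀ h : G ⧸ pPrimeCore p G, θ h = 1 → ∃ k : ℕ, h ^ (p ^ k) = 1 := by
    intro h hh
    have h1 : h ∈ Subgroup.centralizer
        (pCore p (G ⧸ pPrimeCore p G) : Set (G ⧸ pPrimeCore p G)) := by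
      apply Subgroup.mem_centralizer_iff.mpr
      intro x hx
      have h2 : ((θ h ⟨x, hx⟩ : ↥(pCore p (G ⧸ pPrimeCore p G))) : G ⧸ pPrimeCore p G) =
          h * x * h⁻¹ := MulAut.conjNormal_apply h ⟨x, hx⟩
      rw [hh] at h2
      have h3 : x = h * x * h⁻¹ := h2
      calc x * h = (h * x * h⁻¹) * h := by rw [← h3]
        _ = h * x := by group
    obtain ⟨k, hk⟩ := hRp ⟨h, hcent h1⟩
    exact ⟨k, by simpa using congrArg Subtype.val hk⟩
  have hN : ∀ h : G ⧸ pPrimeCore p G, θ h ∈ N → ∃ k : ℕ, h ^ (p ^ k) = 1 := by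
    intro h hh
    obtain ⟨k, hk⟩ := hNp ⟨θ h, hh⟩
    have hk' : (θ h) ^ (p ^ k) = 1 := by simpa using congrArg Subtype.val hk
    rw [← map_pow] at hk'
    obtain ⟨j, hj⟩ := hker _ hk'
    exact ⟨k + j, by rw [pow_add, pow_mul]; exact hj⟩
  constructor
  · have hle : commutator (G ⧸ pPrimeCore p G) ≤ N.comap θ := by
      rw [commutator_eq_closure, Subgroup.closure_le]
      rintro _ ⟨a, b, rfl⟩
      rw [commutatorElement_def]
      show θ (a * b * a⁻¹ * b⁻¹) ∈ N
      rw [map_mul, map_mul, map_mul, map_inv, map_inv]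
      exact hNc _ _
    rintro ⟨g, hg⟩
    obtain ⟨k, hk⟩ := hN g (hle hg)
    exact ⟨k, Subtype.ext (by simpa using hk)⟩
  · intro q hq hdvd
    by_cases hqp : q = p
    · exact hqp.le
    · haveI : Fact q.Prime := ⟨hq⟩
      rw [Subgroup.index_eq_card] at hdvd
      obtain ⟨x, hx⟩ := exists_prime_orderOf_dvd_card' q hdvd
      have h1 : θ (x ^ (p - 1)) ∈ N := by rw [map_pow]; exact hNpow _
      obtain ⟨k, hk⟩ := hN _ h1
      rw [← pow_mul] at hk
      have h2 : q ∣ (p - 1) * p ^ k := by rw [← hx]; exact orderOf_dvd_of_pow_eq_one hk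
      rcases (Nat.Prime.dvd_mul hq).mp h2 with h3 | h3
      · have h4 := Nat.le_of_dvd (by have := hpp.two_le; omega) h3
        omega
      · exact absurd ((Nat.prime_dvd_prime_iff_eq hq hpp).mp (hq.dvd_of_dvd_pow h3)) hqp

end narrow4

end Cfsg.Agent.Lib.Helper34
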