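import Mathlib
import Cfsg.Agent.S1466
import Cfsg.Agent.S1467

set_option autoImplicit false

namespace Cfsg.Agent.Lib.Helper34

open Cfsg

universe u

/-- relative Puig step inside `G`: the subgroup generated by the abelian subgroups of `H`
normalized by `X`. -/
def relStep {G : Type u} [Group G] (H X : Subgroup G) : Subgroup G :=
  sSup {A : Subgroup G | IsMulCommutative A ∧ A ≤ H ∧ X ≤ Subgroup.normalizer (A : Set G)}

/-- relative Puig series of the subgroup `H`, as subgroups of `G`. -/
def relSeq {G : Type u} [Group G] (H : Subgroup G) : ℕ → Subgroup G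
  | 0 => ⊥
  | n + 1 => relStep H (relSeq H n)

/-- relative Puig subgroup `L(H)` -/
def relL {G : Type u} [Group G] (H : Subgroup G) : Subgroup G := ⨅ n : ℕ, relSeq H (2 * n + 1)

/-- relative `L_*(H)` -/
def relLs {G : Type u} [Group G] (H : Subgroup G) : Subgroup G := ⨆ n : ℕ, relSeq H (2 * n)

theorem relSeq_zero {G : Type u} [Group G] (H : Subgroup G) : relSeq H 0 = ⊥ := rfl

theorem relSeq_succ {G : Type u} [Group G] (H : Subgroup G) (n : ℕ) :
    relSeq H (n + 1) = relStep H (relSeq H n) := rfl

theorem relStep_le {G : Type u} [Group G] (H X : Subgroup G) : relStep H X ≤ H := by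
  apply sSup_le
  rintro A ⟨-, hA, -⟩
  exact hA

theorem relStep_anti {G : Type u} [Group G] (H : Subgroup G) {X Y : Subgroup G} (h : X ≤ Y) :
    relStep H Y ≤ relStep H X := by
  apply sSup_le_sSup
  rintro A ⟨hA, hAH, hY⟩
  exact ⟨hA, hAH, h.trans hY⟩

theorem relStep_mono_left {G : Type u} [Group G] {H H' : Subgroup G} (h : H ≤ H')
    (X : Subgroup G) : relStep H X ≤ relStep H' X := by
  apply sSup_le_sSup
  rintro A ⟨hA, hAH, hY⟩
  exact ⟨hA, hAH.trans h, hY⟩

theorem relStep_mono_anti {G : Type u} [Group G] {H H' X Y : Subgroup G} (h : H ≤ H')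
    (hXY : X ≤ Y) : relStep H Y ≤ relStep H' X :=
  (relStep_anti H hXY).trans (relStep_mono_left h X)

theorem relSeq_le {G : Type u} [Group G] (H : Subgroup G) (n : ℕ) : relSeq H n ≤ H := by
  cases n with
  | zero => exact bot_le
  | succ n => exact relStep_le H _

theorem le_relStep {G : Type u} [Group G] {H X A : Subgroup G} (hA : IsMulCommutative A)
    (hAH : A ≤ H) (hX : X ≤ Subgroup.normalizer (A : Set G)) : A ≤ relStep H X :=
  le_sSup ⟨hA, hAH, hX⟩

/-- if the bigger step lands in `H`, the two steps agree -/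
theorem relStep_eq_of_le {G : Type u} [Group G] {H H' X : Subgroup G} (h : H ≤ H')
    (hle : relStep H' X ≤ H) : relStep H X = relStep H' X := by
  apply le_antisymm (relStep_mono_left h X)
  apply sSup_le
  rintro A ⟨hA, hAH, hX⟩
  exact le_relStep hA ((le_relStep hA hAH hX).trans hle) hX

/-- the Puig step of the group `↥H` maps to the relative step -/
theorem map_puigStep {G : Type u} [Group G] (H : Subgroup G) (X : Subgroup ↥H) :
    (puigStep X).map H.subtype = relStep H (X.map H.subtype) := by
  apply le_antisymm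
  · rw [Subgroup.map_le_iff_le_comap]
    apply sSup_le
    rintro A ⟨hA, hX⟩
    rw [← Subgroup.map_le_iff_le_comap]
    apply le_relStep
    · exact Subgroup.map_isMulCommutative A H.subtype
    · rintro _ ⟨a, -, rfl⟩
      exact a.2
    · rintro _ ⟨x, hx, rfl⟩
      have hxn := hX hx
      rw [Subgroup.mem_normalizer_iff] at hxn ⊢
      intro y
      constructor
      · rintro ⟨a, ha, rfl⟩
        exact ⟨x * a * x⁻¹, (hxn a).mp ha, rfl⟩
      · rintro ⟨b, hb, hb'⟩
        have hyH : y ∈ H := by
          have h1 : y = (x : G)⁻¹ * ((x : G) * y * (x : G)⁻¹) * (x : G) := by group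
          rw [h1]
          have h2 : (x : G) * y * (x : G)⁻¹ ∈ H := by
            have : (H.subtype b : G) = (x : G) * y * (x : G)⁻¹ := hb'
            rw [← this]; exact b.2
          exact H.mul_mem (H.mul_mem (H.inv_mem x.2) h2) x.2
        refine ⟨⟨y, hyH⟩, ?_, rfl⟩
        apply (hxn ⟨y, hyH⟩).mpr
        have : x * ⟨y, hyH⟩ * x⁻¹ = b := by
          apply Subtype.ext
          exact hb'.symm
        rw [this]; exact hb
  · apply sSup_le
    rintro A ⟨hA, hAH, hX⟩
    rw [← Subgroup.map_subgroupOf_eq_of_le hAH]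
    apply Subgroup.map_mono
    apply le_sSup
    haveI := hA
    refine ⟨inferInstance, ?_⟩
    intro x hx
    have hxn := hX ⟨x, hx, rfl⟩
    rw [Subgroup.mem_normalizer_iff] at hxn ⊢
    intro y
    rw [Subgroup.mem_subgroupOf, Subgroup.mem_subgroupOf]
    exact hxn y

theorem map_puigSeq {G : Type u} [Group G] (H : Subgroup G) (n : ℕ) :
    (puigSeq ↥H n).map H.subtype = relSeq H n := by
  induction n with
  | zero => exact Subgroup.map_bot _
  | succ n ih =>
    show (puigStep (puigSeq ↥H n)).map H.subtype = relStep H (relSeq H n)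
    rw [map_puigStep, ih]

theorem map_puigSubgroup {G : Type u} [Group G] (H : Subgroup G) :
    (puigSubgroup ↥H).map H.subtype = relL H := by
  unfold puigSubgroup relL
  rw [Subgroup.map_iInf _ H.subtype_injective]
  congr 1
  funext n
  exact map_puigSeq H _

theorem map_puigLower {G : Type u} [Group G] (H : Subgroup G) :
    (puigLower ↥H).map H.subtype = relLs H := by
  unfold puigLower relLs
  rw [Subgroup.map_iSup]
  congr 1
  funext n
  exact map_puigSeq H _

theorem relL_le {G : Type u} [Group G] (H : Subgroup G) : relL H ≤ H :=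
  (iInf_le _ 0).trans (relSeq_le H _)

theorem relLs_le {G : Type u} [Group G] (H : Subgroup G) : relLs H ≤ H :=
  iSup_le fun n => relSeq_le H _

theorem relSeq_even_le_odd {G : Type u} [Group G] (H : Subgroup G) (n m : ℕ) :
    relSeq H (2 * n) ≤ relSeq H (2 * m + 1) := by
  rw [← map_puigSeq, ← map_puigSeq]
  exact Subgroup.map_mono (Cfsg.Agent.S1467.even_le_odd n m)

theorem relLs_le_relL {G : Type u} [Group G] (H : Subgroup G) : relLs H ≤ relL H :=
  iSup_le fun n => le_iInf fun m => relSeq_even_le_odd H n m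

theorem relSeq_even_le_relLs {G : Type u} [Group G] (H : Subgroup G) (n : ℕ) :
    relSeq H (2 * n) ≤ relLs H := le_iSup (fun n => relSeq H (2 * n)) n

theorem relL_le_relSeq_odd {G : Type u} [Group G] (H : Subgroup G) (n : ℕ) :
    relL H ≤ relSeq H (2 * n + 1) := iInf_le (fun n => relSeq H (2 * n + 1)) n

theorem relStep_relLs {G : Type u} [Group G] [Finite G] (H : Subgroup G) :
    relStep H (relLs H) = relL H := by
  rw [← map_puigLower, ← map_puigStep, ← map_puigSubgroup]
  congr 1
  exact (Cfsg.Agent.S1467.result (G := ↥H)).2.2.2.2.2.1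

theorem relStep_relL {G : Type u} [Group G] [Finite G] (H : Subgroup G) :
    relStep H (relL H) = relLs H := by
  rw [← map_puigSubgroup, ← map_puigStep, ← map_puigLower]
  congr 1
  exact (Cfsg.Agent.S1467.result (G := ↥H)).2.2.2.2.2.2

/-- equivariance of the relative step under a homomorphism injective on `H` -/
theorem map_relStep {G G' : Type u} [Group G] [Group G'] (f : G →* G') {H X : Subgroup G}
    (hf : Set.InjOn f (H : Set G)) (hX : X ≤ H) :
    (relStep H X).map f = relStep (H.map f) (X.map f) := by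
  apply le_antisymm
  · rw [Subgroup.map_le_iff_le_comap]
    apply sSup_le
    rintro A ⟨hA, hAH, hXA⟩
    rw [← Subgroup.map_le_iff_le_comap]
    apply le_relStep
    · exact Subgroup.map_isMulCommutative A f
    · exact Subgroup.map_mono hAH
    · rintro _ ⟨x, hx, rfl⟩
      have hxn := hXA hx
      have hxH := hX hx
      rw [Subgroup.mem_normalizer_iff] at hxn ⊢
      intro y
      constructor
      · rintro ⟨a, ha, rfl⟩
        exact ⟨x * a * x⁻¹, (hxn a).mp ha, by simp⟩
      · rintro ⟨b, hb, hb'⟩
        refine ⟨x⁻¹ * b * x, ?_, ?_⟩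
        · apply (hxn _).mpr
          have : x * (x⁻¹ * b * x) * x⁻¹ = b := by group
          rw [this]; exact hb
        · rw [map_mul, map_mul, hb', map_inv]; group
  · apply sSup_le
    rintro B ⟨hB, hBH, hXB⟩
    have hBeq : B = (B.comap f ⊓ H).map f := by
      apply le_antisymm
      · intro b hb
        obtain ⟨h, hh, rfl⟩ := hBH hb
        exact ⟨h, ⟨hb, hh⟩, rfl⟩
      · rintro _ ⟨a, ⟨ha, -⟩, rfl⟩
        exact ha
    rw [hBeq]
    apply Subgroup.map_mono
    apply le_relStep
    · refine ⟨⟨fun a b => ?_⟩⟩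
      apply Subtype.ext
      apply hf (H.mul_mem a.2.2 b.2.2) (H.mul_mem b.2.2 a.2.2)
      have h1 : f a ∈ B := a.2.1
      have h2 : f b ∈ B := b.2.1
      have := congrArg Subtype.val (hB.is_comm.comm ⟨f a, h1⟩ ⟨f b, h2⟩)
      simpa using this
    · exact inf_le_right
    · intro x hx
      have hxH := hX hx
      have hxn := hXB ⟨x, hx, rfl⟩
      rw [Subgroup.mem_normalizer_iff] at hxn ⊢
      intro y
      constructor
      · rintro ⟨hy1, hy2⟩
        refine ⟨?_, H.mul_mem (H.mul_mem hxH hy2) (H.inv_mem hxH)⟩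
        show f (x * y * x⁻¹) ∈ B
        rw [map_mul, map_mul, map_inv]
        exact (hxn _).mp hy1
      · rintro ⟨hy1, hy2⟩
        have hyH : y ∈ H := by
          have h1 : y = x⁻¹ * (x * y * x⁻¹) * x := by group
          rw [h1]
          exact H.mul_mem (H.mul_mem (H.inv_mem hxH) hy2) hxH
        refine ⟨?_, hyH⟩
        show f y ∈ B
        apply (hxn _).mpr
        have : f (x * y * x⁻¹) ∈ B := hy1
        rwa [map_mul, map_mul, map_inv] at this

theorem map_relSeq {G G' : Type u} [Group G] [Group G'] (f : G →* G') {H : Subgroup G}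
    (hf : Set.InjOn f (H : Set G)) (n : ℕ) :
    (relSeq H n).map f = relSeq (H.map f) n := by
  induction n with
  | zero => exact Subgroup.map_bot _
  | succ n ih =>
    show (relStep H (relSeq H n)).map f = relStep (H.map f) (relSeq (H.map f) n)
    rw [map_relStep f hf (relSeq_le H n), ih]

theorem relSeq_map_conj {G : Type u} [Group G] (H : Subgroup G) {g : G}
    (hg : g ∈ Subgroup.normalizer (H : Set G)) (n : ℕ) :
    (relSeq H n).map (MulAut.conj g).toMonoidHom = relSeq H n := by
  have h1 := map_relSeq (MulAut.conj g).toMonoidHom (H := H)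
    (fun a _ b _ h => (MulAut.conj g).injective h) n
  have h0 : H.map (MulAut.conj g).toMonoidHom = H :=
    Subgroup.mem_normalizer_iff_map_conj_eq.mp hg
  rw [h0] at h1
  exact h1

theorem relL_map_conj {G : Type u} [Group G] (H : Subgroup G) {g : G}
    (hg : g ∈ Subgroup.normalizer (H : Set G)) :
    (relL H).map (MulAut.conj g).toMonoidHom = relL H := by
  unfold relL
  rw [Subgroup.map_iInf _ (MulAut.conj g).injective]
  congr 1
  funext n
  exact relSeq_map_conj H hg _

theorem relLs_map_conj {G : Type u} [Group G] (H : Subgroup G) {g : G}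
    (hg : g ∈ Subgroup.normalizer (H : Set G)) :
    (relLs H).map (MulAut.conj g).toMonoidHom = relLs H := by
  unfold relLs
  rw [Subgroup.map_iSup]
  congr 1
  funext n
  exact relSeq_map_conj H hg _

theorem normal_of_map_conj {G : Type u} [Group G] {N : Subgroup G}
    (h : ∀ g : G, N.map (MulAut.conj g).toMonoidHom = N) : N.Normal := by
  rw [← Subgroup.normalizer_eq_top_iff, eq_top_iff]
  intro g _
  exact Subgroup.mem_normalizer_iff_map_conj_eq.mpr (h g)

theorem mem_normalizer_of_normal {G : Type u} [Group G] (T : Subgroup G) [hT : T.Normal] (g : G) :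
    g ∈ Subgroup.normalizer (T : Set G) := by
  rw [Subgroup.normalizer_eq_top_iff.mpr hT]
  trivial

theorem relSeq_normal {G : Type u} [Group G] (T : Subgroup G) [T.Normal] (n : ℕ) :
    (relSeq T n).Normal :=
  normal_of_map_conj fun g => relSeq_map_conj T (mem_normalizer_of_normal T g) n

theorem relL_normal {G : Type u} [Group G] (T : Subgroup G) [T.Normal] : (relL T).Normal :=
  normal_of_map_conj fun g => relL_map_conj T (mem_normalizer_of_normal T g)

theorem relLs_normal {G : Type u} [Group G] (T : Subgroup G) [T.Normal] : (relLs T).Normal :=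
  normal_of_map_conj fun g => relLs_map_conj T (mem_normalizer_of_normal T g)

/-- transfer of a self-centralizing property from `↥T` to `G` -/
theorem inf_centralizer_map_le {G : Type u} [Group G] (T : Subgroup G) (X : Subgroup ↥T)
    (h : Subgroup.centralizer (X : Set ↥T) ≤ X) :
    T ⊓ Subgroup.centralizer ((X.map T.subtype : Subgroup G) : Set G) ≤ X.map T.subtype := by
  rintro x ⟨hxT, hxC⟩
  refine ⟨⟨x, hxT⟩, h ?_, rfl⟩
  rw [Subgroup.mem_centralizer_iff]
  intro y hy
  apply Subtype.ext
  exact (Subgroup.mem_centralizer_iff.mp hxC) y.1 ⟨y, hy, rfl⟩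

theorem inf_centralizer_relSeq_le {G : Type u} [Group G] [Finite G] (p : ℕ) [Fact p.Prime]
    (T : Subgroup G) (hT : IsPGroup p T) (i : ℕ) (hi : 0 < i) :
    T ⊓ Subgroup.centralizer (relSeq T i : Set G) ≤ relSeq T i := by
  by_cases hT1 : T = ⊥
  · rw [hT1]; exact inf_le_left.trans bot_le
  · haveI : Nontrivial ↥T := (Subgroup.nontrivial_iff_ne_bot T).mpr hT1
    have h := ((Cfsg.Agent.S1466.result (R := ↥T) p hT).1 i hi).2
    have h2 := inf_centralizer_map_le T _ h
    rwa [map_puigSeq] at h2

theorem inf_centralizer_relLs_le {G : Type u} [Group G] [Finite G] (p : ℕ) [Fact p.Prime]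
    (T : Subgroup G) (hT : IsPGroup p T) :
    T ⊓ Subgroup.centralizer (relLs T : Set G) ≤ relLs T := by
  by_cases hT1 : T = ⊥
  · rw [hT1]; exact inf_le_left.trans bot_le
  · haveI : Nontrivial ↥T := (Subgroup.nontrivial_iff_ne_bot T).mpr hT1
    have h := (Cfsg.Agent.S1466.result (R := ↥T) p hT).2.1.2
    have h2 := inf_centralizer_map_le T _ h
    rwa [map_puigLower] at h2

theorem inf_centralizer_relL_le {G : Type u} [Group G] [Finite G] (p : ℕ) [Fact p.Prime]
    (T : Subgroup G) (hT : IsPGroup p T) :
    T ⊓ Subgroup.centralizer (relL T : Set G) ≤ relL T := by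
  by_cases hT1 : T = ⊥
  · rw [hT1]; exact inf_le_left.trans bot_le
  · haveI : Nontrivial ↥T := (Subgroup.nontrivial_iff_ne_bot T).mpr hT1
    have h := (Cfsg.Agent.S1466.result (R := ↥T) p hT).2.2.1.2
    have h2 := inf_centralizer_map_le T _ h
    rwa [map_puigSubgroup] at h2

end Cfsg.Agent.Lib.Helper34
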