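import Mathlib
import Cfsg.Agent.S1465
import Cfsg.Agent.Lib.Helper34.Puig
import Cfsg.Agent.Lib.Helper34.Quad3

set_option autoImplicit false

namespace Cfsg.Agent.Lib.Helper34

open Cfsg

universe u

/-- in a solvable group with `O_{p'}(G) = 1`, a normal subgroup `P` with
`O_p(G) ∩ C_G(P) ≤ P` has `C_G(P) ≤ O_p(G)`. -/
theorem centralizer_le_pCore_of {G : Type u} [Group G] [Finite G] [Group.IsSolvable G] (p : ℕ)
    [Fact p.Prime] (hbot : pPrimeCore p G = ⊥) (P : Subgroup G) [P.Normal]
    (hle : pCore p G ⊓ Subgroup.centralizer (P : Set G) ≤ P) :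
    Subgroup.centralizer (P : Set G) ≤ pCore p G := by
  set C := Subgroup.centralizer (P : Set G) with hC
  have hCn : C.Normal := inferInstance
  have hCp : IsPGroup p C := by
    have h1 : Cfsg.pPrimeCore p ↥C = ⊥ := by
      have := Cfsg.Agent.Lib.Helper30.pPrimeCore_map_subtype_le p (Subgroup.Normal.isSubnormal hCn)
      rw [hbot, le_bot_iff] at this
      exact (Subgroup.map_eq_bot_iff_of_injective _ C.subtype_injective).mp this
    have h2 : (Cfsg.pCore p ↥C).map C.subtype ≤ P := by
      refine le_trans ?_ hle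
      refine le_inf (Cfsg.Agent.Lib.Helper30.pCore_map_subtype_le p (Subgroup.Normal.isSubnormal hCn)) ?_
      rintro _ ⟨x, -, rfl⟩
      exact x.2
    have h3 : Subgroup.centralizer (Cfsg.pCore p ↥C : Set ↥C) = ⊤ := by
      rw [eq_top_iff]
      intro c _
      rw [Subgroup.mem_centralizer_iff]
      intro x hx
      have hxP : (x : G) ∈ P := h2 ⟨x, hx, rfl⟩
      have hc2 : (c : G) ∈ Subgroup.centralizer (P : Set G) := c.2
      rw [Subgroup.mem_centralizer_iff] at hc2
      exact Subtype.ext (hc2 _ hxP)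
    have h4 := solv_centralizer_pCore_le (H := ↥C) p h1
    rw [h3, top_le_iff] at h4
    have h5 := Cfsg.Agent.Lib.Helper30.pCore_isPGroup (G := ↥C) p
    rw [h4] at h5
    exact h5.of_equiv Subgroup.topEquiv
  exact Cfsg.Agent.Lib.Helper30.le_pCore_of_normal hCn hCp

/-- B&G Lemma B.3, relative form: for `S` a Sylow `p`-subgroup and `T = O_p(G)`,
`L_{2n}(S) ≤ L_{2n}(T)` and `L_{2n+1}(T) ≤ L_{2n+1}(S)`. -/
theorem puig_sylow_core {G : Type u} [Group G] [Finite G] [Group.IsSolvable G]
    (hodd : Odd (Nat.card G)) (p : ℕ) [Fact p.Prime] (hp : p ≠ 2)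
    (hO : pPrimeCore p G = ⊥) (S : Sylow p G) (n : ℕ) :
    relSeq (S : Subgroup G) (2 * n) ≤ relSeq (pCore p G) (2 * n) ∧
      relSeq (pCore p G) (2 * n + 1) ≤ relSeq (S : Subgroup G) (2 * n + 1) := by
  set T := pCore p G with hTdef
  haveI hTn : T.Normal := Cfsg.Agent.Lib.Helper30.pCore_normal p G
  have hTp : IsPGroup p T := Cfsg.Agent.Lib.Helper30.pCore_isPGroup p
  have hTS : T ≤ (S : Subgroup G) := hTp.le_sylow_of_normal S
  induction n with
  | zero =>
    refine ⟨le_rfl, ?_⟩
    exact relStep_mono_anti hTS le_rfl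
  | succ n ih =>
    obtain ⟨ih1, ih2⟩ := ih
    have e1 : 2 * (n + 1) = (2 * n + 1) + 1 := by ring
    have step1 : relSeq (S : Subgroup G) (2 * n + 1 + 1) ≤ relSeq T (2 * n + 1 + 1) := by
      show relStep (S : Subgroup G) (relSeq (S : Subgroup G) (2 * n + 1)) ≤
        relStep T (relSeq T (2 * n + 1))
      apply sSup_le
      rintro A ⟨hA, hAS, hAn⟩
      have hAT : A ≤ T := by
        haveI : (relSeq T (2 * n + 1)).Normal := relSeq_normal T _
        have hP : IsPGroup p (relSeq T (2 * n + 1)) := hTp.to_le (relSeq_le T _)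
        have h := (Cfsg.Agent.S1465.result hodd p hp (relSeq T (2 * n + 1)) hP {A} (by
          intro B hB
          rw [Set.mem_singleton_iff] at hB
          subst hB
          exact ⟨hA, S.isPGroup'.to_le hAS, ih2.trans hAn⟩)).2 hO
            (inf_centralizer_relSeq_le p T hTp _ (Nat.succ_pos _))
        rwa [sSup_singleton] at h
      exact le_relStep hA hAT (ih2.trans hAn)
    rw [e1]
    refine ⟨step1, ?_⟩
    show relStep T (relSeq T (2 * n + 1 + 1)) ≤
      relStep (S : Subgroup G) (relSeq (S : Subgroup G) (2 * n + 1 + 1))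
    exact relStep_mono_anti hTS step1

end Cfsg.Agent.Lib.Helper34
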