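import Mathlib
import Cfsg.Agent.Lib.Helper34.Puig2
import Cfsg.Agent.Lib.Helper30.Conj

set_option autoImplicit false

namespace Cfsg.Agent.Lib.Helper34

open Cfsg

universe u

/-- B&G Lemma B.2, relative form: if `L(H') ≤ H ≤ H'` then `L(H) = L(H')`. -/
theorem relL_eq_of_le {G : Type u} [Group G] [Finite G] {H H' : Subgroup G} (hHH' : H ≤ H')
    (hL : relL H' ≤ H) : relL H = relL H' := by
  have hα : ∀ n, relSeq H' (2 * n) ≤ relSeq H (2 * n) ∧
      relSeq H (2 * n + 1) ≤ relSeq H' (2 * n + 1) := by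
    intro n
    induction n with
    | zero => exact ⟨le_rfl, relStep_mono_anti hHH' le_rfl⟩
    | succ n ih =>
      obtain ⟨ih1, ih2⟩ := ih
      have e1 : 2 * (n + 1) = (2 * n + 1) + 1 := by ring
      have step1 : relSeq H' (2 * n + 1 + 1) ≤ relSeq H (2 * n + 1 + 1) := by
        show relStep H' (relSeq H' (2 * n + 1)) ≤ relStep H (relSeq H (2 * n + 1))
        apply sSup_le
        rintro A ⟨hA, hAH', hAn⟩
        have hAH : A ≤ H := by
          have h1 : A ≤ relSeq H' (2 * (n + 1)) := by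
            rw [e1]
            exact le_relStep hA hAH' hAn
          exact h1.trans ((relSeq_even_le_relLs H' (n + 1)).trans ((relLs_le_relL H').trans hL))
        exact le_relStep hA hAH (ih2.trans hAn)
      rw [e1]
      exact ⟨step1, relStep_mono_anti hHH' step1⟩
  have h1 : relStep H (relLs H') = relL H' := by
    rw [relStep_eq_of_le hHH' (by rw [relStep_relLs]; exact hL), relStep_relLs]
  have h2 : relStep H (relL H') = relLs H' := by
    rw [relStep_eq_of_le hHH' (by rw [relStep_relL]; exact (relLs_le_relL H').trans hL),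
      relStep_relL]
  have hβ : ∀ n, relSeq H (2 * n) ≤ relLs H' ∧ relL H' ≤ relSeq H (2 * n + 1) := by
    intro n
    induction n with
    | zero =>
      refine ⟨bot_le, ?_⟩
      rw [← h1]
      exact relStep_anti H bot_le
    | succ n ih =>
      obtain ⟨ih1, ih2⟩ := ih
      have e1 : 2 * (n + 1) = (2 * n + 1) + 1 := by ring
      have step1 : relSeq H (2 * n + 1 + 1) ≤ relLs H' := by
        rw [← h2]
        exact relStep_anti H ih2
      rw [e1]
      refine ⟨step1, ?_⟩
      rw [← h1]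
      exact relStep_anti H step1
  apply le_antisymm
  · exact iInf_mono fun n => (hα n).2
  · exact le_iInf fun n => (hβ n).2

/-- the centre of the relative Puig subgroup, as a subgroup of `G` -/
def relZ {G : Type u} [Group G] (H : Subgroup G) : Subgroup G :=
  relL H ⊓ Subgroup.centralizer (relL H : Set G)

theorem map_center_puig {G : Type u} [Group G] (S : Subgroup G) :
    ((Subgroup.center ↥(puigSubgroup ↥S)).map (puigSubgroup ↥S).subtype).map S.subtype
      = relZ S := by
  ext x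
  constructor
  · rintro ⟨s, ⟨z, hz, rfl⟩, rfl⟩
    have hzL : ((z : ↥S) : G) ∈ relL S := by
      rw [← map_puigSubgroup]
      exact ⟨z.1, z.2, rfl⟩
    refine ⟨hzL, ?_⟩
    apply Subgroup.mem_centralizer_iff.mpr
    intro y hy
    rw [← map_puigSubgroup] at hy
    obtain ⟨y', hy', rfl⟩ := hy
    have h1 := Subgroup.mem_center_iff.mp hz ⟨y', hy'⟩
    have h2 := congrArg (fun w : ↥(puigSubgroup ↥S) => ((w : ↥S) : G)) h1
    exact h2
  · rintro ⟨hxL, hxC⟩
    rw [← map_puigSubgroup] at hxL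
    obtain ⟨s, hs, rfl⟩ := hxL
    refine ⟨s, ⟨⟨s, hs⟩, ?_, rfl⟩, rfl⟩
    apply Subgroup.mem_center_iff.mpr
    intro y
    apply Subtype.ext
    apply Subtype.ext
    have hy : ((y : ↥S) : G) ∈ relL S := by
      rw [← map_puigSubgroup]
      exact ⟨y.1, y.2, rfl⟩
    exact Subgroup.mem_centralizer_iff.mp hxC _ hy

theorem normalizer_sup_eq_top_of_relIndex {G : Type u} [Group G] [Finite G] (p : ℕ)
    [Fact p.Prime] (M : Subgroup G) [M.Normal] (D : Subgroup G) (hD : IsPGroup p D)
    (hDM : D ≤ M) (h : ¬ p ∣ D.relIndex M) : Subgroup.normalizer (D : Set G) ⊔ M = ⊤ := by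
  have hD' : IsPGroup p (D.subgroupOf M) := hD.comap_subtype
  have h' : ¬ p ∣ (D.subgroupOf M).index := h
  have key := Sylow.normalizer_sup_eq_top (hD'.toSylow h')
  have e : ((hD'.toSylow h' : Sylow p ↥M) : Subgroup ↥M).map M.subtype = D :=
    Subgroup.map_subgroupOf_eq_of_le hDM
  rw [e] at key
  exact key

theorem le_sup_of_relIndex {G : Type u} [Group G] [Finite G] (p : ℕ) [Fact p.Prime]
    (K M D : Subgroup G) (hD : ¬ p ∣ D.relIndex M) (j : ℕ)
    (hj : K.relIndex M = p ^ j) : M ≤ K ⊔ D := by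
  rw [← Subgroup.relIndex_eq_one]
  have d1 : (K ⊔ D).relIndex M ∣ D.relIndex M := Subgroup.relIndex_dvd_of_le_left M le_sup_right
  have d2 : (K ⊔ D).relIndex M ∣ K.relIndex M := Subgroup.relIndex_dvd_of_le_left M le_sup_left
  rw [hj] at d2
  obtain ⟨i, hi, hi2⟩ := (Nat.dvd_prime_pow Fact.out).mp d2
  rw [hi2] at d1 ⊢
  rcases Nat.eq_zero_or_pos i with h0 | h0
  · rw [h0, pow_zero]
  · exfalso; exact hD (dvd_trans (dvd_pow_self p h0.ne') d1)

theorem relIndex_normal_eq {G : Type u} [Group G] [Finite G] (S N : Subgroup G) [N.Normal] :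
    S.relIndex N = S.relIndex (S ⊔ N) := by
  have h1 : Nat.card S = Nat.card ↥(S ⊓ N) * N.relIndex S := by
    rw [Cfsg.Agent.Lib.Helper30.card_eq_card_mul_relIndex (inf_le_left : S ⊓ N ≤ S),
      Subgroup.inf_relIndex_left]
  have h2 : Nat.card N = Nat.card ↥(S ⊓ N) * S.relIndex N := by
    rw [Cfsg.Agent.Lib.Helper30.card_eq_card_mul_relIndex (inf_le_right : S ⊓ N ≤ N),
      Subgroup.inf_relIndex_right]
  have h3 : Nat.card ↥(S ⊔ N) = Nat.card N * N.relIndex S := by
    rw [Cfsg.Agent.Lib.Helper30.card_eq_card_mul_relIndex (le_sup_right : N ≤ S ⊔ N),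
      Subgroup.relIndex_sup_right]
  have h4 : Nat.card ↥(S ⊔ N) = Nat.card S * S.relIndex (S ⊔ N) :=
    Cfsg.Agent.Lib.Helper30.card_eq_card_mul_relIndex le_sup_left
  have h5 : Nat.card ↥(S ⊓ N) * N.relIndex S * S.relIndex N =
      Nat.card ↥(S ⊓ N) * N.relIndex S * S.relIndex (S ⊔ N) := by
    calc Nat.card ↥(S ⊓ N) * N.relIndex S * S.relIndex N
        = Nat.card N * N.relIndex S := by rw [h2]; ring
      _ = Nat.card ↥(S ⊔ N) := h3.symm
      _ = Nat.card S * S.relIndex (S ⊔ N) := h4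
      _ = Nat.card ↥(S ⊓ N) * N.relIndex S * S.relIndex (S ⊔ N) := by rw [← h1]
  have hpos : 0 < Nat.card ↥(S ⊓ N) * N.relIndex S := by
    rw [← h1]; exact Nat.card_pos
  exact Nat.eq_of_mul_eq_mul_left hpos h5

theorem not_dvd_relIndex_inf_normal {G : Type u} [Group G] [Finite G] (p : ℕ) [Fact p.Prime]
    (S : Sylow p G) (N : Subgroup G) [N.Normal] :
    ¬ p ∣ ((S : Subgroup G) ⊓ N).relIndex N := by
  rw [Subgroup.inf_relIndex_right, relIndex_normal_eq]
  intro h
  apply S.not_dvd_index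
  rw [← Subgroup.relIndex_mul_index (le_sup_left : (S : Subgroup G) ≤ (S : Subgroup G) ⊔ N)]
  exact dvd_mul_of_dvd_left h _

theorem map_conj_inf_centralizer {G : Type u} [Group G] (L : Subgroup G) (g : G)
    (h : L.map (MulAut.conj g).toMonoidHom = L) :
    (L ⊓ Subgroup.centralizer (L : Set G)).map (MulAut.conj g).toMonoidHom =
      L ⊓ Subgroup.centralizer (L : Set G) := by
  rw [Subgroup.map_inf_eq _ _ _ (MulAut.conj g).injective,
    Cfsg.Agent.Lib.Helper30.map_conj_centralizer, h]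

/-- B&G Theorem B.4 (second part), relative form: `Z(L(S)) ⊴ G` when `O_{p'}(G) = 1`. -/
theorem relZ_normal {G : Type u} [Group G] [Finite G] [Group.IsSolvable G]
    (hodd : Odd (Nat.card G)) (p : ℕ) [Fact p.Prime] (hp : p ≠ 2)
    (hO : pPrimeCore p G = ⊥) (S : Sylow p G) : (relZ (S : Subgroup G)).Normal := by
  set T := pCore p G with hTdef
  haveI hTn : T.Normal := Cfsg.Agent.Lib.Helper30.pCore_normal p G
  have hTp : IsPGroup p T := Cfsg.Agent.Lib.Helper30.pCore_isPGroup p
  have hTS : T ≤ (S : Subgroup G) := hTp.le_sylow_of_normal S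
  have hSp : IsPGroup p (S : Subgroup G) := S.isPGroup'
  have key := puig_sylow_core hodd p hp hO S
  have h1 : relLs (S : Subgroup G) ≤ relLs T := iSup_mono fun n => (key n).1
  have h2 : relLs T ≤ relL T := relLs_le_relL T
  have h3 : relL T ≤ relL (S : Subgroup G) := iInf_mono fun n => (key n).2
  haveI hLTn : (relL T).Normal := relL_normal T
  haveI hLTsn : (relLs T).Normal := relLs_normal T
  -- Step A
  have hA : Subgroup.centralizer (relLs T : Set G) ≤ relLs T := by
    have hle : T ⊓ Subgroup.centralizer (relLs T : Set G) ≤ relLs T :=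
      inf_centralizer_relLs_le p T hTp
    have hC := centralizer_le_pCore_of p hO (relLs T) hle
    exact (le_inf hC le_rfl).trans hle
  set Y := relL T ⊓ Subgroup.centralizer (relL T : Set G) with hY
  haveI hYn : Y.Normal := inferInstance
  have hYT : Y ≤ T := inf_le_left.trans (relL_le T)
  have hYp : IsPGroup p Y := hTp.to_le hYT
  -- Step B
  have hZY : relZ (S : Subgroup G) ≤ Y := by
    rintro x ⟨hxL, hxC⟩
    have hx1 : x ∈ Subgroup.centralizer (relLs T : Set G) :=
      Subgroup.centralizer_le (h2.trans h3) hxC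
    exact ⟨h2 (hA hx1), Subgroup.centralizer_le h3 hxC⟩
  -- Step C
  have hYLs : Y ≤ relLs (S : Subgroup G) := by
    intro y hy
    have hyS : y ∈ (S : Subgroup G) := hTS (hYT hy)
    have hyC : y ∈ Subgroup.centralizer (relLs (S : Subgroup G) : Set G) :=
      Subgroup.centralizer_le (h1.trans h2) hy.2
    exact inf_centralizer_relLs_le p (S : Subgroup G) hSp ⟨hyS, hyC⟩
  -- Step D
  set CY := Subgroup.centralizer (Y : Set G) with hCY
  haveI hCYn : CY.Normal := inferInstance
  have hD : (relL (S : Subgroup G)).map (QuotientGroup.mk' CY) ≤ pCore p (G ⧸ CY) := by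
    have h := (Cfsg.Agent.S1465.result hodd p hp Y hYp
      {A : Subgroup G | IsMulCommutative A ∧ A ≤ (S : Subgroup G) ∧
        relLs (S : Subgroup G) ≤ Subgroup.normalizer (A : Set G)}
      (by
        rintro B ⟨hB, hBS, hBn⟩
        exact ⟨hB, hSp.to_le hBS, hYLs.trans hBn⟩)).1
    have e : sSup {A : Subgroup G | IsMulCommutative A ∧ A ≤ (S : Subgroup G) ∧
        relLs (S : Subgroup G) ≤ Subgroup.normalizer (A : Set G)} = relL (S : Subgroup G) :=
      relStep_relLs (S : Subgroup G)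
    rwa [e] at h
  -- Step E
  set Cc := (pCore p (G ⧸ CY)).comap (QuotientGroup.mk' CY) with hCc
  haveI hCcn : Cc.Normal := (Cfsg.Agent.Lib.Helper30.pCore_normal p (G ⧸ CY)).comap _
  have hLCc : relL (S : Subgroup G) ≤ Cc := Subgroup.map_le_iff_le_comap.mp hD
  have hCYCc : CY ≤ Cc := by
    intro x hx
    rw [hCc, Subgroup.mem_comap]
    have : QuotientGroup.mk' CY x = 1 := (QuotientGroup.eq_one_iff x).mpr hx
    rw [this]; exact one_mem _
  obtain ⟨j, hj⟩ : ∃ j, CY.relIndex Cc = p ^ j := by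
    obtain ⟨j, hj⟩ := IsPGroup.iff_card.mp
      (Cfsg.Agent.Lib.Helper30.pCore_isPGroup (G := G ⧸ CY) p)
    refine ⟨j, ?_⟩
    have e1 : Nat.card ↥Cc = Nat.card ↥CY * Nat.card ↥(pCore p (G ⧸ CY)) :=
      Cfsg.Agent.Lib.Helper30.card_comap_mk' CY (pCore p (G ⧸ CY))
    have e2 := Cfsg.Agent.Lib.Helper30.card_eq_card_mul_relIndex hCYCc
    rw [e1, hj] at e2
    exact (Nat.eq_of_mul_eq_mul_left Nat.card_pos e2).symm
  set D := (S : Subgroup G) ⊓ Cc with hDdef
  have hDp : IsPGroup p D := hSp.to_le inf_le_left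
  have hDidx : ¬ p ∣ D.relIndex Cc := not_dvd_relIndex_inf_normal p S Cc
  have hfrat : Subgroup.normalizer (D : Set G) ⊔ Cc = ⊤ :=
    normalizer_sup_eq_top_of_relIndex p Cc D hDp inf_le_right hDidx
  have hCcle : Cc ≤ CY ⊔ D := le_sup_of_relIndex p CY Cc D hDidx j hj
  -- Step F
  have hLD : relL D = relL (S : Subgroup G) :=
    relL_eq_of_le (inf_le_left : D ≤ (S : Subgroup G)) (le_inf (relL_le _) hLCc)
  have hND : Subgroup.normalizer (D : Set G) ≤
      Subgroup.normalizer (relZ (S : Subgroup G) : Set G) := by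
    intro g hg
    have hgL : (relL (S : Subgroup G)).map (MulAut.conj g).toMonoidHom = relL (S : Subgroup G) := by
      rw [← hLD]
      exact relL_map_conj D hg
    exact Subgroup.mem_normalizer_iff_map_conj_eq.mpr (map_conj_inf_centralizer _ g hgL)
  have hCYN : CY ≤ Subgroup.normalizer (relZ (S : Subgroup G) : Set G) :=
    (Subgroup.centralizer_le hZY).trans (Subgroup.centralizer_le_normalizer _)
  have hDN : D ≤ Subgroup.normalizer (relZ (S : Subgroup G) : Set G) :=
    Subgroup.le_normalizer.trans hND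
  rw [← Subgroup.normalizer_eq_top_iff, eq_top_iff, ← hfrat]
  exact sup_le hND (hCcle.trans (sup_le hCYN hDN))

theorem map_relL {G G' : Type u} [Group G] [Group G'] (f : G →* G') {H : Subgroup G}
    (hf : Set.InjOn f (H : Set G)) : (relL H).map f = relL (H.map f) := by
  apply le_antisymm
  · unfold relL
    apply le_iInf
    intro n
    rw [← map_relSeq f hf]
    exact Subgroup.map_mono (iInf_le _ n)
  · intro y hy
    have hy' : ∀ n, y ∈ (relSeq H (2 * n + 1)).map f := by
      intro n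
      rw [map_relSeq f hf]
      unfold relL at hy
      exact (Subgroup.mem_iInf.mp hy) n
    obtain ⟨x, hx, rfl⟩ := hy' 0
    refine ⟨x, ?_, rfl⟩
    unfold relL
    apply Subgroup.mem_iInf.mpr
    intro n
    obtain ⟨x', hx', hxx'⟩ := hy' n
    have : x' = x := hf (relSeq_le H _ hx') (relSeq_le H _ hx) hxx'
    rw [← this]; exact hx'

theorem map_relZ {G G' : Type u} [Group G] [Group G'] (f : G →* G') {H : Subgroup G}
    (hf : Set.InjOn f (H : Set G)) : (relZ H).map f = relZ (H.map f) := by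
  unfold relZ
  rw [← map_relL f hf]
  ext y
  constructor
  · rintro ⟨x, ⟨hxL, hxC⟩, rfl⟩
    refine ⟨⟨x, hxL, rfl⟩, ?_⟩
    apply Subgroup.mem_centralizer_iff.mpr
    rintro _ ⟨l, hl, rfl⟩
    rw [← map_mul, ← map_mul, Subgroup.mem_centralizer_iff.mp hxC l hl]
  · rintro ⟨⟨x, hxL, rfl⟩, hC⟩
    refine ⟨x, ⟨hxL, ?_⟩, rfl⟩
    apply Subgroup.mem_centralizer_iff.mpr
    intro l hl
    apply hf (H.mul_mem (relL_le H hl) (relL_le H hxL)) (H.mul_mem (relL_le H hxL) (relL_le H hl))
    rw [map_mul, map_mul]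
    exact Subgroup.mem_centralizer_iff.mp hC (f l) ⟨l, hl, rfl⟩

/-- B&G Theorem B.4 (first part), relative form: `G = O_{p'}(G) N_G(Z(L(S)))`. -/
theorem puig_factorization {G : Type u} [Group G] [Finite G] [Group.IsSolvable G]
    (hodd : Odd (Nat.card G)) (p : ℕ) [Fact p.Prime] (hp : p ≠ 2) (S : Sylow p G) :
    pPrimeCore p G ⊔ Subgroup.normalizer (relZ (S : Subgroup G) : Set G) = ⊤ := by
  set K := pPrimeCore p G with hK
  set π := QuotientGroup.mk' K with hπ
  have hπs : Function.Surjective π := QuotientGroup.mk'_surjective K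
  have hoddq : Odd (Nat.card (G ⧸ K)) :=
    Odd.of_dvd_nat hodd (Subgroup.card_quotient_dvd_card K)
  have hbotq : pPrimeCore p (G ⧸ K) = ⊥ := Cfsg.Agent.Lib.Helper30.pPrimeCore_quotient_eq_bot p
  have hKc : (Nat.card K).Coprime p := Cfsg.Agent.Lib.Helper30.pPrimeCore_coprime p
  have hKS : K ⊓ (S : Subgroup G) = ⊥ := by
    apply Subgroup.inf_eq_bot_of_coprime
    obtain ⟨k, hk⟩ := IsPGroup.iff_card.mp S.isPGroup'
    rw [hk]
    exact Nat.Coprime.pow_right k hKc
  have hinj : Set.InjOn π ((S : Subgroup G) : Set G) := by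
    intro a ha b hb hab
    have h1 : a⁻¹ * b ∈ K := QuotientGroup.eq.mp hab
    have h2 : a⁻¹ * b ∈ (S : Subgroup G) := (S : Subgroup G).mul_mem ((S : Subgroup G).inv_mem ha) hb
    have h3 : a⁻¹ * b ∈ K ⊓ (S : Subgroup G) := ⟨h1, h2⟩
    rw [hKS, Subgroup.mem_bot] at h3
    exact inv_mul_eq_one.mp h3
  have hZbar := relZ_normal hoddq p hp hbotq (S.mapSurjective hπs)
  rw [Sylow.coe_mapSurjective, ← map_relZ π hinj] at hZbar
  set Z := relZ (S : Subgroup G) with hZ
  have hNeq : (Z.map π).comap π = Z ⊔ K := by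
    rw [Subgroup.comap_map_eq, hπ, QuotientGroup.ker_mk']
  haveI hNn : (Z ⊔ K).Normal := by
    rw [← hNeq]
    exact hZbar.comap π
  have hZp : IsPGroup p Z := S.isPGroup'.to_le (inf_le_left.trans (relL_le _))
  have hidx : ¬ p ∣ Z.relIndex (Z ⊔ K) := by
    rw [← relIndex_normal_eq]
    intro hdvd
    have h1 : p ∣ Nat.card K := dvd_trans hdvd (Subgroup.relIndex_dvd_card Z K)
    exact (Nat.Prime.coprime_iff_not_dvd Fact.out).mp hKc.symm h1
  have hfrat := normalizer_sup_eq_top_of_relIndex p (Z ⊔ K) Z hZp le_sup_left hidx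
  rw [eq_top_iff, ← hfrat]
  exact sup_le le_sup_right (sup_le (Subgroup.le_normalizer.trans le_sup_right) le_sup_left)

end Cfsg.Agent.Lib.Helper34
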