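import Mathlib
import Cfsg.Agent.Lib.Helper34.Rank2e
import Cfsg.Agent.Lib.Helper34.Puig3

set_option autoImplicit false

namespace Cfsg.Agent.Lib.Helper34

open Cfsg

universe u v

section

variable {G : Type u} [Group G] [Finite G]

theorem commute_of_mem_centralizer_pCore (q : ℕ) (g h : G)
    (hg : g ∈ Subgroup.centralizer (pCore q G : Set G)) (hh : h ∈ pCore q G) : h * g = g * h :=
  Subgroup.mem_centralizer_iff.mp hg h hh

/-- **B&G 4.20(a).** In a solvable group of odd order all of whose `O_q(G)` have rank at most 2,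
the derived subgroup lies in the Fitting subgroup. -/
theorem rank2_commutator_le_fitting [Group.IsSolvable G] (hodd : Odd (Nat.card G))
    (hr : ∀ q : ℕ, q.Prime → PRankLE q 2 ↥(pCore q G)) :
    commutator G ≤ fittingSubgroup G := by
  apply le_of_primary_mem
  intro r hrp x hxD k hk
  haveI : Fact r.Prime := ⟨hrp⟩
  set 𝒳 : Set G := {y | y ∈ commutator G ∧ ∃ k : ℕ, y ^ (r ^ k) = 1} with h𝒳
  have hXD : Subgroup.closure 𝒳 ≤ commutator G := by
    rw [Subgroup.closure_le]
    intro y hy
    exact hy.1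
  have hXn : (Subgroup.closure 𝒳).Normal := by
    apply closure_normal_of_conj_mem
    rintro g y ⟨hy1, j, hj⟩
    refine ⟨?_, j, ?_⟩
    · have hn : (commutator G).Normal := inferInstance
      exact hn.conj_mem y hy1 g
    · have e : (g * y * g⁻¹) ^ (r ^ j) = g * y ^ (r ^ j) * g⁻¹ := by
        rw [conj_pow]
      rw [e, hj]; group
  -- X centralizes O_q(G) for q ≠ r
  have hXC : ∀ q : ℕ, q.Prime → q ≠ r →
      Subgroup.closure 𝒳 ≤ Subgroup.centralizer (pCore q G : Set G) := by
    intro q hq hqr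
    haveI : Fact q.Prime := ⟨hq⟩
    rw [Subgroup.closure_le]
    rintro y ⟨hy1, j, hj⟩
    obtain ⟨i, hi⟩ := rank2_commutator_pow_mem_centralizer hodd q (hr q hq) y hy1
    exact mem_of_pow_mem_of_coprime' _ y (q ^ i) (r ^ j)
      (Nat.Coprime.pow _ _ ((Nat.coprime_primes hq hrp).mpr hqr)) hi hj
  -- the key centrality statement
  have hcentral : ∀ t : ℕ, t.Prime → t ≠ r → ∀ m ∈ Subgroup.closure 𝒳, ∀ k : ℕ,
      m ^ (t ^ k) = 1 → ∀ y ∈ Subgroup.closure 𝒳, y * m = m * y := by
    intro t ht htr m hm k hmk y hy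
    haveI : Fact t.Prime := ⟨ht⟩
    have hmr : m ∈ Subgroup.centralizer (pCore r G : Set G) := by
      obtain ⟨i, hi⟩ := rank2_commutator_pow_mem_centralizer hodd r (hr r hrp) m (hXD hm)
      exact mem_of_pow_mem_of_coprime' _ m (r ^ i) (t ^ k)
        (Nat.Coprime.pow _ _ ((Nat.coprime_primes hrp ht).mpr (Ne.symm htr))) hi hmk
    have hmF : fittingSubgroup G ≤ Subgroup.centralizer ({m} : Set G) := by
      apply le_of_primary_mem
      intro q hq f hf j hj
      haveI : Fact q.Prime := ⟨hq⟩
      have hfq : f ∈ pCore q G := mem_pCore_of_mem_fitting q f hf j hj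
      apply Subgroup.mem_centralizer_iff.mpr
      intro z hz
      rw [Set.mem_singleton_iff] at hz
      subst hz
      by_cases hqr : q = r
      · subst hqr
        exact (commute_of_mem_centralizer_pCore q z f hmr hfq).symm
      · exact (commute_of_mem_centralizer_pCore q z f (hXC q hq hqr hm) hfq).symm
    have hmF' : m ∈ fittingSubgroup G := by
      apply solv_centralizer_fitting_le
      apply Subgroup.mem_centralizer_iff.mpr
      intro f hf
      exact (Subgroup.mem_centralizer_iff.mp (hmF hf) m rfl).symm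
    have hmt : m ∈ pCore t G := mem_pCore_of_mem_fitting t m hmF' k hmk
    exact (commute_of_mem_centralizer_pCore t y m (hXC t ht htr hy) hmt).symm
  -- X is an r-group
  have hXr : IsPGroup r ↥(Subgroup.closure 𝒳) := by
    have hall : ∀ {d : ℕ}, d.Prime → d ∣ Nat.card ↥(Subgroup.closure 𝒳) → d = r := by
      intro t ht hdvd
      by_contra htr
      haveI : Fact t.Prime := ⟨ht⟩
      refine not_dvd_card_of_central_of_closure (M := ↥(Subgroup.closure 𝒳)) t ?_
        (((↑) : Subgroup.closure 𝒳 → G) ⁻¹' 𝒳) Subgroup.closure_closure_coe_preimage ?_ hdvd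
      · intro m k hmk
        rw [Subgroup.mem_center_iff]
        intro y
        apply Subtype.ext
        have hmk' : (m : G) ^ (t ^ k) = 1 := by simpa using congrArg Subtype.val hmk
        exact hcentral t ht htr m m.2 k hmk' y y.2
      · rintro ⟨y, hy⟩ ⟨hy1, j, hj⟩ hdvd'
        have h1 : orderOf y ∣ r ^ j := orderOf_dvd_of_pow_eq_one hj
        rw [Subgroup.orderOf_mk] at hdvd'
        have h2 : t ∣ r ^ j := dvd_trans hdvd' h1
        exact htr ((Nat.prime_dvd_prime_iff_eq ht hrp).mp (ht.dvd_of_dvd_pow h2))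
    exact IsPGroup.of_card (Nat.eq_prime_pow_of_unique_prime_dvd Nat.card_pos.ne' hall)
  have hxX : x ∈ Subgroup.closure 𝒳 := Subgroup.subset_closure ⟨hxD, k, hk⟩
  have h1 : Subgroup.closure 𝒳 ≤ pCore r G := Helper30.le_pCore_of_normal hXn hXr
  have h2 : pCore r G ≤ fittingSubgroup G :=
    le_sSup ⟨Helper30.pCore_normal r G, (Helper30.pCore_isPGroup r).isNilpotent⟩
  exact h2 (h1 hxX)

/-- **B&G 4.20(c).** Sylow tower: a characteristic Hall subgroup for the primes `> p`. -/
theorem rank2_hall_tower [Group.IsSolvable G] (hodd : Odd (Nat.card G))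
    (hr : ∀ q : ℕ, q.Prime → PRankLE q 2 ↥(pCore q G)) (p : ℕ) :
    ∃ N : Subgroup G, N.Characteristic ∧ IsPiHall {q | q.Prime ∧ p < q} N := by
  have hDF : commutator G ≤ fittingSubgroup G := rank2_commutator_le_fitting hodd hr
  set 𝒴 : Set G := {x | ∃ s : ℕ, s.Prime ∧ p < s ∧ ∃ k : ℕ, x ^ (s ^ k) = 1} with h𝒴
  have hMC : ∀ q : ℕ, q.Prime → q ≤ p →
      Subgroup.closure 𝒴 ≤ Subgroup.centralizer (pCore q G : Set G) := by
    intro q hq hqp
    haveI : Fact q.Prime := ⟨hq⟩
    rw [Subgroup.closure_le]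
    rintro y ⟨s, hs, hps, j, hj⟩
    exact rank2_mem_centralizer_of_large_prime hodd q (hr q hq) s hs (lt_of_le_of_lt hqp hps) y j hj
  have hcard0 : Nat.card G ≠ 0 := Nat.card_pos.ne'
  have hcentral : ∀ t : ℕ, t.Prime → t ≤ p → ∀ m ∈ Subgroup.closure 𝒴, ∀ k : ℕ,
      m ^ (t ^ k) = 1 → ∀ y ∈ Subgroup.closure 𝒴, y * m = m * y := by
    intro t ht htp m hm k hmk y hy
    haveI : Fact t.Prime := ⟨ht⟩
    -- m lies in F(G)
    have hmF : m ∈ fittingSubgroup G := by
      let σ : G →* Abelianization G :=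
        (powMonoidHom (Nat.card G / t ^ (Nat.card G).factorization t)).comp Abelianization.of
      have hMσ : Subgroup.closure 𝒴 ≤ σ.ker := by
        rw [Subgroup.closure_le]
        rintro y ⟨s, hs, hps, j, hj⟩
        have h1 : orderOf y ∣ s ^ j := orderOf_dvd_of_pow_eq_one hj
        have h2 : ¬ t ∣ orderOf y := by
          intro h
          have h3 : t ∣ s ^ j := dvd_trans h h1
          have h4 := (Nat.prime_dvd_prime_iff_eq ht hs).mp (ht.dvd_of_dvd_pow h3)
          omega
        have h5 : orderOf y ∣ Nat.card G / t ^ (Nat.card G).factorization t :=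
          Nat.dvd_ordCompl_of_dvd_not_dvd (orderOf_dvd_natCard y) h2
        show σ y = 1
        show (Abelianization.of y) ^ (Nat.card G / t ^ (Nat.card G).factorization t) = 1
        rw [← map_pow, orderOf_dvd_iff_pow_eq_one.mp h5, map_one]
      have h6 : σ m = 1 := hMσ hm
      have h7 : m ^ (Nat.card G / t ^ (Nat.card G).factorization t) ∈ commutator G := by
        rw [← Abelianization.ker_of, MonoidHom.mem_ker, map_pow]
        exact h6
      exact mem_of_pow_mem_of_coprime' _ m _ (t ^ k)
        (Nat.Coprime.pow_right k (Nat.coprime_ordCompl ht hcard0).symm) (hDF h7) hmk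
    have hmt : m ∈ pCore t G := mem_pCore_of_mem_fitting t m hmF k hmk
    exact (commute_of_mem_centralizer_pCore t y m (hMC t ht htp hy) hmt).symm
  have hnot : ∀ t : ℕ, t.Prime → t ≤ p → ¬ t ∣ Nat.card ↥(Subgroup.closure 𝒴) := by
    intro t ht htp
    haveI : Fact t.Prime := ⟨ht⟩
    refine not_dvd_card_of_central_of_closure (M := ↥(Subgroup.closure 𝒴)) t ?_
      (((↑) : Subgroup.closure 𝒴 → G) ⁻¹' 𝒴) Subgroup.closure_closure_coe_preimage ?_
    · intro m k hmk
      rw [Subgroup.mem_center_iff]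
      intro y
      apply Subtype.ext
      have hmk' : (m : G) ^ (t ^ k) = 1 := by simpa using congrArg Subtype.val hmk
      exact hcentral t ht htp m m.2 k hmk' y y.2
    · rintro ⟨y, hy⟩ ⟨s, hs, hps, j, hj⟩ hdvd'
      have h1 : orderOf y ∣ s ^ j := orderOf_dvd_of_pow_eq_one hj
      rw [Subgroup.orderOf_mk] at hdvd'
      have h2 : t ∣ s ^ j := dvd_trans hdvd' h1
      have h4 := (Nat.prime_dvd_prime_iff_eq ht hs).mp (ht.dvd_of_dvd_pow h2)
      omega
  refine ⟨Subgroup.closure 𝒴, ?_, ?_, ?_⟩
  · rw [Subgroup.characteristic_iff_le_comap]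
    intro φ
    rw [Subgroup.closure_le]
    rintro y ⟨s, hs, hps, j, hj⟩
    apply Subgroup.subset_closure
    refine ⟨s, hs, hps, j, ?_⟩
    show (φ y) ^ (s ^ j) = 1
    rw [← map_pow, hj, map_one]
  · intro q hq hdvd
    refine ⟨hq, ?_⟩
    by_contra hle
    exact hnot q hq (not_lt.mp hle) hdvd
  · rintro q hq ⟨-, hpq⟩ hdvd
    haveI : Fact q.Prime := ⟨hq⟩
    let Q : Sylow q G := default
    have hQM : (Q : Subgroup G) ≤ Subgroup.closure 𝒴 := by
      intro x hx
      apply Subgroup.subset_closure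
      obtain ⟨k, hk⟩ := Q.isPGroup' ⟨x, hx⟩
      exact ⟨q, hq, hpq, k, by simpa using congrArg Subtype.val hk⟩
    exact Q.not_dvd_index (dvd_trans hdvd (Subgroup.index_dvd_of_le hQM))

/-- **B&G 4.20(b).** Characteristic subgroups of a Sylow subgroup `S` inside `S'` are normal. -/
theorem rank2_char_normal [Group.IsSolvable G] (hodd : Odd (Nat.card G))
    (hr : ∀ q : ℕ, q.Prime → PRankLE q 2 ↥(pCore q G)) (q : ℕ) [Fact q.Prime] (S : Sylow q G)
    (T : Subgroup ↥(S : Subgroup G)) (hT : T.Characteristic)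
    (hTS : T.map (S : Subgroup G).subtype ≤ ⁅(S : Subgroup G), (S : Subgroup G)⁆) :
    (T.map (S : Subgroup G).subtype).Normal := by
  have hq : q.Prime := Fact.out
  have hDF : commutator G ≤ fittingSubgroup G := rank2_commutator_le_fitting hodd hr
  haveI hQn : (pCore q G).Normal := Helper30.pCore_normal q G
  have hTQ : T.map (S : Subgroup G).subtype ≤ pCore q G := by
    intro x hx
    have h1 : x ∈ commutator G := by
      rw [commutator_def]
      exact Subgroup.commutator_mono le_top le_top (hTS hx)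
    obtain ⟨t, -, rfl⟩ := hx
    obtain ⟨k, hk⟩ := S.isPGroup' t
    exact mem_pCore_of_mem_fitting q _ (hDF h1) k (by simpa using congrArg Subtype.val hk)
  haveI hSFn : ((S : Subgroup G) ⊔ fittingSubgroup G).Normal :=
    Subgroup.Normal.of_commutator_le _ (le_trans hDF le_sup_right)
  have hrel : ¬ q ∣ (S : Subgroup G).relIndex ((S : Subgroup G) ⊔ fittingSubgroup G) := by
    intro h
    apply S.not_dvd_index
    rw [← Subgroup.relIndex_mul_index (le_sup_left : (S : Subgroup G) ≤ _)]
    exact dvd_mul_of_dvd_left h _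
  have hFr := normalizer_sup_eq_top_of_relIndex q ((S : Subgroup G) ⊔ fittingSubgroup G)
    (S : Subgroup G) S.isPGroup' le_sup_left hrel
  -- the normalizer of S normalizes T
  have hNS : Subgroup.normalizer ((S : Subgroup G) : Set G) ≤
      Subgroup.normalizer ((T.map (S : Subgroup G).subtype : Subgroup G) : Set G) := by
    intro n hn
    have hfwd : ∀ n' : G, n' ∈ Subgroup.normalizer ((S : Subgroup G) : Set G) →
        ∀ h ∈ T.map (S : Subgroup G).subtype, n' * h * n'⁻¹ ∈ T.map (S : Subgroup G).subtype := by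
      intro n' hn' h hh
      obtain ⟨t, ht, rfl⟩ := hh
      refine ⟨conjAut (S : Subgroup G) (Subgroup.normalizer ((S : Subgroup G) : Set G)) le_rfl
        ⟨n', hn'⟩ t, mem_of_char hT _ ht, ?_⟩
      exact conjAut_apply (S : Subgroup G) (Subgroup.normalizer ((S : Subgroup G) : Set G)) le_rfl
        ⟨n', hn'⟩ t
    rw [Subgroup.mem_normalizer_iff]
    intro h
    constructor
    · exact hfwd n hn h
    · intro hh
      have h1 := hfwd n⁻¹ (Subgroup.inv_mem _ hn) _ hh
      have e : n⁻¹ * (n * h * n⁻¹) * n⁻¹⁻¹ = h := by group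
      rwa [e] at h1
  have hF : fittingSubgroup G ≤
      Subgroup.normalizer ((T.map (S : Subgroup G).subtype : Subgroup G) : Set G) := by
    apply le_of_primary_mem
    intro r hrp f hf k hk
    haveI : Fact r.Prime := ⟨hrp⟩
    have hfr : f ∈ pCore r G := mem_pCore_of_mem_fitting r f hf k hk
    by_cases hrq : r = q
    · subst hrq
      apply hNS
      apply Subgroup.le_normalizer
      exact IsPGroup.le_sylow_of_normal (Helper30.pCore_isPGroup r) S hfr
    · apply Subgroup.centralizer_le_normalizer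
      apply Subgroup.mem_centralizer_iff.mpr
      intro h hh
      have hdis : Disjoint (pCore r G) (pCore q G) :=
        IsPGroup.disjoint_of_ne r q hrq _ _ (Helper30.pCore_isPGroup r) (Helper30.pCore_isPGroup q)
      exact (Subgroup.commute_of_normal_of_disjoint _ _ (Helper30.pCore_normal r G) hQn hdis
        f h hfr (hTQ hh)).eq.symm
  rw [← Subgroup.normalizer_eq_top_iff, eq_top_iff, ← hFr]
  exact sup_le hNS (sup_le (le_trans Subgroup.le_normalizer hNS) hF)

end

end Cfsg.Agent.Lib.Helper34
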