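import Mathlib
import Cfsg.Agent.Lib.Helper34.Narrow4
import Cfsg.Agent.Lib.Helper34.Rank2f
import Cfsg.Agent.Lib.Helper26.OddPCyclic
import Cfsg.Agent.Lib.Helper41.CritSub

/-!
# Narrow p-groups, part 5 (helper34)

* `commutator_le_fitting_of_pow` : `G' ≤ F(G)` from "`G'` acts on each `O_q(G)` as a `q`-group"
* `card_eq_mul_of_le_of_ne_top`
* `narrow_of_centralizer_rank` : a `p`-group (`p` odd) of rank at least 3 with an elementary
  abelian subgroup whose centralizer has rank at most 2 is narrow.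
-/

set_option autoImplicit false

namespace Cfsg.Agent.Lib.Helper34

open Cfsg

section narrow5

universe u

theorem commutator_le_fitting_of_pow {G : Type u} [Group G] [Finite G] [Group.IsSolvable G]
    (hpow : ∀ q : ℕ, q.Prime → ∀ g ∈ commutator G,
      ∃ k : ℕ, g ^ (q ^ k) ∈ Subgroup.centralizer (pCore q G : Set G)) :
    commutator G ≤ fittingSubgroup G := by
  apply le_of_primary_mem
  intro r hrp x hxD k hk
  haveI : Fact r.Prime := ⟨hrp⟩
  set 𝒳 : Set G := {y | y ∈ commutator G ∧ ∃ k : ℕ, y ^ (r ^ k) = 1} with h𝒳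
  have hXD : Subgroup.closure 𝒳 ≤ commutator G := by
    rw [Subgroup.closure_le]
    intro y hy
    exact hy.1
  have hXn : (Subgroup.closure 𝒳).Normal := by
    apply closure_normal_of_conj_mem
    rintro g y ⟨hy1, j, hj⟩
    refine ⟨?_, j, ?_⟩
    · have hn : (commutator G).Normal := inferInstance
      exact hn.conj_mem y hy1 g
    · have e : (g * y * g⁻¹) ^ (r ^ j) = g * y ^ (r ^ j) * g⁻¹ := by
        rw [conj_pow]
      rw [e, hj]; group
  have hXC : ∀ q : ℕ, q.Prime → q ≠ r →
      Subgroup.closure 𝒳 ≤ Subgroup.centralizer (pCore q G : Set G) := by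
    intro q hq hqr
    haveI : Fact q.Prime := ⟨hq⟩
    rw [Subgroup.closure_le]
    rintro y ⟨hy1, j, hj⟩
    obtain ⟨i, hi⟩ := hpow q hq y hy1
    exact mem_of_pow_mem_of_coprime' _ y (q ^ i) (r ^ j)
      (Nat.Coprime.pow _ _ ((Nat.coprime_primes hq hrp).mpr hqr)) hi hj
  have hcentral : ∀ t : ℕ, t.Prime → t ≠ r → ∀ m ∈ Subgroup.closure 𝒳, ∀ k : ℕ,
      m ^ (t ^ k) = 1 → ∀ y ∈ Subgroup.closure 𝒳, y * m = m * y := by
    intro t ht htr m hm k hmk y hy
    haveI : Fact t.Prime := ⟨ht⟩
    have hmr : m ∈ Subgroup.centralizer (pCore r G : Set G) := by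
      obtain ⟨i, hi⟩ := hpow r hrp m (hXD hm)
      exact mem_of_pow_mem_of_coprime' _ m (r ^ i) (t ^ k)
        (Nat.Coprime.pow _ _ ((Nat.coprime_primes hrp ht).mpr (Ne.symm htr))) hi hmk
    have hmF : fittingSubgroup G ≤ Subgroup.centralizer ({m} : Set G) := by
      apply le_of_primary_mem
      intro q hq f hf j hj
      haveI : Fact q.Prime := ⟨hq⟩
      have hfq : f ∈ pCore q G := mem_pCore_of_mem_fitting q f hf j hj
      apply Subgroup.mem_centralizer_iff.mpr
      intro z hz
      rw [Set.mem_singleton_iff] at hz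
      subst hz
      by_cases hqr : q = r
      · subst hqr
        exact (commute_of_mem_centralizer_pCore q z f hmr hfq).symm
      · exact (commute_of_mem_centralizer_pCore q z f (hXC q hq hqr hm) hfq).symm
    have hmF' : m ∈ fittingSubgroup G := by
      apply solv_centralizer_fitting_le
      apply Subgroup.mem_centralizer_iff.mpr
      intro f hf
      exact (Subgroup.mem_centralizer_iff.mp (hmF hf) m rfl).symm
    have hmt : m ∈ pCore t G := mem_pCore_of_mem_fitting t m hmF' k hmk
    exact (commute_of_mem_centralizer_pCore t y m (hXC t ht htr hy) hmt).symm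
  have hXr : IsPGroup r ↥(Subgroup.closure 𝒳) := by
    have hall : ∀ {d : ℕ}, d.Prime → d ∣ Nat.card ↥(Subgroup.closure 𝒳) → d = r := by
      intro t ht hdvd
      by_contra htr
      haveI : Fact t.Prime := ⟨ht⟩
      refine not_dvd_card_of_central_of_closure (M := ↥(Subgroup.closure 𝒳)) t ?_
        (((↑) : Subgroup.closure 𝒳 → G) ⁻¹' 𝒳) Subgroup.closure_closure_coe_preimage ?_ hdvd
      · intro m k hmk
        rw [Subgroup.mem_center_iff]
        intro y
        apply Subtype.ext
        have hmk' : (m : G) ^ (t ^ k) = 1 := by simpa using congrArg Subtype.val hmk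
        exact hcentral t ht htr m m.2 k hmk' y y.2
      · rintro ⟨y, hy⟩ ⟨hy1, j, hj⟩ hdvd'
        have h1 : orderOf y ∣ r ^ j := orderOf_dvd_of_pow_eq_one hj
        rw [Subgroup.orderOf_mk] at hdvd'
        have h2 : t ∣ r ^ j := dvd_trans hdvd' h1
        exact htr ((Nat.prime_dvd_prime_iff_eq ht hrp).mp (ht.dvd_of_dvd_pow h2))
    exact IsPGroup.of_card (Nat.eq_prime_pow_of_unique_prime_dvd Nat.card_pos.ne' hall)
  have hxX : x ∈ Subgroup.closure 𝒳 := Subgroup.subset_closure ⟨hxD, k, hk⟩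
  have h1 : Subgroup.closure 𝒳 ≤ pCore r G := Helper30.le_pCore_of_normal hXn hXr
  have h2 : pCore r G ≤ fittingSubgroup G :=
    le_sSup ⟨Helper30.pCore_normal r G, (Helper30.pCore_isPGroup r).isNilpotent⟩
  exact h2 (h1 hxX)

theorem card_eq_mul_of_le_of_ne_top {P : Type*} [Group P] [Finite P] {p : ℕ} [Fact p.Prime]
    (hP : IsPGroup p P) (S : Subgroup P) (hle : Nat.card P ≤ p * Nat.card S) (hne : S ≠ ⊤) :
    Nat.card P = p * Nat.card S := by
  have hp := (Fact.out : p.Prime)
  have h3 := Subgroup.card_mul_index S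
  have hidx1 : S.index ≠ 1 := by
    intro h
    rw [Subgroup.index_eq_one] at h
    exact hne h
  have hidxp : S.index ≤ p := by
    rw [← h3, mul_comm p] at hle
    exact Nat.le_of_mul_le_mul_left hle Nat.card_pos
  have hidxdvd : S.index ∣ Nat.card P := Subgroup.index_dvd_card _
  obtain ⟨n, hn'⟩ := IsPGroup.iff_card.mp hP
  rw [hn'] at hidxdvd
  obtain ⟨j, hj, hjeq⟩ := (Nat.dvd_prime_pow hp).mp hidxdvd
  have h4 : S.index = p := by
    rcases Nat.eq_zero_or_pos j with h0' | hpos
    · rw [h0', pow_zero] at hjeq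
      exact absurd hjeq hidx1
    · have h5 : p ≤ S.index := by
        rw [hjeq]
        calc p = p ^ 1 := (pow_one p).symm
          _ ≤ p ^ j := Nat.pow_le_pow_right hp.pos hpos
      omega
  rw [← h3, h4, mul_comm]

/-- a `p`-group of rank at least 3 (`p` odd) having an elementary abelian subgroup whose
centralizer has rank at most 2 is narrow -/
theorem narrow_of_centralizer_rank {P : Type u} [Group P] [Finite P] {p : ℕ} [Fact p.Prime]
    (hp2 : p ≠ 2) (hP : IsPGroup p P) (hn : ¬ PRankLE p 2 P) (E : Subgroup P)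
    (hE : IsElementaryAbelian p E)
    (hrC : PRankLE p 2 ↥(Subgroup.centralizer (E : Set P))) : IsNarrow p P := by
  classical
  have hp := (Fact.out : p.Prime)
  obtain ⟨M, hM⟩ := exists_maximal_of_wellFoundedGT
    (fun B : Subgroup P => IsElementaryAbelian p B ∧ E ≤ B) ⟨E, hE, le_rfl⟩
  obtain ⟨hMe, hEM⟩ := hM.prop
  have hMcomm := Cfsg.Agent.Lib.Helper31.isMulComm_iff.mp hMe.1
  have K1 : ∀ x : P, x ^ p = 1 → (∀ m ∈ M, x * m = m * x) → x ∈ M := by
    intro x hx hxm
    have hB : IsElementaryAbelian p (M ⊔ Subgroup.zpowers x) :=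
      Cfsg.Agent.Lib.Helper31.elemAb_sup hMe (Cfsg.Agent.Lib.Helper31.elemAb_zpowers hx) (by
        rintro a ha b ⟨i, rfl⟩
        exact ((Commute.zpow_right (show Commute a x from (hxm a ha).symm) i)).eq)
    have hle := hM.le_of_ge ⟨hB, hEM.trans le_sup_left⟩ le_sup_left
    exact hle (Subgroup.mem_sup_right (Subgroup.mem_zpowers x))
  have K2 : Nat.card M ≤ p ^ 2 := by
    by_contra hlt
    push Not at hlt
    have hMC : M ≤ Subgroup.centralizer (E : Set P) := by
      intro m hm
      rw [Subgroup.mem_centralizer_iff]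
      intro e he
      exact hMcomm e (hEM he) m hm
    exact Cfsg.Agent.Lib.Helper31.not_pRankLE_of_le hMC hMe hlt hrC
  obtain ⟨s, hsM, hsZ⟩ : ∃ s ∈ M, s ∉ Subgroup.center P := by
    by_contra hcon
    push Not at hcon
    apply hn
    intro A hAc hAp
    have hAM : A ≤ M := by
      intro a ha
      apply K1 a (hAp a ha)
      intro m hm
      exact Subgroup.mem_center_iff.mp (hcon m hm) a
    exact (Subgroup.card_le_of_le hAM).trans K2
  have hsp : s ^ p = 1 := hMe.2 s hsM
  have hs1 : s ≠ 1 := fun h => hsZ (h ▸ Subgroup.one_mem _)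
  set Z := Cfsg.Agent.Lib.Helper31.omegaOne p (Subgroup.center P) inferInstance with hZdef
  have hZM : Z ≤ M := by
    intro z hz
    apply K1 z hz.2
    intro m hm
    exact (Subgroup.mem_center_iff.mp hz.1 m).symm
  have hsZ' : s ∉ Z := fun h => hsZ h.1
  -- T
  obtain ⟨E₃, hE₃, hE₃c⟩ := Cfsg.Agent.Lib.Helper31.exists_of_not_pRankLE_top hn
  obtain ⟨N₀, hN₀n, hN₀e, hN₀c⟩ := Cfsg.Agent.Lib.Helper31.exists_normal_elemAb_sq hP hE₃ hE₃c
  haveI := hN₀n
  obtain ⟨T, hTN₀, hTn, hTc⟩ := Cfsg.Agent.Lib.Helper31.exists_normal_le_card_eq hP (N := N₀)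
    (k := 2) hN₀c
  have hTe : IsElementaryAbelian p T := Cfsg.Agent.Lib.Helper31.elemAb_of_le hTN₀ hN₀e
  haveI := hTn
  have hTne : T ≠ ⊥ := by
    intro h
    rw [h, Subgroup.card_bot] at hTc
    have h1 : 1 < p ^ 2 := Nat.one_lt_pow (by norm_num) hp.one_lt
    omega
  have hTZ := Cfsg.Agent.Lib.Helper41.normal_inf_center_ne_bot p hP T hTne
  have hTZle : T ⊓ Subgroup.center P ≤ Z := fun x hx => ⟨hx.2, hTe.2 x hx.1⟩
  have hZne : Z ≠ ⊥ := fun h => hTZ (le_bot_iff.mp (h ▸ hTZle))
  obtain ⟨a, ha⟩ := IsPGroup.iff_card.mp (hP.to_subgroup Z)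
  obtain ⟨b, hb⟩ := IsPGroup.iff_card.mp (hP.to_subgroup M)
  have hZltM : Nat.card Z < Nat.card M :=
    Cfsg.Agent.Lib.Helper31.card_lt_card_of_lt (lt_of_le_of_ne hZM (fun h => hsZ' (h ▸ hsM)))
  have hab : a = 1 ∧ b = 2 := by
    have hb2 : b ≤ 2 := by
      rw [hb] at K2
      exact (Nat.pow_le_pow_iff_right hp.one_lt).mp K2
    have hab : a < b := by
      rw [ha, hb] at hZltM
      exact (Nat.pow_lt_pow_iff_right hp.one_lt).mp hZltM
    have ha0 : a ≠ 0 := by
      rintro rfl
      rw [pow_zero] at ha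
      exact hZne (Subgroup.eq_bot_of_card_eq Z ha)
    omega
  have hZc : Nat.card Z = p := by rw [ha, hab.1, pow_one]
  have hMc2 : Nat.card M = p ^ 2 := by rw [hb, hab.2]
  have hMc : Nat.card M = p * Nat.card Z := by rw [hMc2, hZc, sq]
  have P1 : ∀ x : P, x ^ p = 1 → x * s = s * x → x ∈ M := by
    intro x hx hxs
    apply K1 x hx
    have hD : M ⊓ Subgroup.centralizer ({x} : Set P) = M := by
      rcases eq_or_eq_of_prime_index hp (K := Z) (D := M ⊓ Subgroup.centralizer ({x} : Set P))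
        (N := M) (le_inf hZM (by
          intro z hz
          rw [Subgroup.mem_centralizer_iff]
          intro y hy
          rw [Set.mem_singleton_iff] at hy
          subst hy
          exact Subgroup.mem_center_iff.mp hz.1 y)) inf_le_left hMc with h | h
      · exfalso
        apply hsZ'
        rw [← h]
        refine ⟨hsM, ?_⟩
        show s ∈ Subgroup.centralizer ({x} : Set P)
        rw [Subgroup.mem_centralizer_iff]
        intro y hy
        rw [Set.mem_singleton_iff] at hy
        subst hy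
        exact hxs
      · exact h
    intro m hm
    have hm' : m ∈ M ⊓ Subgroup.centralizer ({x} : Set P) := by rw [hD]; exact hm
    exact Subgroup.mem_centralizer_iff.mp hm'.2 x rfl
  have hZT : Z ≤ T := by
    rcases eq_or_eq_of_prime_index hp (K := ⊥) (D := T ⊓ Subgroup.center P) (N := Z) bot_le
      hTZle (by rw [hZc, Subgroup.card_bot, mul_one]) with h | h
    · exact absurd h hTZ
    · rw [← h]; exact inf_le_left
  have hTS₀ : T ≤ Subgroup.centralizer (T : Set P) := by
    intro t ht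
    rw [Subgroup.mem_centralizer_iff]
    intro t' ht'
    exact Cfsg.Agent.Lib.Helper31.isMulComm_iff.mp hTe.1 t' ht' t ht
  have hPS₀ : Nat.card P ≤ p * Nat.card ↥(Subgroup.centralizer (T : Set P)) := by
    have h2 := Cfsg.Agent.Lib.Helper31.card_le_mul_card_inf_centralizer hP hTc (⊤ : Subgroup P)
    rwa [Subgroup.card_top, top_inf_eq] at h2
  have hsS₀ : s ∉ Subgroup.centralizer (T : Set P) := by
    intro hsS
    have hTM : T ≤ M :=
      fun t ht => P1 t (hTe.2 t ht) (Subgroup.mem_centralizer_iff.mp hsS t ht)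
    have hTM' : T = M := Subgroup.eq_of_le_of_card_ge hTM (by rw [hTc, hMc2])
    have hsT : s ∈ T := by rw [hTM']; exact hsM
    have hS₀s : ∀ x ∈ Subgroup.centralizer (T : Set P), x * s = s * x :=
      fun x hx => (Subgroup.mem_centralizer_iff.mp hx s hsT).symm
    have h2 := card_le_inf_mul_of_fibers E₃ (Subgroup.centralizer (T : Set P))
      (fun e => (QuotientGroup.mk (e : P) : P ⧸ Subgroup.centralizer (T : Set P))) (by
        intro m m' h
        exact QuotientGroup.eq.mp h)
    have hidx : (Subgroup.centralizer (T : Set P)).index ≤ p := by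
      have h3 := Subgroup.card_mul_index (Subgroup.centralizer (T : Set P))
      rw [← h3, mul_comm p] at hPS₀
      exact Nat.le_of_mul_le_mul_left hPS₀ Nat.card_pos
    have h3 : Nat.card ↥E₃ ≤ Nat.card ↥(E₃ ⊓ Subgroup.centralizer (T : Set P)) * p :=
      h2.trans (Nat.mul_le_mul_left _ hidx)
    have hle : E₃ ⊓ Subgroup.centralizer (T : Set P) ≤ M :=
      fun x hx => P1 x (hE₃.2 x hx.1) (hS₀s x hx.2)
    obtain ⟨j, hj⟩ := IsPGroup.iff_card.mp
      (hP.to_subgroup (E₃ ⊓ Subgroup.centralizer (T : Set P)))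
    have hj2 : 2 ≤ j := by
      by_contra hj2
      have hj1 : j ≤ 1 := by omega
      have h4 : Nat.card ↥(E₃ ⊓ Subgroup.centralizer (T : Set P)) ≤ p := by
        rw [hj]
        calc p ^ j ≤ p ^ 1 := Nat.pow_le_pow_right hp.pos hj1
          _ = p := pow_one p
      have h5 : Nat.card ↥E₃ ≤ p * p := h3.trans (Nat.mul_le_mul_right _ h4)
      rw [sq] at hE₃c
      omega
    have heq : E₃ ⊓ Subgroup.centralizer (T : Set P) = M :=
      Subgroup.eq_of_le_of_card_ge hle
        (by rw [hMc2, hj]; exact Nat.pow_le_pow_right hp.pos hj2)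
    have hME₃ : M ≤ E₃ := by rw [← heq]; exact inf_le_left
    have hE₃M : E₃ ≤ M := fun x hx => P1 x (hE₃.2 x hx)
      (Cfsg.Agent.Lib.Helper31.isMulComm_iff.mp hE₃.1 x hx s (hME₃ hsM))
    have h6 := Subgroup.card_le_of_le hE₃M
    omega
  have hcardP : Nat.card P = p * Nat.card ↥(Subgroup.centralizer (T : Set P)) :=
    card_eq_mul_of_le_of_ne_top hP _ hPS₀ (fun h => hsS₀ (h ▸ Subgroup.mem_top s))
  have hR₀c : Nat.card (Subgroup.zpowers s) = p := by
    rw [Nat.card_zpowers]
    exact orderOf_eq_prime hsp hs1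
  have hsR₀ : s ∈ Subgroup.zpowers s := Subgroup.mem_zpowers s
  have hR₀C : Subgroup.zpowers s ≤ Subgroup.centralizer ((Subgroup.zpowers s : Subgroup P) : Set P) := by
    rintro x ⟨i, rfl⟩
    rw [Subgroup.mem_centralizer_iff]
    rintro y ⟨j, rfl⟩
    show s ^ j * s ^ i = s ^ i * s ^ j
    rw [← zpow_add, ← zpow_add, add_comm]
  have hMS₀ : M ⊓ Subgroup.centralizer (T : Set P) = Z := by
    rcases eq_or_eq_of_prime_index hp (K := Z) (D := M ⊓ Subgroup.centralizer (T : Set P))
      (N := M) (le_inf hZM (hZT.trans hTS₀)) inf_le_left hMc with h | h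
    · exact h
    · exfalso
      have h1 : s ∈ M ⊓ Subgroup.centralizer (T : Set P) := by rw [h]; exact hsM
      exact hsS₀ h1.2
  have hΩR₁ : ∀ x ∈ Subgroup.centralizer ((Subgroup.zpowers s : Subgroup P) : Set P) ⊓
      Subgroup.centralizer (T : Set P), x ^ p = 1 → x ∈ Z := by
    intro x hx hxp
    rw [← hMS₀]
    exact ⟨P1 x hxp (Subgroup.mem_centralizer_iff.mp hx.1 s hsR₀).symm, hx.2⟩
  have hcyc : IsCyclic ↥(Subgroup.centralizer ((Subgroup.zpowers s : Subgroup P) : Set P) ⊓
      Subgroup.centralizer (T : Set P)) := by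
    apply Cfsg.Agent.Lib.Helper26.isCyclic_of_odd (p := p) (hp.odd_of_ne_two hp2)
      (hP.to_subgroup _)
    intro A hA
    have hA' : IsMulCommutative ↥(A.map (Subgroup.subtype _)) :=
      Subgroup.map_isMulCommutative A _
    obtain ⟨a, ⟨a₀, ha₀, rfl⟩, hale⟩ :=
      Cfsg.Agent.Lib.Helper31.exists_gen_of_elemAb_card_le hP hA' (by
        intro W hW hWe
        have hWZ : W ≤ Z := by
          intro w hw
          obtain ⟨w₀, -, rfl⟩ := hW hw
          exact hΩR₁ _ w₀.2 (hWe.2 _ hw)
        exact (Subgroup.card_le_of_le hWZ).trans hZc.le)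
    refine ⟨⟨⟨a₀, ha₀⟩, ?_⟩⟩
    rintro ⟨x, hx⟩
    obtain ⟨k, hk⟩ := hale ⟨x, hx, rfl⟩
    refine ⟨k, ?_⟩
    apply Subtype.ext
    apply Subtype.ext
    simpa using hk
  refine Or.inr ⟨Subgroup.zpowers s, Subgroup.centralizer ((Subgroup.zpowers s : Subgroup P) : Set P) ⊓
      Subgroup.centralizer (T : Set P), hR₀c, hcyc, ?_, ?_, ?_⟩
  · exact narrow_inf_eq_bot _ hR₀c hsR₀ _ (fun h => hsS₀ h.2)
  · intro a ha b hb
    exact Subgroup.mem_centralizer_iff.mp hb.1 a ha
  · apply le_antisymm
    · exact sup_le hR₀C inf_le_left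
    · intro x hx
      have htop : Subgroup.zpowers s ⊔ Subgroup.centralizer (T : Set P) = ⊤ := by
        rcases eq_or_eq_of_prime_index hp (K := Subgroup.centralizer (T : Set P))
          (D := Subgroup.zpowers s ⊔ Subgroup.centralizer (T : Set P)) (N := ⊤) le_sup_right le_top
          (by rw [Subgroup.card_top]; exact hcardP) with h | h
        · exfalso
          apply hsS₀
          rw [← h]
          exact Subgroup.mem_sup_left hsR₀
        · exact h
      have hx' : x ∈ ((Subgroup.zpowers s ⊔ Subgroup.centralizer (T : Set P) : Subgroup P) : Set P) := by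
        rw [htop]
        exact Subgroup.mem_top x
      rw [Subgroup.mul_normal] at hx'
      obtain ⟨a, ha, y, hy, rfl⟩ := Set.mem_mul.mp hx'
      have hyC : y ∈ Subgroup.centralizer ((Subgroup.zpowers s : Subgroup P) : Set P) := by
        have e : y = a⁻¹ * (a * y) := by group
        rw [e]
        exact Subgroup.mul_mem _ (Subgroup.inv_mem _ (hR₀C ha)) hx
      exact Subgroup.mul_mem_sup ha ⟨hyC, hy⟩

end narrow5

end Cfsg.Agent.Lib.Helper34
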