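import Mathlib
import Cfsg.Prelude.Def_GeometricClasses
import Cfsg.Prelude.Def_LieClassical
import Cfsg.Agent.Lib.Helper52.GeoOmega
import Cfsg.Agent.Lib.Helper52.SiegelGeom

/-! Project O9 (helper44, S5835), piece EICH (helper34): `Ω` of a non-degenerate quadratic form
in dimension at least 5 contains an Eichler element `g ≠ 1` with `rank (g - 1) ≤ 2` and
`g ^ ringChar F = 1`. -/

set_option autoImplicit false

namespace Cfsg.Agent.Lib.Helper44.O9

open Matrix Cfsg.Geo QuadraticMap
open Cfsg.Agent.Lib.Helper52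

variable {n : ℕ} {F : Type*} [Field F] [Fintype F]

section Transport

variable {κ : Type} [Fintype κ] [DecidableEq κ]

/-- powers of an Eichler matrix -/
theorem EICH_pow (Q' : QuadraticForm F (κ → F)) (p w : κ → F) (hp : Q' p = 0)
    (hpw : polar ⇑Q' p w = 0) (k : ℕ) :
    eichMat Q' p w ^ k = eichMat Q' p ((k : F) • w) := by
  induction k with
  | zero => rw [pow_zero, Nat.cast_zero, zero_smul, eichMat_zero]
  | succ k ih =>
    rw [pow_succ, ih, eichMat_mul Q' p _ w hp (by rw [polar_smul_right, hpw, smul_zero]) hpw]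
    congr 1
    rw [Nat.cast_succ, add_smul, one_smul]

/-- an Eichler matrix minus one has rank at most two -/
theorem EICH_rank (Q' : QuadraticForm F (κ → F)) (p w : κ → F) :
    (eichMat Q' p w - 1).rank ≤ 2 := by
  have hrange : LinearMap.range (Matrix.mulVecLin (eichMat Q' p w - 1)) ≤
      Submodule.span F ({p, w} : Set (κ → F)) := by
    rintro _ ⟨x, rfl⟩
    rw [Matrix.mulVecLin_apply, Matrix.sub_mulVec, Matrix.one_mulVec, eichMat_mulVec]
    have hp' : p ∈ Submodule.span F ({p, w} : Set (κ → F)) := Submodule.subset_span (by simp)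
    have hw' : w ∈ Submodule.span F ({p, w} : Set (κ → F)) := Submodule.subset_span (by simp)
    have e : x + polar ⇑Q' w x • p - polar ⇑Q' p x • w - (Q' w * polar ⇑Q' p x) • p - x =
        (polar ⇑Q' w x - Q' w * polar ⇑Q' p x) • p + (- polar ⇑Q' p x) • w := by module
    rw [e]
    exact Submodule.add_mem _ (Submodule.smul_mem _ _ hp') (Submodule.smul_mem _ _ hw')
  calc (eichMat Q' p w - 1).rank
      = Module.finrank F (LinearMap.range (Matrix.mulVecLin (eichMat Q' p w - 1))) := rfl
    _ ≤ Module.finrank F (Submodule.span F ({p, w} : Set (κ → F))) :=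
        Submodule.finrank_mono hrange
    _ ≤ 2 := finrank_span_pair_le p w

theorem EICH (Q : (κ → F) → F) (hQ : IsNondegenerateQuadraticForm Q)
    (hodd : Odd (Fintype.card F)) (hk : 5 ≤ Fintype.card κ) :
    ∃ g : GL κ F, g ∈ omegaGL Q ∧ g ≠ 1 ∧ (g.1 - 1).rank ≤ 2 ∧ g ^ (ringChar F) = 1 := by
  classical
  obtain ⟨Q', rfl, hnd⟩ := exists_quadraticForm_of_nondeg Q hQ
  -- a non-singular vector
  obtain ⟨d, hQd⟩ : ∃ d, Q' d ≠ 0 := by
    by_contra hcon
    push Not at hcon
    obtain ⟨s, hs0, -, -⟩ := exists_singular_orth Q' hnd ∅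
      (by rw [Finset.card_empty]; omega)
    obtain ⟨y, hy⟩ := exists_polar_ne_zero Q' hnd s hs0
    apply hy
    unfold QuadraticMap.polar
    rw [hcon, hcon, hcon]
    ring
  obtain ⟨s, hs0, hQs, horth⟩ := exists_singular_orth Q' hnd {d}
    (by rw [Finset.card_singleton]; omega)
  have hds : polar ⇑Q' d s = 0 := horth d (by simp)
  have hQa' : Q' d = Q' (d + s) := by
    have h3 := Q_add_smul Q' d s 1
    rw [one_smul] at h3
    rw [h3, hQs, hds]
    ring
  have hne : d + s ∉ Submodule.span F ({d} : Set (κ → F)) := by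
    intro hmem
    obtain ⟨c, hc⟩ := Submodule.mem_span_singleton.mp hmem
    have hs : s = (c - 1) • d := by
      rw [sub_smul, one_smul, hc]
      abel
    rw [hs, QuadraticMap.map_smul, smul_eq_mul] at hQs
    have hc1 : c - 1 = 0 := by
      rcases mul_eq_zero.mp hQs with h | h
      · exact mul_self_eq_zero.mp h
      · exact absurd h hQd
    apply hs0
    rw [hs, hc1, zero_smul]
  obtain ⟨p, w, hp, hpw, hmap⟩ := exists_eich_map Q' hnd hk d (d + s) hQd hQa' hne
  have hmemΩ := coe_mem_omegaGL Q' (eich_mem_commutator Q' hnd hk p w hp hpw)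
  have hcoe : ((eich Q' p w hp hpw : ↥(Cfsg.isometryGroup F ⇑Q')) : GL κ F).1 =
      eichMat Q' p w := coe_eich Q' p w hp hpw
  refine ⟨((eich Q' p w hp hpw : ↥(Cfsg.isometryGroup F ⇑Q')) : GL κ F), hmemΩ, ?_, ?_, ?_⟩
  · intro h1
    apply hs0
    have h2 := hmap
    rw [← hcoe, h1, Units.val_one, Matrix.one_mulVec] at h2
    have h3 : d + s = d + 0 := by rw [add_zero]; exact h2.symm
    exact add_left_cancel h3
  · rw [hcoe]
    exact EICH_rank Q' p w
  · apply Units.ext
    rw [Units.val_pow_eq_pow_val, Units.val_one, hcoe, EICH_pow Q' p w hp hpw,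
      CharP.cast_eq_zero F (ringChar F), zero_smul, eichMat_zero]

end Transport

end Cfsg.Agent.Lib.Helper44.O9
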