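import Cfsg.Agent.Lib.Helper47.OmcDefs

/-!
# OMC project, piece FIXNS (helper34): an involution of `O⁺_{2m}(q)`, `q` even, that is not
alternating of rank `m` fixes a nonsingular vector.
-/

set_option autoImplicit false

namespace Cfsg.Agent.Lib.Helper34.Omc

open Cfsg.Agent.Lib.Helper47 Matrix

variable {F : Type*} [Field F]

-- PIECE FIXNS
theorem exists_fixed_nonsingular [Fintype F] [CharP F 2] (m : ℕ)
    (x : ↥(Cfsg.isometryGroup F (Cfsg.quadFormPlus m F))) (hx : x ^ 2 = 1)
    (hne : ¬ ((omat x - 1).rank = m ∧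
      ∀ v, Cfsg.quadFormPlus m F ((omat x - 1) *ᵥ v) = 0)) :
    ∃ u : Fin m ⊕ Fin m → F, Cfsg.quadFormPlus m F u ≠ 0 ∧ omat x *ᵥ u = u := by
  classical
  by_contra hcon
  push Not at hcon
  have hfix : ∀ u, omat x *ᵥ u = u → Cfsg.quadFormPlus m F u = 0 := fun u hu => by
    by_contra h
    exact hcon u h hu
  have h2 : (2 : F) = 0 := CharTwo.two_eq_zero
  have hMM : omat x * omat x = 1 := by
    have h1 := congrArg omat hx
    rw [pow_two, omat_mul, omat_one] at h1
    exact h1
  have hNN : (omat x - 1) * (omat x - 1) = 0 := by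
    have h1 : (omat x - 1) * (omat x - 1) = omat x * omat x - (2 : F) • omat x + 1 := by
      rw [two_smul]
      noncomm_ring
    rw [h1, hMM, h2, zero_smul, sub_zero, ← two_smul F (1 : Matrix (Fin m ⊕ Fin m) (Fin m ⊕ Fin m) F),
      h2, zero_smul]
  have hfixN : ∀ v, omat x *ᵥ v = v ↔ (omat x - 1) *ᵥ v = 0 := by
    intro v
    rw [Matrix.sub_mulVec, Matrix.one_mulVec, sub_eq_zero]
  have hrange : LinearMap.range (omat x - 1).mulVecLin ≤ LinearMap.ker (omat x - 1).mulVecLin := by
    rintro _ ⟨v, rfl⟩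
    rw [LinearMap.mem_ker, Matrix.mulVecLin_apply, Matrix.mulVecLin_apply, Matrix.mulVec_mulVec,
      hNN, Matrix.zero_mulVec]
  have hQK : ∀ u ∈ LinearMap.ker (omat x - 1).mulVecLin, Cfsg.quadFormPlus m F u = 0 := by
    intro u hu
    apply hfix u
    rw [hfixN]
    rw [LinearMap.mem_ker, Matrix.mulVecLin_apply] at hu
    exact hu
  have hBK : ∀ u ∈ LinearMap.ker (omat x - 1).mulVecLin,
      ∀ w ∈ LinearMap.ker (omat x - 1).mulVecLin, spForm (Fin m) F u w = 0 := by
    intro u hu w hw
    have h1 := qplus_add m u w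
    rw [hQK u hu, hQK w hw, hQK (u + w) (Submodule.add_mem _ hu hw)] at h1
    rw [zero_add, zero_add] at h1
    exact h1.symm
  have hdim : 2 * Module.finrank F (LinearMap.ker (omat x - 1).mulVecLin) ≤ 2 * m := by
    have hBnd : (Matrix.toBilin' (Matrix.J (Fin m) F)).Nondegenerate :=
      LinearMap.BilinForm.nondegenerate_toBilin'_of_det_ne_zero' _ (Matrix.isUnit_det_J (Fin m) F).ne_zero
    have hle : LinearMap.ker (omat x - 1).mulVecLin ≤
        (Matrix.toBilin' (Matrix.J (Fin m) F)).orthogonal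
          (LinearMap.ker (omat x - 1).mulVecLin) := by
      intro w hw
      rw [LinearMap.BilinForm.mem_orthogonal_iff]
      intro u hu
      rw [Matrix.toBilin'_apply']
      exact hBK u hu w hw
    have h1 := Submodule.finrank_mono hle
    rw [LinearMap.BilinForm.finrank_orthogonal hBnd, Module.finrank_fintype_fun_eq_card] at h1
    have hcard : Fintype.card (Fin m ⊕ Fin m) = 2 * m := by
      rw [Fintype.card_sum, Fintype.card_fin]
      ring
    rw [hcard] at h1
    omega
  have hrn := LinearMap.finrank_range_add_finrank_ker (omat x - 1).mulVecLin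
  rw [Module.finrank_fintype_fun_eq_card] at hrn
  have hcard : Fintype.card (Fin m ⊕ Fin m) = 2 * m := by
    rw [Fintype.card_sum, Fintype.card_fin]
    ring
  have hrank : (omat x - 1).rank =
      Module.finrank F (LinearMap.range (omat x - 1).mulVecLin) := rfl
  have hrk := Submodule.finrank_mono hrange
  apply hne
  refine ⟨by omega, fun v => hQK _ (hrange ⟨v, rfl⟩)⟩

end Cfsg.Agent.Lib.Helper34.Omc
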