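import Mathlib
import Cfsg.Prelude.Def_GeometricClasses
import Cfsg.Prelude.Def_Classical
import Cfsg.Agent.Lib.Helper47.QuadDefs
import Cfsg.Agent.Lib.Helper47.QuadAll
import Cfsg.Agent.Lib.Helper87.OStdE
import Cfsg.Agent.Lib.Helper98.OrthNM2

/-!
# S5981 piece TYPEVEN (project of helper96): type of a quadratic form in even dimension
-/

set_option autoImplicit false

universe u

namespace Cfsg.Agent.Lib.Helper34.Oq

open Polynomial Matrix
open scoped MatrixGroups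
open Cfsg.Agent.Lib.Helper47

theorem typ_even {F : Type u} [Field F] [Fintype F] (h2 : (2 : F) ≠ 0) (n m : ℕ) (hm : 1 ≤ m)
    (hn : n = 2 * m) (Q : (Fin n → F) → F) (hQ : Cfsg.Geo.IsNondegenerateQuadraticForm Q) :
    (IsTyp Q (m - 1) 1 ∧
      ∃ L : (Fin n → F) ≃ₗ[F] (Fin m ⊕ Fin m → F), ∀ v, Cfsg.quadFormPlus m F (L v) = 1 * Q v) ∨
    (IsTyp Q (m - 1) (-1) ∧
      ∃ (L : (Fin n → F) ≃ₗ[F] ((Fin (m - 1) ⊕ Fin (m - 1)) ⊕ Fin 2 → F)) (ζ : F),
        (∀ z₁ z₂ : F, z₁ ^ 2 + 1 * z₁ * z₂ + ζ * z₂ ^ 2 = 0 → z₁ = 0 ∧ z₂ = 0) ∧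
        ∀ v, Cfsg.quadFormMinus (m - 1) F 1 ζ (L v) = 1 * Q v) := by
  classical
  have hc : Fintype.card (Fin n) = 2 * m := by rw [Fintype.card_fin, hn]
  obtain ⟨k, rfl⟩ : ∃ k, m = k + 1 := ⟨m - 1, by omega⟩
  rcases Cfsg.Agent.Lib.Helper87.OStdE.std_even h2 (Cfsg.Agent.Lib.Helper98.qfOf Q hQ)
    (Cfsg.Agent.Lib.Helper98.qfOf_nondegenerate Q hQ) (k + 1) hm hc with
    ⟨L, hL⟩ | ⟨L, ζ, hζ, hL⟩
  · left
    have hL' : ∀ v, Cfsg.quadFormPlus (k + 1) F (L v) = Q v := hL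
    refine ⟨?_, L, fun v => by rw [hL' v, one_mul]⟩
    have h : IsTyp Q k 1 :=
      IsTyp.of_equiv (Q := Cfsg.quadFormPlus (k + 1) F) (Q' := Q) L.symm.toEquiv
        (fun w => by
          have := hL' (L.symm w)
          rw [LinearEquiv.apply_symm_apply] at this
          exact this.symm) (Cfsg.Agent.Lib.Helper23.Quad.isTyp_quadFormPlus k)
    exact h
  · right
    have hL' : ∀ v, Cfsg.quadFormMinus (k + 1 - 1) F 1 ζ (L v) = Q v := hL
    have hab : IsAniso (1 : F) ζ := by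
      intro z₁ z₂ h
      by_cases hz : z₂ = 0
      · subst hz
        have h1 : z₁ ^ 2 = 0 := by simpa using h
        exact ⟨pow_eq_zero_iff (two_ne_zero) |>.mp h1, rfl⟩
      · exfalso
        apply hζ (z₁ / z₂)
        field_simp
        linear_combination h
    refine ⟨?_, L, ζ, hab, fun v => by rw [hL' v, one_mul]⟩
    have hT : IsTyp (Cfsg.quadFormMinus (k + 1 - 1) F 1 ζ) (k + 1 - 1) (-1) :=
      Cfsg.Agent.Lib.Helper2.QuadMINUSTYP.isTyp_quadFormMinus_of (k + 1 - 1) 1 ζ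
        (fun Q₁ Q₂ _ _ _ _ h₁ h₂ => Cfsg.Agent.Lib.Helper78.Quad.isTyp_prod Q₁ Q₂ h₁ h₂)
        Cfsg.Agent.Lib.Helper23.Quad.isTyp_quadFormPlus
        (Cfsg.Agent.Lib.Helper5.QuadAC.isTyp_aniso 1 ζ hab)
    exact IsTyp.of_equiv (Q := Cfsg.quadFormMinus (k + 1 - 1) F 1 ζ) (Q' := Q) L.symm.toEquiv
      (fun w => by
        have := hL' (L.symm w)
        rw [LinearEquiv.apply_symm_apply] at this
        exact this.symm) hT

end Cfsg.Agent.Lib.Helper34.Oq
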