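import Mathlib
import Cfsg.Agent.Lib.Helper72.PQDefs
import Cfsg.Agent.Lib.Helper12.Ward1

/-!
# S4306, piece FMQ (project of helper72, proof by helper34)

Frobenius-module lemma for `B / B₀` acting on the abelian section `W / W₀`.
-/

set_option autoImplicit false

namespace Cfsg.Agent.Lib.Helper34.PQ

open Cfsg.Agent.Lib.Helper72.PQ

universe u

/-- Abstract form: `K` acting on the abelian group `Wq`, with compatible operators `T`, `σ`. -/
theorem fmq_abs {Wq K : Type*} [CommGroup Wq] [Group K] [Finite Wq] [Finite K]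
    (m : ℕ) (hm : 0 < m)
    (ρ : K → Wq → Wq) (T : Wq → Wq) (σ : K → K)
    (hρ1 : ∀ w, ρ 1 w = w) (hρm : ∀ x y w, ρ (x * y) w = ρ x (ρ y w))
    (hρw : ∀ x w₁ w₂, ρ x (w₁ * w₂) = ρ x w₁ * ρ x w₂)
    (hTρ : ∀ x w, T (ρ x w) = ρ (σ x) (T w))
    (hTmul : ∀ a b, T (a * b) = T a * T b)
    (hσmul : ∀ a b, σ (a * b) = σ a * σ b)
    (hTm : ∀ w, T^[m] w = w)
    (hσ : ∀ j, 0 < j → j < m → ∀ x, σ^[j] x = x → x = 1)
    (hcop : (Nat.card K).Coprime (Nat.card Wq))
    (hT : ∀ w, T w = w → w = 1) (b : K) (w : Wq) : ρ b w = w := by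
  classical
  let _ : Fintype K := Fintype.ofFinite K
  let σh : K →* K := MonoidHom.mk' σ hσmul
  let Th : Wq →* Wq := MonoidHom.mk' T hTmul
  have hσh : ∀ x, σh x = σ x := fun _ => rfl
  have hTh : ∀ x, Th x = T x := fun _ => rfl
  have hσj : ∀ j (x y : K), σ^[j] (x * y) = σ^[j] x * σ^[j] y := by
    intro j
    induction j with
    | zero => intro x y; rfl
    | succ j ih =>
      intro x y
      rw [Function.iterate_succ_apply', Function.iterate_succ_apply',
        Function.iterate_succ_apply', ih, hσmul]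
  have hσinv : ∀ x : K, σ x⁻¹ = (σ x)⁻¹ := fun x => by rw [← hσh, map_inv, hσh]
  have hσjinv : ∀ j (x : K), σ^[j] x⁻¹ = (σ^[j] x)⁻¹ := by
    intro j
    induction j with
    | zero => intro x; rfl
    | succ j ih =>
      intro x
      rw [Function.iterate_succ_apply', Function.iterate_succ_apply', ih, hσinv]
  refine Cfsg.Agent.Lib.Helper12.Ward.frob_fix (W := Wq) (K := K) m hm ρ T σ hρ1 hρm hρw hTρ
    hσinv ?_ ?_ w ?_ b
  · intro j hj0 hjm x y hxy
    have hxy' : x * (σ^[j] x)⁻¹ = y * (σ^[j] y)⁻¹ := hxy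
    have h1 : σ^[j] (y⁻¹ * x) = y⁻¹ * x := by
      rw [hσj, hσjinv]
      have h2 : y⁻¹ * (x * (σ^[j] x)⁻¹) * σ^[j] x = y⁻¹ * (y * (σ^[j] y)⁻¹) * σ^[j] x := by
        rw [hxy']
      simp only [mul_assoc, inv_mul_cancel, mul_one, inv_mul_cancel_left] at h2
      exact h2.symm
    have h2 := hσ j hj0 hjm _ h1
    exact (inv_mul_eq_one.mp h2).symm
  · rw [← Nat.card_eq_fintype_card]
    exact hcop
  · intro x
    apply hT
    rw [← hTh, map_prod]
    have h0 : ∏ j ∈ Finset.range m, Th (T^[j] (ρ x w)) = ∏ j ∈ Finset.range m, T^[j + 1] (ρ x w) :=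
      Finset.prod_congr rfl (fun j _ => (Function.iterate_succ_apply' T j (ρ x w)).symm)
    rw [h0]
    have h2 := Finset.prod_range_succ' (fun j => T^[j] (ρ x w)) m
    have h3 := Finset.prod_range_succ (fun j => T^[j] (ρ x w)) m
    rw [h2] at h3
    simp only [Function.iterate_zero, id] at h3
    rw [hTm (ρ x w)] at h3
    exact mul_right_cancel h3

section

variable {Γ : Type u} [Group Γ]

/-- Conjugation by a normalising element, as an endomorphism of the subgroup. -/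
def fmqConj (W : Subgroup Γ) (g : Γ) (hg : g ∈ Subgroup.normalizer (W : Set Γ)) : ↥W →* ↥W where
  toFun w := ⟨g * w.1 * g⁻¹, (Subgroup.mem_normalizer_iff.mp hg w.1).mp w.2⟩
  map_one' := Subtype.ext (by simp)
  map_mul' a b := Subtype.ext (by simp [mul_assoc])

theorem fmqConj_coe (W : Subgroup Γ) (g : Γ) (hg : g ∈ Subgroup.normalizer (W : Set Γ))
    (w : ↥W) : ((fmqConj W g hg w : ↥W) : Γ) = g * w.1 * g⁻¹ := rfl

theorem fmq_cj {H : Subgroup Γ} {g x : Γ} (hg : g ∈ Subgroup.normalizer (H : Set Γ))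
    (hx : x ∈ H) : g * x * g⁻¹ ∈ H := (Subgroup.mem_normalizer_iff.mp hg x).mp hx

/-- `a⁻¹ * b ∈ H` and `b` normalises `H`: then `a * b⁻¹ ∈ H` -/
theorem fmq_swap {H : Subgroup Γ} {a b : Γ} (hb : b ∈ Subgroup.normalizer (H : Set Γ))
    (h : a⁻¹ * b ∈ H) : a * b⁻¹ ∈ H := by
  have h1 := fmq_cj hb h
  have h2 := H.inv_mem h1
  have e : (b * (a⁻¹ * b) * b⁻¹)⁻¹ = a * b⁻¹ := by group
  rwa [e] at h2

end

theorem fmq : FMQStmt.{u} := by
  intro Γ _ _ W W₀ B B₀ c m hm hcm hW₀W hB₀B hWab hWW₀ hBW hBW₀ hcW hcW₀ hcB hBB₀ hcB₀ hB₀W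
    hfpf hcop hfix
  classical
  have hNn : (W₀.subgroupOf W).Normal :=
    (Subgroup.normal_subgroupOf_iff_le_normalizer hW₀W).mpr hWW₀
  have hMn : (B₀.subgroupOf B).Normal :=
    (Subgroup.normal_subgroupOf_iff_le_normalizer hB₀B).mpr hBB₀
  let instC : CommGroup (↥W ⧸ W₀.subgroupOf W) :=
    { (inferInstance : Group (↥W ⧸ W₀.subgroupOf W)) with
      mul_comm := by
        intro a b
        induction a using QuotientGroup.induction_on with
        | H a =>
        induction b using QuotientGroup.induction_on with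
        | H b =>
        refine (QuotientGroup.eq).mpr ?_
        rw [Subgroup.mem_subgroupOf]
        have h1 := hWab b.1⁻¹ (W.inv_mem b.2) a.1⁻¹ (W.inv_mem a.2)
        have e : ((((a * b)⁻¹ * (b * a) : ↥W)) : Γ) = b.1⁻¹ * a.1⁻¹ * b.1⁻¹⁻¹ * a.1⁻¹⁻¹ := by
          simp [mul_assoc]
        rw [e]
        exact h1 }
  -- the induced maps
  have hcomapW : ∀ (g : Γ) (hg : g ∈ Subgroup.normalizer (W : Set Γ)),
      g ∈ Subgroup.normalizer (W₀ : Set Γ) →
      W₀.subgroupOf W ≤ (W₀.subgroupOf W).comap (fmqConj W g hg) := by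
    intro g hg hg0 v hv
    rw [Subgroup.mem_comap, Subgroup.mem_subgroupOf]
    exact fmq_cj hg0 (Subgroup.mem_subgroupOf.mp hv)
  have hcomapB : B₀.subgroupOf B ≤ (B₀.subgroupOf B).comap (fmqConj B c hcB) := by
    intro v hv
    rw [Subgroup.mem_comap, Subgroup.mem_subgroupOf]
    exact fmq_cj hcB₀ (Subgroup.mem_subgroupOf.mp hv)
  let ρ₀ : ↥B → (↥W ⧸ W₀.subgroupOf W) →* (↥W ⧸ W₀.subgroupOf W) := fun x =>
    QuotientGroup.map (W₀.subgroupOf W) (W₀.subgroupOf W) (fmqConj W x.1 (hBW x.2))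
      (hcomapW x.1 (hBW x.2) (hBW₀ x.2))
  let T : (↥W ⧸ W₀.subgroupOf W) →* (↥W ⧸ W₀.subgroupOf W) :=
    QuotientGroup.map (W₀.subgroupOf W) (W₀.subgroupOf W) (fmqConj W c hcW)
      (hcomapW c hcW hcW₀)
  let σ : (↥B ⧸ B₀.subgroupOf B) →* (↥B ⧸ B₀.subgroupOf B) :=
    QuotientGroup.map (B₀.subgroupOf B) (B₀.subgroupOf B) (fmqConj B c hcB) hcomapB
  have hρ₀mk : ∀ (x : ↥B) (v : ↥W), ρ₀ x (QuotientGroup.mk v) =
      QuotientGroup.mk (fmqConj W x.1 (hBW x.2) v) := fun _ _ => rfl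
  have hTmk : ∀ v : ↥W, T (QuotientGroup.mk v) = QuotientGroup.mk (fmqConj W c hcW v) :=
    fun _ => rfl
  have hσmk : ∀ x : ↥B, σ (QuotientGroup.mk x) = QuotientGroup.mk (fmqConj B c hcB x) :=
    fun _ => rfl
  -- equality criterion in `W / W₀`
  have hWeq : ∀ a b : ↥W, a.1 * b.1⁻¹ ∈ W₀ →
      (QuotientGroup.mk a : ↥W ⧸ W₀.subgroupOf W) = QuotientGroup.mk b := by
    intro a b h
    refine (QuotientGroup.eq).mpr ?_
    rw [Subgroup.mem_subgroupOf]
    have h1 := fmq_cj (hWW₀ (W.inv_mem a.2)) h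
    have h2 := W₀.inv_mem h1
    have e : (a.1⁻¹ * (a.1 * b.1⁻¹) * a.1⁻¹⁻¹)⁻¹ = ((a⁻¹ * b : ↥W) : Γ) := by
      simp
    rwa [e] at h2
  have hWeq' : ∀ a b : ↥W,
      (QuotientGroup.mk a : ↥W ⧸ W₀.subgroupOf W) = QuotientGroup.mk b → a.1 * b.1⁻¹ ∈ W₀ := by
    intro a b h
    have h1 := (QuotientGroup.eq).mp h
    rw [Subgroup.mem_subgroupOf] at h1
    have h2 : a.1⁻¹ * b.1 ∈ W₀ := by simpa using h1
    exact fmq_swap (hWW₀ b.2) h2
  have hBeq' : ∀ a b : ↥B,
      (QuotientGroup.mk a : ↥B ⧸ B₀.subgroupOf B) = QuotientGroup.mk b → a.1 * b.1⁻¹ ∈ B₀ := by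
    intro a b h
    have h1 := (QuotientGroup.eq).mp h
    rw [Subgroup.mem_subgroupOf] at h1
    have h2 : a.1⁻¹ * b.1 ∈ B₀ := by simpa using h1
    exact fmq_swap (hBB₀ b.2) h2
  -- `ρ₀` factors through `B / B₀`
  have hwd : ∀ a b : ↥B, QuotientGroup.leftRel (B₀.subgroupOf B) a b →
      (ρ₀ a : (↥W ⧸ W₀.subgroupOf W) → (↥W ⧸ W₀.subgroupOf W)) = ρ₀ b := by
    intro a b hab
    rw [QuotientGroup.leftRel_apply, Subgroup.mem_subgroupOf] at hab
    have hz : a.1⁻¹ * b.1 ∈ B₀ := by simpa using hab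
    funext w
    induction w using QuotientGroup.induction_on with
    | H v =>
    rw [hρ₀mk, hρ₀mk]
    apply hWeq
    rw [fmqConj_coe, fmqConj_coe]
    -- a v a⁻¹ (b v b⁻¹)⁻¹ = a (v z v⁻¹ z⁻¹) a⁻¹ with z = a⁻¹ b
    have h1 := hB₀W _ hz v.1 v.2
    have h2 := W₀.inv_mem h1
    have h3 := fmq_cj (hBW₀ a.2) h2
    have e : a.1 * (a.1⁻¹ * b.1 * v.1 * (a.1⁻¹ * b.1)⁻¹ * v.1⁻¹)⁻¹ * a.1⁻¹
        = a.1 * v.1 * a.1⁻¹ * (b.1 * v.1 * b.1⁻¹)⁻¹ := by group
    rwa [e] at h3
  let ρ : (↥B ⧸ B₀.subgroupOf B) → (↥W ⧸ W₀.subgroupOf W) → (↥W ⧸ W₀.subgroupOf W) :=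
    fun k => Quotient.liftOn' k (fun x => (ρ₀ x : (↥W ⧸ W₀.subgroupOf W) → _)) hwd
  have hρmk : ∀ (x : ↥B) (w : ↥W ⧸ W₀.subgroupOf W), ρ (QuotientGroup.mk x) w = ρ₀ x w :=
    fun _ _ => rfl
  -- iterates
  have hTj : ∀ (j : ℕ) (v : ↥W), T^[j] (QuotientGroup.mk v) =
      QuotientGroup.mk (fmqConj W (c ^ j) (Subgroup.pow_mem _ hcW j) v) := by
    intro j
    induction j with
    | zero =>
      intro v
      rw [Function.iterate_zero, id]
      refine congrArg _ (Subtype.ext ?_)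
      rw [fmqConj_coe, pow_zero]
      group
    | succ j ih =>
      intro v
      rw [Function.iterate_succ_apply', ih, hTmk]
      refine congrArg _ (Subtype.ext ?_)
      rw [fmqConj_coe, fmqConj_coe, fmqConj_coe, pow_succ']
      group
  have hσj : ∀ (j : ℕ) (x : ↥B), σ^[j] (QuotientGroup.mk x) =
      QuotientGroup.mk (fmqConj B (c ^ j) (Subgroup.pow_mem _ hcB j) x) := by
    intro j
    induction j with
    | zero =>
      intro v
      rw [Function.iterate_zero, id]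
      refine congrArg _ (Subtype.ext ?_)
      rw [fmqConj_coe, pow_zero]
      group
    | succ j ih =>
      intro v
      rw [Function.iterate_succ_apply', ih, hσmk]
      refine congrArg _ (Subtype.ext ?_)
      rw [fmqConj_coe, fmqConj_coe, fmqConj_coe, pow_succ']
      group
  have main : ∀ (b : ↥B ⧸ B₀.subgroupOf B) (w : ↥W ⧸ W₀.subgroupOf W), ρ b w = w := by
    refine fmq_abs m hm ρ T σ ?_ ?_ ?_ ?_ (fun a b => map_mul T a b) (fun a b => map_mul σ a b)
      ?_ ?_ ?_ ?_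
    · -- hρ1
      intro w
      induction w using QuotientGroup.induction_on with
      | H v =>
      change ρ (QuotientGroup.mk 1) (QuotientGroup.mk v) = _
      rw [hρmk, hρ₀mk]
      exact congrArg _ (Subtype.ext (by simp [fmqConj_coe]))
    · -- hρm
      intro x y w
      induction x using QuotientGroup.induction_on with
      | H x =>
      induction y using QuotientGroup.induction_on with
      | H y =>
      induction w using QuotientGroup.induction_on with
      | H v =>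
      change ρ (QuotientGroup.mk (x * y)) (QuotientGroup.mk v) = _
      rw [hρmk, hρmk, hρmk, hρ₀mk, hρ₀mk, hρ₀mk]
      refine congrArg _ (Subtype.ext ?_)
      rw [fmqConj_coe, fmqConj_coe, fmqConj_coe, Subgroup.coe_mul]
      group
    · -- hρw
      intro x w₁ w₂
      induction x using QuotientGroup.induction_on with
      | H x =>
      rw [hρmk, hρmk, hρmk]
      exact map_mul (ρ₀ x) w₁ w₂
    · -- hTρ
      intro x w
      induction x using QuotientGroup.induction_on with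
      | H x =>
      induction w using QuotientGroup.induction_on with
      | H v =>
      rw [hρmk, hρ₀mk, hTmk, hσmk, hTmk, hρmk, hρ₀mk]
      refine congrArg _ (Subtype.ext ?_)
      simp only [fmqConj_coe]
      group
    · -- hTm
      intro w
      induction w using QuotientGroup.induction_on with
      | H v =>
      rw [hTj]
      refine congrArg _ (Subtype.ext ?_)
      rw [fmqConj_coe, hcm]
      group
    · -- fixed-point-freeness of σ
      intro j hj0 hjm x hx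
      induction x using QuotientGroup.induction_on with
      | H z =>
      rw [hσj] at hx
      have h1 := hBeq' _ _ hx
      rw [fmqConj_coe] at h1
      have h2 := hfpf j hj0 hjm z.1 z.2 h1
      exact (QuotientGroup.eq_one_iff z).mpr (Subgroup.mem_subgroupOf.mpr h2)
    · -- coprimality
      exact Nat.Coprime.coprime_dvd_left (Subgroup.card_quotient_dvd_card _)
        (Nat.Coprime.coprime_dvd_right (Subgroup.card_quotient_dvd_card _) hcop)
    · -- fixed points of T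
      intro w hw
      induction w using QuotientGroup.induction_on with
      | H v =>
      rw [hTmk] at hw
      have h1 := hWeq' _ _ hw
      rw [fmqConj_coe] at h1
      have h2 := hfix v.1 v.2 h1
      exact (QuotientGroup.eq_one_iff v).mpr (Subgroup.mem_subgroupOf.mpr h2)
  intro x hx w hw
  have h1 := main (QuotientGroup.mk ⟨x, hx⟩) (QuotientGroup.mk ⟨w, hw⟩)
  rw [hρmk, hρ₀mk] at h1
  have h2 := hWeq' _ _ h1
  rw [fmqConj_coe] at h2
  exact h2

end Cfsg.Agent.Lib.Helper34.PQ
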