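import Cfsg.Agent.Lib.Helper22.PTDefs

/-!
# Project PT (helper22, S4705), piece MIX (helper34)

`ζ (τ x) = 0` for an involution `τ` commuting with a non-central `p`-regular element `x` of odd
order: along the orbit `τ x ^ (s ^ j)` one has `ζ (g) ^ 2 = (p - 3) ζ (g ^ s)`, and the orbit
lemma with the strict bound `MIXB` gives `0`.
-/

set_option autoImplicit false

namespace Cfsg.Agent.Lib.Helper34.PT

open Cfsg Cfsg.Agent.Lib.Helper22.BFD Cfsg.Agent.Lib.Helper22.PT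
open scoped ComplexConjugate

universe u

variable {G : Type u} [Group G] [Fintype G]

/-- a power of a non-central element with exponent prime to its order is non-central -/
theorem mix_noncentral (x : G) (k : ℕ) (hk : Nat.Coprime k (orderOf x))
    (hnc : x ∉ Subgroup.center G) : x ^ k ∉ Subgroup.center G := by
  intro hc
  apply hnc
  have hpos : 0 < orderOf x := orderOf_pos x
  have h1 : orderOf x ≠ 1 := by
    intro h
    rw [orderOf_eq_one_iff] at h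
    rw [h] at hnc
    exact hnc (Subgroup.one_mem _)
  obtain ⟨m, -, hm⟩ := Nat.exists_mul_mod_eq_one_of_coprime hk (by omega)
  have h2 : (x ^ k) ^ m = x := by
    rw [← pow_mul, ← pow_mod_orderOf, hm, pow_one]
  rw [← h2]
  exact Subgroup.pow_mem _ hc m

/-- one step along the orbit -/
theorem mix_step (p : ℕ) [Fact p.Prime] (hp5 : 5 < p) (ζ : G → ℂ) (s : ℕ)
    (hE1 : ∀ g, ¬ p ∣ orderOf g → ζ g ^ 2 - ζ (g ^ 2) = ((p : ℂ) - 3) * ζ (g ^ s))
    (hoddz : ∀ g : G, Odd (orderOf g) → ¬ p ∣ orderOf g → g ∉ Subgroup.center G → ζ g = 0)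
    (τ y : G) (hτ : orderOf τ = 2) (hy : Odd (orderOf y)) (hreg : ¬ p ∣ orderOf y)
    (hcomm : τ * y = y * τ) (hnc : y ∉ Subgroup.center G) :
    ζ (τ * y) ^ 2 = ((p : ℂ) - 3) * ζ ((τ * y) ^ s) := by
  have hp : p.Prime := Fact.out
  have hτ2 : τ ^ 2 = 1 := by
    rw [← hτ]
    exact pow_orderOf_eq_one τ
  have hcm : Commute τ y := hcomm
  have hsq : (τ * y) ^ 2 = y ^ 2 := by rw [hcm.mul_pow, hτ2, one_mul]
  have hregτy : ¬ p ∣ orderOf (τ * y) := by
    intro hdvd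
    have h1 : (τ * y) ^ (2 * orderOf y) = 1 := by
      rw [hcm.mul_pow, pow_mul, hτ2, one_pow, one_mul, mul_comm, pow_mul, pow_orderOf_eq_one,
        one_pow]
    have h2 : orderOf (τ * y) ∣ 2 * orderOf y := orderOf_dvd_of_pow_eq_one h1
    rcases (Nat.Prime.dvd_mul hp).mp (hdvd.trans h2) with h3 | h3
    · have h4 := Nat.le_of_dvd (by norm_num) h3
      omega
    · exact hreg h3
  have hy2 : ζ (y ^ 2) = 0 := by
    apply hoddz
    · exact Odd.of_dvd_nat hy (orderOf_pow_dvd 2)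
    · exact fun hd => hreg (hd.trans (orderOf_pow_dvd 2))
    · exact mix_noncentral y 2 (Nat.coprime_two_left.mpr hy) hnc
  have h4 := hE1 (τ * y) hregτy
  rw [hsq, hy2, sub_zero] at h4
  exact h4

/-- PIECE MIX -/
theorem mix (p : ℕ) [Fact p.Prime] (z : G) (ζ : G → ℂ) (h : Hyp G p z ζ) (s : ℕ)
    (hs : Sq2 G p s)
    (hE1 : ∀ g, ¬ p ∣ orderOf g → ζ g ^ 2 - ζ (g ^ 2) = ((p : ℂ) - 3) * ζ (g ^ s))
    (horb : Orb ζ s)
    (hoddz : ∀ g : G, Odd (orderOf g) → ¬ p ∣ orderOf g → g ∉ Subgroup.center G → ζ g = 0)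
    (hmixb : ∀ τ x : G, orderOf τ = 2 → Odd (orderOf x) → ¬ p ∣ orderOf x → τ * x = x * τ →
      x ∉ Subgroup.center G → ‖ζ (τ * x)‖ < (p : ℝ) - 3)
    (τ x : G) (hτ : orderOf τ = 2) (hx : Odd (orderOf x)) (hreg : ¬ p ∣ orderOf x)
    (hcomm : τ * x = x * τ) (hnc : x ∉ Subgroup.center G) : ζ (τ * x) = 0 := by
  have hp5 := h.p5
  have hcm : Commute τ x := hcomm
  have hτs : τ ^ s = τ := hs.fix τ (fun q hq hqd =>
    Or.inl ((Nat.prime_dvd_prime_iff_eq hq Nat.prime_two).mp (hτ ▸ hqd)))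
  have hτj : ∀ j : ℕ, τ ^ (s ^ j) = τ := by
    intro j
    induction j with
    | zero => rw [pow_zero, pow_one]
    | succ j ih => rw [pow_succ, pow_mul, ih, hτs]
  have hcopx : Nat.Coprime s (orderOf x) :=
    Nat.Coprime.coprime_dvd_right (orderOf_dvd_natCard x) hs.cop
  have hyodd : ∀ j : ℕ, Odd (orderOf (x ^ (s ^ j))) :=
    fun j => Odd.of_dvd_nat hx (orderOf_pow_dvd _)
  have hyreg : ∀ j : ℕ, ¬ p ∣ orderOf (x ^ (s ^ j)) :=
    fun j hd => hreg (hd.trans (orderOf_pow_dvd _))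
  have hycomm : ∀ j : ℕ, τ * x ^ (s ^ j) = x ^ (s ^ j) * τ := fun j => hcm.pow_right _
  have hync : ∀ j : ℕ, x ^ (s ^ j) ∉ Subgroup.center G :=
    fun j => mix_noncentral x _ (Nat.Coprime.pow_left j hcopx) hnc
  have hgj : ∀ j : ℕ, (τ * x) ^ (s ^ j) = τ * x ^ (s ^ j) := by
    intro j
    rw [hcm.mul_pow, hτj]
  have hC : (0 : ℝ) < (p : ℝ) - 3 := by
    have h5 : (5 : ℝ) < (p : ℝ) := by exact_mod_cast hp5
    linarith
  have hcopg : Nat.Coprime s (orderOf (τ * x)) :=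
    Nat.Coprime.coprime_dvd_right (orderOf_dvd_natCard _) hs.cop
  have hbound : ∀ j : ℕ, ‖ζ ((τ * x) ^ (s ^ j))‖ < (p : ℝ) - 3 := by
    intro j
    rw [hgj]
    exact hmixb τ _ hτ (hyodd j) (hyreg j) (hycomm j) (hync j)
  have hcast : (((p : ℝ) - 3 : ℝ) : ℂ) = (p : ℂ) - 3 := by
    rw [Complex.ofReal_sub, Complex.ofReal_natCast, Complex.ofReal_ofNat]
  have hstep : ∀ j : ℕ, ζ ((τ * x) ^ (s ^ j)) ^ 2 =
      (((p : ℝ) - 3 : ℝ) : ℂ) * ζ ((τ * x) ^ (s ^ (j + 1))) := by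
    intro j
    have h3 := mix_step p hp5 ζ s hE1 hoddz τ (x ^ (s ^ j)) hτ (hyodd j) (hyreg j) (hycomm j)
      (hync j)
    rw [← hgj j, ← pow_mul, ← pow_succ] at h3
    rw [h3, hcast]
  rcases horb ((p : ℝ) - 3) hC (τ * x) hcopg hstep (fun j => (hbound j).le) with h0 | h1
  · exact h0
  · have h6 := hbound 0
    rw [pow_zero, pow_one, h1] at h6
    exact absurd h6 (lt_irrefl _)

end Cfsg.Agent.Lib.Helper34.PT
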