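import Cfsg.Agent.Lib.Helper22.PTDefs
import Cfsg.Agent.Lib.Helper80.Galois
import Cfsg.Agent.Lib.Helper80.Twisted

/-!
# Project PT (helper22, S4705), piece SEED (helper34)

`ζ ∘ (· ^ s)` satisfies the hypotheses again, its central character is the square of that of
`ζ`, and it agrees with `ζ` on the powers of `z`.
-/

set_option autoImplicit false

namespace Cfsg.Agent.Lib.Helper34.PT

open Cfsg Cfsg.Agent.Lib.Helper22.BFD Cfsg.Agent.Lib.Helper22.PT
open scoped ComplexConjugate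

universe u

variable {G : Type u} [Group G] [Fintype G]

/-- central elements are `p`-regular -/
theorem seed_zreg (p : ℕ) [Fact p.Prime] (z : G) (hord : orderOf z = p)
    (hsq : ¬ p ^ 2 ∣ Nat.card G) (hnn : ¬ (Subgroup.zpowers z).Normal) :
    ∀ c ∈ Subgroup.center G, ¬ p ∣ orderOf c := by
  intro c hc hdvd
  have hp : p.Prime := Fact.out
  obtain ⟨m, hm⟩ := hdvd
  have hcpos : 0 < orderOf c := orderOf_pos c
  have hm0 : m ≠ 0 := by
    rintro rfl
    rw [hm, mul_zero] at hcpos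
    exact lt_irrefl _ hcpos
  have hc'ord : orderOf (c ^ m) = p := by
    rw [orderOf_pow_of_dvd hm0 ⟨p, by rw [hm, mul_comm]⟩, hm,
      Nat.mul_div_cancel _ (Nat.pos_of_ne_zero hm0)]
  have hc'cen : c ^ m ∈ Subgroup.center G := Subgroup.pow_mem _ hc m
  have hfact : (Nat.card G).factorization p = 1 := by
    have h1 : p ^ 1 ∣ Nat.card G := by
      rw [pow_one, ← hord]
      exact orderOf_dvd_natCard z
    have hG0 : Nat.card G ≠ 0 := Nat.card_pos.ne'
    have h2 := (Nat.Prime.pow_dvd_iff_le_factorization hp hG0).mp h1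
    have h3 : ¬ 2 ≤ (Nat.card G).factorization p := fun h =>
      hsq ((Nat.Prime.pow_dvd_iff_le_factorization hp hG0).mpr h)
    omega
  have hcP : Nat.card (Subgroup.zpowers z) = p ^ (Nat.card G).factorization p := by
    rw [Nat.card_zpowers, hord, hfact, pow_one]
  have hcQ : Nat.card (Subgroup.zpowers (c ^ m)) = p ^ (Nat.card G).factorization p := by
    rw [Nat.card_zpowers, hc'ord, hfact, pow_one]
  have hQn : (Subgroup.zpowers (c ^ m)).Normal := by
    constructor
    intro x hx g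
    have hxc : x ∈ Subgroup.center G := (Subgroup.zpowers_le.mpr hc'cen) hx
    rw [Subgroup.mem_center_iff] at hxc
    rw [hxc g, mul_inv_cancel_right]
    exact hx
  haveI hQn' : (Sylow.ofCard (Subgroup.zpowers (c ^ m)) hcQ : Subgroup G).Normal := by
    rw [Sylow.coe_ofCard]
    exact hQn
  obtain ⟨g, hg⟩ := MulAction.exists_smul_eq G (Sylow.ofCard (Subgroup.zpowers (c ^ m)) hcQ)
    (Sylow.ofCard (Subgroup.zpowers z) hcP)
  rw [Sylow.smul_eq_of_normal] at hg
  apply hnn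
  have h4 : Subgroup.zpowers z = Subgroup.zpowers (c ^ m) := by
    rw [← Sylow.coe_ofCard (Subgroup.zpowers z) hcP, ← hg, Sylow.coe_ofCard]
  rw [h4]
  exact hQn

/-- PIECE SEED -/
theorem seed (p : ℕ) [Fact p.Prime] (z : G) (ζ : G → ℂ) (h : Hyp G p z ζ)
    (hodd : Odd (Nat.card (Subgroup.center G))) (s : ℕ) (hs : Sq2 G p s) :
    Hyp G p z (fun g => ζ (g ^ s)) ∧
    (∀ c ∈ Subgroup.center G, cz (fun g => ζ (g ^ s)) c = cz ζ c ^ 2) ∧
    (∀ t : ZMod p, ζ ((z ^ t.val) ^ s) = ζ (z ^ t.val)) := by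
  have hp : p.Prime := Fact.out
  refine ⟨⟨h.p5, h.ord, h.sq, h.nn, ?_, ?_, ?_⟩, ?_, ?_⟩
  · exact Cfsg.Agent.Lib.Helper80.isIrrCharacter_pow_coprime s hs.cop ⟨ζ, h.irr⟩
  · intro g hg
    change ζ (g ^ s) = ζ (1 ^ s) at hg
    rw [one_pow] at hg
    have hgs : g ^ s = 1 := h.faith _ hg
    have h1 : orderOf g ∣ s := orderOf_dvd_of_pow_eq_one hgs
    have h2 : orderOf g ∣ Nat.card G := orderOf_dvd_natCard g
    have h3 : Nat.gcd s (Nat.card G) = 1 := hs.cop
    have h4 := Nat.dvd_gcd h1 h2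
    rw [h3] at h4
    exact orderOf_eq_one_iff.mp (Nat.dvd_one.mp h4)
  · change ζ (1 ^ s) = (p : ℂ) - 2
    rw [one_pow]
    exact h.deg
  · intro c hc
    change ζ (c ^ s) / ζ (1 ^ s) = (ζ c / ζ 1) ^ 2
    have hoddc : Odd (orderOf c) := by
      have h1 : orderOf (⟨c, hc⟩ : Subgroup.center G) ∣ Nat.card (Subgroup.center G) :=
        orderOf_dvd_natCard _
      rw [Subgroup.orderOf_mk] at h1
      exact Odd.of_dvd_nat hodd h1
    have hregc : ¬ p ∣ orderOf c := seed_zreg p z h.ord h.sq h.nn c hc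
    have h5 := Cfsg.Agent.Lib.Helper80.irr_mul_central (⟨ζ, h.irr⟩ : IrrCharacter G) hc c
    unfold Cfsg.Agent.Lib.Helper80.cc at h5
    change ζ (c * c) = ζ c / ζ 1 * ζ c at h5
    rw [one_pow, hs.sq c hoddc hregc, pow_two c, h5]
    ring
  · intro t
    rw [hs.fix (z ^ t.val)]
    intro q hq hqd
    right
    have h1 : orderOf (z ^ t.val) ∣ p := by
      have h2 := orderOf_pow_dvd (x := z) t.val
      rwa [h.ord] at h2
    exact (Nat.prime_dvd_prime_iff_eq hq hp).mp (hqd.trans h1)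

end Cfsg.Agent.Lib.Helper34.PT
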