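import Cfsg.Agent.Lib.Helper96.PiDefs
import Cfsg.Agent.Lib.Helper34.HyORBIT
import Cfsg.Agent.Lib.Helper30.O72WITT

/-!
Project PI (S5989, helper96), piece SMALLK (helper34): inside a nondegenerate subspace `K` of
dimension less than `blk`, the number of members (nondegenerate `m`-spaces isometric to `W₀`,
`m < finrank K`) is prime to `r`.  Work in `↥K` with the restricted form: the isometries of `↥K`
act transitively on the members (Witt), so a divisor `r` of their number gives an isometry of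
order `r` of `↥K`, which needs `blk ≤ finrank K`.
-/

set_option autoImplicit false
set_option linter.unusedSectionVars false
set_option linter.unusedVariables false

namespace Cfsg.Agent.Lib.Helper34.Pi

open Module Cfsg.Agent.Lib.Helper96.Sp Cfsg.Agent.Lib.Helper96.BG Cfsg.Agent.Lib.Helper96.Hy
  Cfsg.Agent.Lib.Helper96.Pi Cfsg.Agent.Lib.Helper47

universe u

section Abstract

variable {F : Type u} [Field F] [Fintype F] {V : Type u} [AddCommGroup V] [Module F V]
  [FiniteDimensional F V] {B : LinearMap.BilinForm F V}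

/-- nondegeneracy in `↥K` and in `V` -/
theorem smallk_nd (K : Submodule F V) (W' : Submodule F K) :
    ND B (W'.map K.subtype) ↔ ND (B.restrict K) W' := by
  constructor
  · intro h u hu hv
    have h1 : (u : V) = 0 := by
      apply h (u : V) (Submodule.mem_map_of_mem (f := K.subtype) hu)
      rintro _ ⟨v, hv', rfl⟩
      exact hv v hv'
    exact Subtype.ext h1
  · rintro h _ ⟨u, hu, rfl⟩ hv
    have h1 : u = 0 := by
      apply h u hu
      intro v hv'
      exact hv (K.subtype v) (Submodule.mem_map_of_mem hv')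
    rw [h1, map_zero]

/-- a subspace of `↥K` and its image in `V` -/
theorem smallk_lift (K : Submodule F V) (X : Submodule F K) :
    ∃ ι : X ≃ₗ[F] ↥(X.map K.subtype),
      (∀ x : X, ((ι x : ↥(X.map K.subtype)) : V) = ((x : K) : V)) ∧
      ∀ w : ↥(X.map K.subtype), (((ι.symm w : X) : K) : V) = (w : V) := by
  refine ⟨Submodule.equivMapOfInjective K.subtype K.injective_subtype X, fun x => ?_, fun w => ?_⟩
  · exact Submodule.coe_equivMapOfInjective_apply K.subtype K.injective_subtype X x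
  · exact Submodule.map_equivMapOfInjective_symm_apply K.subtype K.injective_subtype X w

theorem smallk_iso_up (K : Submodule F V) (X Y : Submodule F K)
    (h : Iso (B.restrict K) X Y) : Iso B (X.map K.subtype) (Y.map K.subtype) := by
  obtain ⟨e, he⟩ := h
  obtain ⟨ιX, hX1, hX2⟩ := smallk_lift K X
  obtain ⟨ιY, hY1, hY2⟩ := smallk_lift K Y
  refine ⟨(ιX.symm.trans e).trans ιY, fun w => ?_⟩
  show B ((ιY (e (ιX.symm w)) : ↥(Y.map K.subtype)) : V)
    ((ιY (e (ιX.symm w)) : ↥(Y.map K.subtype)) : V) = B (w : V) (w : V)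
  rw [hY1, ← hX2 w]
  exact he (ιX.symm w)

theorem smallk_iso_down (K : Submodule F V) (X Y : Submodule F K)
    (h : Iso B (X.map K.subtype) (Y.map K.subtype)) : Iso (B.restrict K) X Y := by
  obtain ⟨e, he⟩ := h
  obtain ⟨ιX, hX1, hX2⟩ := smallk_lift K X
  obtain ⟨ιY, hY1, hY2⟩ := smallk_lift K Y
  refine ⟨(ιX.trans e).trans ιY.symm, fun x => ?_⟩
  show B (((ιY.symm (e (ιX x)) : Y) : K) : V) (((ιY.symm (e (ιX x)) : Y) : K) : V) =
    B ((x : K) : V) ((x : K) : V)
  rw [hY2, he, hX1]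

-- PIECE SMALLK
theorem not_dvd_small_ker (p : ℕ) [Fact p.Prime] [CharP F p] (hS : B.IsSymm) (h2 : (2 : F) ≠ 0)
    (hN : ND B ⊤) (r : ℕ) [Fact r.Prime] (hr2 : r ≠ 2) (hrp : r ≠ p)
    (W₀ : Submodule F V) (hW₀ : ND B W₀) (m : ℕ) (hm : finrank F W₀ = m)
    (K : Submodule F V) (hK : ND B K) (hmK : m < finrank F K)
    (hKc : finrank F K < blk (Fintype.card F) r) :
    ¬ r ∣ Nat.card {W : Submodule F V // Mem B W₀ m W ∧ W ≤ K} := by
  intro hdvd
  obtain ⟨hrq, hr0, -⟩ := Cfsg.Agent.Lib.Helper96.BG.facts (F := F) p r hrp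
  have hSK : (B.restrict K).IsSymm := hS.restrict _
  have hNK : ND (B.restrict K) ⊤ := by
    intro u _ h
    exact Subtype.ext (hK (u : V) u.2 (fun v hv => h ⟨v, hv⟩ Submodule.mem_top))
  obtain ⟨P', hP'def⟩ : ∃ P' : Submodule F K → Prop,
      ∀ X, P' X ↔ Mem B W₀ m (X.map K.subtype) := ⟨_, fun _ => Iff.rfl⟩
  have hcard : Nat.card {W : Submodule F V // Mem B W₀ m W ∧ W ≤ K} =
      Nat.card {X : Submodule F K // P' X} := by
    apply Nat.card_congr
    refine ⟨fun W => ⟨W.1.comap K.subtype, (hP'def _).mpr ?_⟩,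
      fun X => ⟨X.1.map K.subtype, ⟨(hP'def _).mp X.2, Submodule.map_subtype_le K X.1⟩⟩, ?_, ?_⟩
    · rw [Submodule.map_comap_subtype, inf_eq_right.mpr W.2.2]
      exact W.2.1
    · intro W
      apply Subtype.ext
      show (W.1.comap K.subtype).map K.subtype = W.1
      rw [Submodule.map_comap_subtype, inf_eq_right.mpr W.2.2]
    · intro X
      apply Subtype.ext
      show (X.1.map K.subtype).comap K.subtype = X.1
      exact Submodule.comap_map_eq_of_injective K.injective_subtype X.1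
  rw [hcard] at hdvd
  have hP' : ∀ (X : Submodule F K) (g : K ≃ₗ[F] K), Isom (B.restrict K) (g : K →ₗ[F] K) →
      P' X → P' (X.map (g : K →ₗ[F] K)) := by
    intro X g hg hX
    rw [hP'def] at hX ⊢
    refine ⟨?_, ?_, ?_⟩
    · rw [Submodule.finrank_map_subtype_eq, finrank_map_equiv,
        ← Submodule.finrank_map_subtype_eq K X]
      exact hX.1
    · exact (smallk_nd K _).mpr (nd_map g hg ((smallk_nd K X).mp hX.2.1))
    · exact iso_trans (iso_symm (smallk_iso_up K X (X.map (g : K →ₗ[F] K)) (iso_map X g hg)))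
        hX.2.2
  obtain ⟨Q, hQK, hQnd, hQfin, h, hh, hhmap⟩ :=
    Cfsg.Agent.Lib.Helper98.O72.exists_copy hS h2 hN hW₀ hK (by rw [hm]; exact hmK)
  have hQmem : Mem B W₀ m Q := ⟨by rw [hQfin, hm], hQnd, iso_symm (iso_of_map_eq h hh hhmap)⟩
  have hQ' : P' (Q.comap K.subtype) := by
    rw [hP'def, Submodule.map_comap_subtype, inf_eq_right.mpr hQK]
    exact hQmem
  have hwitt : ∀ X Y : Submodule F K, P' X → P' Y →
      ∃ g : K ≃ₗ[F] K, Isom (B.restrict K) (g : K →ₗ[F] K) ∧ X.map (g : K →ₗ[F] K) = Y := by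
    intro X Y hX hY
    rw [hP'def] at hX hY
    obtain ⟨e, he⟩ := smallk_iso_down K X Y (mem_iso hX hY)
    obtain ⟨g, hg, hge⟩ := Cfsg.Agent.Lib.Helper98.O72.witt_ext hSK h2 hNK X Y e he
    refine ⟨g, hg, ?_⟩
    apply le_antisymm
    · rintro _ ⟨x, hx, rfl⟩
      have h3 : g x = (e ⟨x, hx⟩ : K) := hge ⟨x, hx⟩
      show g x ∈ Y
      rw [h3]
      exact (e ⟨x, hx⟩).2
    · intro y hy
      refine ⟨(e.symm ⟨y, hy⟩ : K), (e.symm ⟨y, hy⟩).2, ?_⟩
      have h3 := hge (e.symm ⟨y, hy⟩)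
      rw [LinearEquiv.apply_symm_apply] at h3
      exact h3
  obtain ⟨g, hg, hgr, hg1⟩ := Cfsg.Agent.Lib.Helper34.Hy.exists_isom_of_dvd_card hNK P' hP'
    (Q.comap K.subtype) hQ' hwitt r hdvd
  have hle := Cfsg.Agent.Lib.Helper96.Hy.blk_le_of_isom hSK h2 hNK r hr2 hrq hr0 g hg hgr hg1
  omega

end Abstract

end Cfsg.Agent.Lib.Helper34.Pi
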