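import Mathlib
import Cfsg.Agent.Lib.Helper72.S3Defs

/-!
# S4305, piece LEMQ (helper34): if the three subgroups `[H, tᵢ]` intersect trivially then `H` is
commutative.
-/

set_option autoImplicit false

namespace Cfsg.Agent.Lib.Helper34.S3F

open Cfsg.Agent.Lib.Helper72.S3F

universe u

section Gen

variable {V : Type u} [CommGroup V]

theorem lq_mem_cm {R : Subgroup (MulAut V)} {g u : MulAut V} (hu : u ∈ R) :
    u⁻¹ * (g * u * g⁻¹) ∈ cm R g :=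
  Subgroup.subset_closure ⟨u, hu, rfl⟩

theorem lq_cm_le {H : Subgroup (MulAut V)} {g : MulAut V}
    (hg : ∀ x ∈ H, g * x * g⁻¹ ∈ H) : cm H g ≤ H := by
  unfold cm
  rw [Subgroup.closure_le]
  rintro _ ⟨u, hu, rfl⟩
  exact H.mul_mem (H.inv_mem hu) (hg u hu)

theorem lq_cm_conj {H : Subgroup (MulAut V)} (a g : MulAut V)
    (ha : ∀ x ∈ H, a * x * a⁻¹ ∈ H) :
    ∀ y ∈ cm H g, a * y * a⁻¹ ∈ cm H (a * g * a⁻¹) := by
  have h : cm H g ≤ Subgroup.comap (MulAut.conj a).toMonoidHom (cm H (a * g * a⁻¹)) := by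
    unfold cm
    rw [Subgroup.closure_le]
    rintro _ ⟨u, hu, rfl⟩
    rw [SetLike.mem_coe, Subgroup.mem_comap]
    have h1 : (MulAut.conj a).toMonoidHom (u⁻¹ * (g * u * g⁻¹)) =
        (a * u * a⁻¹)⁻¹ * ((a * g * a⁻¹) * (a * u * a⁻¹) * (a * g * a⁻¹)⁻¹) := by
      show a * (u⁻¹ * (g * u * g⁻¹)) * a⁻¹ = _
      group
    rw [h1]
    exact Subgroup.subset_closure ⟨a * u * a⁻¹, ha u hu, rfl⟩
  intro y hy
  exact h hy

theorem lq_cm_normal {H : Subgroup (MulAut V)} (g : MulAut V) :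
    ∀ e ∈ H, ∀ y ∈ cm H g, e * y * e⁻¹ ∈ cm H g := by
  intro e he
  have h : cm H g ≤ Subgroup.comap (MulAut.conj e).toMonoidHom (cm H g) := by
    unfold cm
    rw [Subgroup.closure_le]
    rintro _ ⟨u, hu, rfl⟩
    rw [SetLike.mem_coe, Subgroup.mem_comap]
    have h1 : (MulAut.conj e).toMonoidHom (u⁻¹ * (g * u * g⁻¹)) =
        ((u * e⁻¹)⁻¹ * (g * (u * e⁻¹) * g⁻¹)) * ((e⁻¹)⁻¹ * (g * e⁻¹ * g⁻¹))⁻¹ := by
      show e * (u⁻¹ * (g * u * g⁻¹)) * e⁻¹ = _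
      group
    rw [h1]
    exact Subgroup.mul_mem _
      (Subgroup.subset_closure ⟨u * e⁻¹, H.mul_mem hu (H.inv_mem he), rfl⟩)
      (Subgroup.inv_mem _ (Subgroup.subset_closure ⟨e⁻¹, H.inv_mem he, rfl⟩))
  intro y hy
  exact h hy

theorem lq_comm_mem {H Y : Subgroup (MulAut V)} (hY : ∀ e ∈ H, ∀ y ∈ Y, e * y * e⁻¹ ∈ Y)
    {a b : MulAut V} (ha : a ∈ H) (hb : b ∈ H) (h : a ∈ Y ∨ b ∈ Y) :
    a * b * a⁻¹ * b⁻¹ ∈ Y := by
  rcases h with h | h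
  · have h1 := hY b hb a⁻¹ (Y.inv_mem h)
    have h2 := Y.mul_mem h h1
    have e : a * b * a⁻¹ * b⁻¹ = a * (b * a⁻¹ * b⁻¹) := by group
    rw [e]
    exact h2
  · have h1 := hY a ha b h
    exact Y.mul_mem h1 (Y.inv_mem h)

theorem lq_comm_of {a b : MulAut V} (h : a * b * a⁻¹ * b⁻¹ = 1) : a * b = b * a := by
  have h1 := mul_inv_eq_one.mp h
  exact mul_inv_eq_iff_eq_mul.mp h1

theorem lq_three {a b c : MulAut V} (hab : a * b = b * a) (hac : a * c = c * a)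
    (hbc : b * c = c * b) : b * c * a = a * b * c ∧ a * c * b = a * b * c := by
  constructor
  · calc b * c * a = b * (c * a) := mul_assoc _ _ _
      _ = b * (a * c) := by rw [hac]
      _ = b * a * c := (mul_assoc _ _ _).symm
      _ = a * b * c := by rw [hab]
  · calc a * c * b = a * (c * b) := mul_assoc _ _ _
      _ = a * (b * c) := by rw [hbc]
      _ = a * b * c := (mul_assoc _ _ _).symm

theorem lq_core [Finite V] (hlift : LiftStmt.{u}) {H Y0 Y1 Y2 : Subgroup (MulAut V)}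
    {f t : MulAut V}
    (hf3 : f ^ 3 = 1) (ht2 : t ^ 2 = 1) (htf : t * f * t⁻¹ = f⁻¹)
    (hcop : (Nat.card H).Coprime 6)
    (hfpf : ∀ x ∈ H, f * x * f⁻¹ = x → t * x * t⁻¹ = x → x = 1)
    (hQ : Y0 ⊓ Y1 ⊓ Y2 = ⊥)
    (hY0H : Y0 ≤ H) (hY1H : Y1 ≤ H) (hY2H : Y2 ≤ H)
    (hn0 : ∀ e ∈ H, ∀ y ∈ Y0, e * y * e⁻¹ ∈ Y0)
    (hn1 : ∀ e ∈ H, ∀ y ∈ Y1, e * y * e⁻¹ ∈ Y1)
    (hn2 : ∀ e ∈ H, ∀ y ∈ Y2, e * y * e⁻¹ ∈ Y2)
    (hfY0 : ∀ y ∈ Y0, f * y * f⁻¹ ∈ Y1) (hfY1 : ∀ y ∈ Y1, f * y * f⁻¹ ∈ Y2)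
    (hfY2 : ∀ y ∈ Y2, f * y * f⁻¹ ∈ Y0)
    (htY0 : ∀ y ∈ Y0, t * y * t⁻¹ ∈ Y0) (htY1 : ∀ y ∈ Y1, t * y * t⁻¹ ∈ Y2)
    (htY2 : ∀ y ∈ Y2, t * y * t⁻¹ ∈ Y1)
    (hg0 : ∀ u ∈ H, u⁻¹ * (t * u * t⁻¹) ∈ Y0)
    (hgf : ∀ u ∈ H, u⁻¹ * (f * u * f⁻¹) ∈ Y0 ⊔ Y1 ⊔ Y2) : Comm H := by
  have e1 : f * f = f⁻¹ := by
    rw [eq_inv_iff_mul_eq_one, ← hf3, pow_succ, pow_two]
  have e2 : f⁻¹ * f⁻¹ = f := by rw [← mul_inv_rev, e1, inv_inv]
  have h3 : ∀ x, x ∈ Y0 → x ∈ Y1 → x ∈ Y2 → x = 1 := by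
    intro x h0 h1 h2
    have : x ∈ Y0 ⊓ Y1 ⊓ Y2 := ⟨⟨h0, h1⟩, h2⟩
    rw [hQ] at this
    exact Subgroup.mem_bot.mp this
  -- Step A
  have hA : ∀ d, d ∈ Y1 → d ∈ Y2 → d = 1 := by
    intro d h1 h2
    have dH : d ∈ H := hY1H h1
    have td : t * d * t⁻¹ = d := by
      have hc := h3 (d⁻¹ * (t * d * t⁻¹)) (hg0 d dH)
        (Y1.mul_mem (Y1.inv_mem h1) (htY2 d h2)) (Y2.mul_mem (Y2.inv_mem h2) (htY1 d h1))
      exact (inv_mul_eq_one.mp hc).symm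
    have d1Y2 : f * d * f⁻¹ ∈ Y2 := hfY1 d h1
    have d1Y0 : f * d * f⁻¹ ∈ Y0 := hfY2 d h2
    have d2Y0 : f * (f * d * f⁻¹) * f⁻¹ ∈ Y0 := hfY2 _ d1Y2
    have d2Y1 : f * (f * d * f⁻¹) * f⁻¹ ∈ Y1 := hfY0 _ d1Y0
    have d2eq : f * (f * d * f⁻¹) * f⁻¹ = f⁻¹ * d * f := by
      have : f * (f * d * f⁻¹) * f⁻¹ = (f * f) * d * (f⁻¹ * f⁻¹) := by group
      rw [this, e1, e2]
    rw [d2eq] at d2Y0 d2Y1
    have d1H : f * d * f⁻¹ ∈ H := hY2H d1Y2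
    have d2H : f⁻¹ * d * f ∈ H := hY0H d2Y0
    have c01 : d * (f * d * f⁻¹) = (f * d * f⁻¹) * d := lq_comm_of (h3 _
      (lq_comm_mem hn0 dH d1H (Or.inr d1Y0)) (lq_comm_mem hn1 dH d1H (Or.inl h1))
      (lq_comm_mem hn2 dH d1H (Or.inl h2)))
    have c02 : d * (f⁻¹ * d * f) = (f⁻¹ * d * f) * d := lq_comm_of (h3 _
      (lq_comm_mem hn0 dH d2H (Or.inr d2Y0)) (lq_comm_mem hn1 dH d2H (Or.inl h1))
      (lq_comm_mem hn2 dH d2H (Or.inl h2)))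
    have c12 : (f * d * f⁻¹) * (f⁻¹ * d * f) = (f⁻¹ * d * f) * (f * d * f⁻¹) :=
      lq_comm_of (h3 _
      (lq_comm_mem hn0 d1H d2H (Or.inl d1Y0)) (lq_comm_mem hn1 d1H d2H (Or.inr d2Y1))
      (lq_comm_mem hn2 d1H d2H (Or.inl d1Y2)))
    have eH : d * (f * d * f⁻¹) * (f⁻¹ * d * f) ∈ H := H.mul_mem (H.mul_mem dH d1H) d2H
    have ef : f * (d * (f * d * f⁻¹) * (f⁻¹ * d * f)) * f⁻¹ =
        d * (f * d * f⁻¹) * (f⁻¹ * d * f) := by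
      have : f * (d * (f * d * f⁻¹) * (f⁻¹ * d * f)) * f⁻¹ =
          (f * d * f⁻¹) * (f * (f * d * f⁻¹) * f⁻¹) * d := by group
      rw [this, d2eq]
      exact (lq_three c01 c02 c12).1
    have et : t * (d * (f * d * f⁻¹) * (f⁻¹ * d * f)) * t⁻¹ =
        d * (f * d * f⁻¹) * (f⁻¹ * d * f) := by
      have : t * (d * (f * d * f⁻¹) * (f⁻¹ * d * f)) * t⁻¹ =
          (t * d * t⁻¹) * ((t * f * t⁻¹) * (t * d * t⁻¹) * (t * f * t⁻¹)⁻¹) *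
            ((t * f * t⁻¹)⁻¹ * (t * d * t⁻¹) * (t * f * t⁻¹)) := by group
      rw [this, td, htf, inv_inv]
      exact (lq_three c01 c02 c12).2
    have ee := hfpf _ eH ef et
    have dY0 : d ∈ Y0 := by
      have : d = ((f * d * f⁻¹) * (f⁻¹ * d * f))⁻¹ := by
        rw [eq_inv_iff_mul_eq_one]
        exact (mul_assoc _ _ _).symm.trans ee
      rw [this]
      exact Y0.inv_mem (Y0.mul_mem d1Y0 d2Y0)
    exact h3 d dY0 h1 h2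
  have hB : ∀ d, d ∈ Y2 → d ∈ Y0 → d = 1 := by
    intro d h2 h0
    have a0 : f * d * f⁻¹ ∈ Y0 := hfY2 d h2
    have a1 : f * d * f⁻¹ ∈ Y1 := hfY0 d h0
    have b1 : f * (f * d * f⁻¹) * f⁻¹ ∈ Y1 := hfY0 _ a0
    have b2 : f * (f * d * f⁻¹) * f⁻¹ ∈ Y2 := hfY1 _ a1
    have := hA _ b1 b2
    rw [conj_eq_one_iff, conj_eq_one_iff] at this
    exact this
  have hC : ∀ d, d ∈ Y0 → d ∈ Y1 → d = 1 := by
    intro d h0 h1
    have := hA _ (hfY0 d h0) (hfY1 d h1)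
    rwa [conj_eq_one_iff] at this
  have c01 : ∀ a ∈ Y0, ∀ b ∈ Y1, a * b = b * a := fun a ha b hb =>
    lq_comm_of (hC _ (lq_comm_mem hn0 (hY0H ha) (hY1H hb) (Or.inl ha))
      (lq_comm_mem hn1 (hY0H ha) (hY1H hb) (Or.inr hb)))
  have c02 : ∀ a ∈ Y0, ∀ b ∈ Y2, a * b = b * a := fun a ha b hb =>
    lq_comm_of (hB _ (lq_comm_mem hn2 (hY0H ha) (hY2H hb) (Or.inr hb))
      (lq_comm_mem hn0 (hY0H ha) (hY2H hb) (Or.inl ha)))
  have c12 : ∀ a ∈ Y1, ∀ b ∈ Y2, a * b = b * a := fun a ha b hb =>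
    lq_comm_of (hA _ (lq_comm_mem hn1 (hY1H ha) (hY2H hb) (Or.inl ha))
      (lq_comm_mem hn2 (hY1H ha) (hY2H hb) (Or.inr hb)))
  have c11 : ∀ a ∈ Y1, ∀ b ∈ Y1, a * b = b * a := by
    intro y hy y' hy'
    have hyH := hY1H hy
    have ha : Commute (t * y * t⁻¹) y' := (c12 y' hy' _ (htY1 y hy)).symm
    have hc : Commute (y⁻¹ * (t * y * t⁻¹)) y' := c01 _ (hg0 y hyH) y' hy'
    have hyeq : y = (t * y * t⁻¹) * (y⁻¹ * (t * y * t⁻¹))⁻¹ := by group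
    have h := ha.mul_left hc.inv_left
    rw [← hyeq] at h
    exact h.eq
  have c22 : ∀ a ∈ Y2, ∀ b ∈ Y2, a * b = b * a := by
    intro y hy y' hy'
    have hyH := hY2H hy
    have ha : Commute (t * y * t⁻¹) y' := c12 _ (htY2 y hy) y' hy'
    have hc : Commute (y⁻¹ * (t * y * t⁻¹)) y' := c02 _ (hg0 y hyH) y' hy'
    have hyeq : y = (t * y * t⁻¹) * (y⁻¹ * (t * y * t⁻¹))⁻¹ := by group
    have h := ha.mul_left hc.inv_left
    rw [← hyeq] at h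
    exact h.eq
  have c00 : ∀ a ∈ Y0, ∀ b ∈ Y0, a * b = b * a := by
    intro y hy y' hy'
    have h := c11 _ (hfY0 y hy) _ (hfY0 y' hy')
    have h2 : y * y' = f⁻¹ * ((f * y * f⁻¹) * (f * y' * f⁻¹)) * f := by group
    rw [h2, h]
    group
  have hM : ∀ a ∈ Y0 ⊔ Y1 ⊔ Y2, ∀ b ∈ Y0 ⊔ Y1 ⊔ Y2, a * b = b * a := by
    have hS : ∀ a ∈ ((Y0 : Set (MulAut V)) ∪ Y1 ∪ Y2),
        ∀ b ∈ ((Y0 : Set (MulAut V)) ∪ Y1 ∪ Y2), a * b = b * a := by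
      rintro a ((ha | ha) | ha) b ((hb | hb) | hb)
      · exact c00 a ha b hb
      · exact c01 a ha b hb
      · exact c02 a ha b hb
      · exact (c01 b hb a ha).symm
      · exact c11 a ha b hb
      · exact c12 a ha b hb
      · exact (c02 b hb a ha).symm
      · exact (c12 b hb a ha).symm
      · exact c22 a ha b hb
    have hle : Y0 ⊔ Y1 ⊔ Y2 ≤ Subgroup.closure ((Y0 : Set (MulAut V)) ∪ Y1 ∪ Y2) := by
      refine sup_le (sup_le ?_ ?_) ?_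
      · intro y hy
        exact Subgroup.subset_closure (Or.inl (Or.inl hy))
      · intro y hy
        exact Subgroup.subset_closure (Or.inl (Or.inr hy))
      · intro y hy
        exact Subgroup.subset_closure (Or.inr hy)
    intro a ha b hb
    have hc := Subgroup.isMulCommutative_closure hS
    have h := mul_comm' (M := ↥(Subgroup.closure ((Y0 : Set (MulAut V)) ∪ Y1 ∪ Y2)))
      ⟨a, hle ha⟩ ⟨b, hle hb⟩
    exact congrArg Subtype.val h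
  have hMH : Y0 ⊔ Y1 ⊔ Y2 ≤ H := sup_le (sup_le hY0H hY1H) hY2H
  have hfM : ∀ k ∈ Y0 ⊔ Y1 ⊔ Y2, MulAut.conj f k ∈ Y0 ⊔ Y1 ⊔ Y2 := by
    have h : Y0 ⊔ Y1 ⊔ Y2 ≤ Subgroup.comap (MulAut.conj f).toMonoidHom (Y0 ⊔ Y1 ⊔ Y2) := by
      refine sup_le (sup_le ?_ ?_) ?_
      · intro y hy
        exact Subgroup.mem_comap.mpr (Subgroup.mem_sup_left (Subgroup.mem_sup_right (hfY0 y hy)))
      · intro y hy
        exact Subgroup.mem_comap.mpr (Subgroup.mem_sup_right (hfY1 y hy))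
      · intro y hy
        exact Subgroup.mem_comap.mpr (Subgroup.mem_sup_left (Subgroup.mem_sup_left (hfY2 y hy)))
    intro k hk
    exact h hk
  have htM : ∀ k ∈ Y0 ⊔ Y1 ⊔ Y2, MulAut.conj t k ∈ Y0 ⊔ Y1 ⊔ Y2 := by
    have h : Y0 ⊔ Y1 ⊔ Y2 ≤ Subgroup.comap (MulAut.conj t).toMonoidHom (Y0 ⊔ Y1 ⊔ Y2) := by
      refine sup_le (sup_le ?_ ?_) ?_
      · intro y hy
        exact Subgroup.mem_comap.mpr (Subgroup.mem_sup_left (Subgroup.mem_sup_left (htY0 y hy)))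
      · intro y hy
        exact Subgroup.mem_comap.mpr (Subgroup.mem_sup_right (htY1 y hy))
      · intro y hy
        exact Subgroup.mem_comap.mpr (Subgroup.mem_sup_left (Subgroup.mem_sup_right (htY2 y hy)))
    intro k hk
    exact h hk
  have hfin : Finite ↥(Y0 ⊔ Y1 ⊔ Y2) := inferInstance
  have hcopM : (Nat.card ↥(Y0 ⊔ Y1 ⊔ Y2)).Coprime 6 :=
    Nat.Coprime.coprime_dvd_left (Subgroup.card_dvd_of_le hMH) hcop
  have hφ3 : (MulAut.conj f) ^ 3 = 1 := by rw [← map_pow, hf3, map_one]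
  have hτ2 : (MulAut.conj t) ^ 2 = 1 := by rw [← map_pow, ht2, map_one]
  have hτφ : MulAut.conj t * MulAut.conj f * (MulAut.conj t)⁻¹ = (MulAut.conj f)⁻¹ := by
    rw [← map_inv, ← map_mul, ← map_mul, htf, map_inv]
  have hHM : H ≤ Y0 ⊔ Y1 ⊔ Y2 := by
    intro x hx
    obtain ⟨k, hkM, hk1, hk2⟩ := hlift (MulAut V) (MulAut.conj f) (MulAut.conj t)
      (Y0 ⊔ Y1 ⊔ Y2) x hφ3 hτ2 hτφ hfin hcopM hfM htM (hgf x hx)
      (Subgroup.mem_sup_left (Subgroup.mem_sup_left (hg0 x hx)))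
    have hxk : x * k = 1 := hfpf _ (H.mul_mem hx (hMH hkM)) hk1 hk2
    have hxe : x = k⁻¹ := eq_inv_of_mul_eq_one_left hxk
    rw [hxe]
    exact Subgroup.inv_mem _ hkM
  intro x hx y hy
  exact hM x (hHM hx) y (hHM hy)

end Gen

theorem lemQ (hlift : LiftStmt.{u}) : LemQStmt.{u} := by
  intro V _ _ H f t hact hQ
  obtain ⟨⟨hf3, ht2, htf⟩, hfH, htH, hcop, hfpf⟩ := hact
  have e1 : f * f = f⁻¹ := by
    rw [eq_inv_iff_mul_eq_one, ← hf3, pow_succ, pow_two]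
  have e2 : f⁻¹ * f⁻¹ = f := by rw [← mul_inv_rev, e1, inv_inv]
  have tinv : t⁻¹ = t := by
    rw [inv_eq_iff_mul_eq_one, ← ht2, pow_two]
  have hf2 : f ^ 2 = f⁻¹ := by rw [pow_two, e1]
  have hQ' : cm H t ⊓ cm H (f * t * f⁻¹) ⊓ cm H (f⁻¹ * t * f) = ⊥ := by
    have h := hQ
    unfold Q3 at h
    rw [hf2, inv_inv] at h
    exact h
  have hfi : ∀ x ∈ H, f⁻¹ * x * f ∈ H := by
    intro x hx
    have h := hfH _ (hfH x hx)
    have e : f * (f * x * f⁻¹) * f⁻¹ = (f * f) * x * (f⁻¹ * f⁻¹) := by group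
    rw [e, e1, e2] at h
    exact h
  have ht1H : ∀ x ∈ H, (f * t * f⁻¹) * x * (f * t * f⁻¹)⁻¹ ∈ H := by
    intro x hx
    have h := hfH _ (htH _ (hfi x hx))
    have e : (f * t * f⁻¹) * x * (f * t * f⁻¹)⁻¹ = f * (t * (f⁻¹ * x * f) * t⁻¹) * f⁻¹ := by
      group
    rw [e]
    exact h
  have ht2H : ∀ x ∈ H, (f⁻¹ * t * f) * x * (f⁻¹ * t * f)⁻¹ ∈ H := by
    intro x hx
    have h := hfi _ (htH _ (hfH x hx))
    have e : (f⁻¹ * t * f) * x * (f⁻¹ * t * f)⁻¹ = f⁻¹ * (t * (f * x * f⁻¹) * t⁻¹) * f := by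
      group
    rw [e]
    exact h
  have hfY1 : ∀ y ∈ cm H (f * t * f⁻¹), f * y * f⁻¹ ∈ cm H (f⁻¹ * t * f) := by
    have h := lq_cm_conj (H := H) f (f * t * f⁻¹) hfH
    have e : f * (f * t * f⁻¹) * f⁻¹ = f⁻¹ * t * f := by
      have : f * (f * t * f⁻¹) * f⁻¹ = (f * f) * t * (f⁻¹ * f⁻¹) := by group
      rw [this, e1, e2]
    rw [e] at h
    exact h
  have hfY2 : ∀ y ∈ cm H (f⁻¹ * t * f), f * y * f⁻¹ ∈ cm H t := by
    have h := lq_cm_conj (H := H) f (f⁻¹ * t * f) hfH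
    have e : f * (f⁻¹ * t * f) * f⁻¹ = t := by group
    rw [e] at h
    exact h
  have htY0 : ∀ y ∈ cm H t, t * y * t⁻¹ ∈ cm H t := by
    have h := lq_cm_conj (H := H) t t htH
    have e : t * t * t⁻¹ = t := by group
    rw [e] at h
    exact h
  have htY1 : ∀ y ∈ cm H (f * t * f⁻¹), t * y * t⁻¹ ∈ cm H (f⁻¹ * t * f) := by
    have h := lq_cm_conj (H := H) t (f * t * f⁻¹) htH
    have e : t * (f * t * f⁻¹) * t⁻¹ = f⁻¹ * t * f := by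
      have : t * (f * t * f⁻¹) * t⁻¹ = (t * f * t⁻¹) * t * (t * f * t⁻¹)⁻¹ := by group
      rw [this, htf, inv_inv]
    rw [e] at h
    exact h
  have htY2 : ∀ y ∈ cm H (f⁻¹ * t * f), t * y * t⁻¹ ∈ cm H (f * t * f⁻¹) := by
    have h := lq_cm_conj (H := H) t (f⁻¹ * t * f) htH
    have e : t * (f⁻¹ * t * f) * t⁻¹ = f * t * f⁻¹ := by
      have : t * (f⁻¹ * t * f) * t⁻¹ = (t * f * t⁻¹)⁻¹ * t * (t * f * t⁻¹) := by group
      rw [this, htf, inv_inv]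
    rw [e] at h
    exact h
  have hft : t * (f * t * f⁻¹) = f := by
    calc t * (f * t * f⁻¹) = (t * f * t⁻¹) * f⁻¹ := by
          rw [tinv]
          group
      _ = f⁻¹ * f⁻¹ := by rw [htf]
      _ = f := e2
  have hgf : ∀ u ∈ H, u⁻¹ * (f * u * f⁻¹) ∈
      cm H t ⊔ cm H (f * t * f⁻¹) ⊔ cm H (f⁻¹ * t * f) := by
    intro u hu
    have key : u⁻¹ * (f * u * f⁻¹) =
        (u⁻¹ * ((f * t * f⁻¹) * u * (f * t * f⁻¹)⁻¹)) *
          (((f * t * f⁻¹) * u * (f * t * f⁻¹)⁻¹)⁻¹ *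
            (t * ((f * t * f⁻¹) * u * (f * t * f⁻¹)⁻¹) * t⁻¹)) := by
      have h : (u⁻¹ * ((f * t * f⁻¹) * u * (f * t * f⁻¹)⁻¹)) *
          (((f * t * f⁻¹) * u * (f * t * f⁻¹)⁻¹)⁻¹ *
            (t * ((f * t * f⁻¹) * u * (f * t * f⁻¹)⁻¹) * t⁻¹)) =
          u⁻¹ * ((t * (f * t * f⁻¹)) * u * (t * (f * t * f⁻¹))⁻¹) := by group
      rw [h, hft]
    rw [key]
    exact Subgroup.mul_mem _
      (Subgroup.mem_sup_left (Subgroup.mem_sup_right (lq_mem_cm hu)))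
      (Subgroup.mem_sup_left (Subgroup.mem_sup_left (lq_mem_cm (ht1H u hu))))
  exact lq_core hlift hf3 ht2 htf hcop hfpf hQ' (lq_cm_le htH) (lq_cm_le ht1H) (lq_cm_le ht2H)
    (lq_cm_normal t) (lq_cm_normal _) (lq_cm_normal _)
    (lq_cm_conj f t hfH) hfY1 hfY2 htY0 htY1 htY2 (fun u hu => lq_mem_cm hu) hgf

end Cfsg.Agent.Lib.Helper34.S3F
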