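import Mathlib
import Cfsg.Prelude.Def_Blocks
import Cfsg.Prelude.Def_Local

/-!
# S4501, piece C5 (helper34 for helper30): the value of a nontrivial irreducible character of a
simple group at an involution is `d - w` with `0 < w ≤ 2 d`.
-/

set_option autoImplicit false
open Cfsg
open scoped ComplexConjugate

namespace Cfsg.Agent.Lib.Helper30.S4501.C5

/-- an irreducible representation with trivial action has dimension one -/
theorem finrank_one_of_trivial {G : Type*} [Group G] {V : Type*} [AddCommGroup V] [Module ℂ V]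
    (ρ : Representation ℂ G V) (hirr : ρ.IsIrreducible) (htriv : ∀ g, ρ g = 1) :
    Module.finrank ℂ V = 1 := by
  rw [← isSimpleModule_iff_finrank_eq_one, isSimpleModule_iff]
  have hnt : Nontrivial (Submodule ℂ V) := by
    obtain ⟨a, b, hab⟩ := hirr.toNontrivial.exists_pair_ne
    exact ⟨a.toSubmodule, b.toSubmodule,
      fun h => hab (Subrepresentation.toSubmodule_injective h)⟩
  refine ⟨fun W => ?_⟩
  have h := hirr.eq_bot_or_eq_top
    (⟨W, fun g v hv => by rw [htriv g]; exact hv⟩ : Subrepresentation ρ)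
  rcases h with h | h
  · left
    exact congrArg Subrepresentation.toSubmodule h
  · right
    exact congrArg Subrepresentation.toSubmodule h

theorem involution_value {G : Type*} [Group G] [Finite G] [IsSimpleGroup G]
    (hna : ∃ x y : G, x * y ≠ y * x) (ζ : Cfsg.IrrCharacter G)
    (hζ : (ζ : G → ℂ) ≠ (fun _ => 1)) (t : G) (ht : orderOf t = 2) :
    ∃ w : ℕ, 0 < w ∧ w ≤ 2 * Cfsg.charDegree (ζ : G → ℂ) ∧
      (ζ : G → ℂ) t = (Cfsg.charDegree (ζ : G → ℂ) : ℂ) - (w : ℂ) := by
  obtain ⟨n, ρ, hirr, hχ⟩ := ζ.2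
  have hζ1 : (ζ : G → ℂ) 1 = (n : ℂ) := by
    rw [← hχ, Representation.char_one, Module.finrank_fin_fun]
  have hdeg : Cfsg.charDegree (ζ : G → ℂ) = n := by
    unfold Cfsg.charDegree
    rw [hζ1, Complex.natCast_re, Nat.floor_natCast]
  rw [hdeg]
  have ht1 : t ≠ 1 := by
    rintro rfl
    rw [orderOf_one] at ht
    exact absurd ht (by norm_num)
  have ht2 : t * t = 1 := by
    rw [← pow_two, ← ht]
    exact pow_orderOf_eq_one t
  obtain ⟨T, hT⟩ : ∃ T : Module.End ℂ (Fin n → ℂ), T = ρ t := ⟨_, rfl⟩
  have hTT : T * T = 1 := by rw [hT, ← map_mul, ht2, map_one]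
  obtain ⟨P, hP⟩ : ∃ P : Module.End ℂ (Fin n → ℂ), P = (1 / 2 : ℂ) • (1 - T) := ⟨_, rfl⟩
  have hA : (1 - T) * (1 - T) = (2 : ℂ) • (1 - T) := by
    rw [mul_sub, sub_mul, sub_mul, one_mul, mul_one, one_mul, hTT, two_smul]
    abel
  have hPP : IsIdempotentElem P := by
    unfold IsIdempotentElem
    rw [hP, smul_mul_smul_comm, hA, smul_smul]
    norm_num
  have htr : LinearMap.trace ℂ (Fin n → ℂ) P =
      (Module.finrank ℂ (LinearMap.range P) : ℂ) :=
    (LinearMap.IsIdempotentElem.isProj_range P hPP).trace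
  have hTP : T = 1 - (2 : ℂ) • P := by
    rw [hP, smul_smul]
    norm_num
  have hζt : (ζ : G → ℂ) t =
      (n : ℂ) - ((2 * Module.finrank ℂ (LinearMap.range P) : ℕ) : ℂ) := by
    rw [← hχ]
    show LinearMap.trace ℂ (Fin n → ℂ) (ρ t) = _
    rw [← hT, hTP, map_sub, map_smul, LinearMap.trace_one, htr, Module.finrank_fin_fun]
    push_cast
    rw [smul_eq_mul]
  refine ⟨2 * Module.finrank ℂ (LinearMap.range P), ?_, ?_, hζt⟩
  · by_contra h0
    have hk : Module.finrank ℂ (LinearMap.range P) = 0 := by omega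
    have hP0 : P = 0 := LinearMap.range_eq_bot.mp (Submodule.finrank_eq_zero.mp hk)
    have hT1 : ρ t = 1 := by rw [← hT, hTP, hP0, smul_zero, sub_zero]
    let K : Subgroup G :=
      { carrier := {g | ρ g = 1}
        mul_mem' := by
          intro a b ha hb
          show ρ (a * b) = 1
          rw [map_mul, show ρ a = 1 from ha, show ρ b = 1 from hb, mul_one]
        one_mem' := map_one ρ
        inv_mem' := by
          intro a ha
          show ρ a⁻¹ = 1
          have h1 : ρ a⁻¹ * ρ a = 1 := by rw [← map_mul, inv_mul_cancel, map_one]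
          rw [show ρ a = 1 from ha, mul_one] at h1
          exact h1 }
    have hKn : K.Normal := by
      refine ⟨fun g hg h => ?_⟩
      show ρ (h * g * h⁻¹) = 1
      rw [map_mul, map_mul, show ρ g = 1 from hg, mul_one, ← map_mul, mul_inv_cancel, map_one]
    rcases hKn.eq_bot_or_eq_top with hb | htop
    · have htK : t ∈ K := hT1
      rw [hb, Subgroup.mem_bot] at htK
      exact ht1 htK
    · have hall : ∀ g, ρ g = 1 := by
        intro g
        have hg : g ∈ K := by rw [htop]; exact Subgroup.mem_top g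
        exact hg
      have hn1 : n = 1 := by
        have h1 := finrank_one_of_trivial ρ hirr hall
        rwa [Module.finrank_fin_fun] at h1
      apply hζ
      funext g
      rw [← hχ]
      show LinearMap.trace ℂ (Fin n → ℂ) (ρ g) = 1
      rw [hall g, LinearMap.trace_one, Module.finrank_fin_fun, hn1]
      simp
  · have h1 := Submodule.finrank_le (LinearMap.range P)
    rw [Module.finrank_fin_fun] at h1
    omega

end Cfsg.Agent.Lib.Helper30.S4501.C5
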