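import Mathlib
import Cfsg.Prelude.Def_GeometricClasses
import Cfsg.Prelude.Def_LieClassical

/-! Project SUP (helper71), piece U9: an `r`-group in characteristic `p ≠ r` has no non-trivial
quadratic unipotent element. -/

set_option autoImplicit false

namespace Cfsg.Agent.Lib.Helper34.SUPU9

open Matrix Cfsg.Geo

variable {n : ℕ} {F : Type*} [Field F] [Fintype F] {q : ℕ}

/-- U9: an `r`-group in characteristic `p ≠ r` has no non-trivial unipotent element. -/
theorem U9 (L : Subgroup (GL (Fin n) F)) (r p : ℕ) (hL : IsPGroup r L) (hp : p.Prime)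
    (hr : r.Prime) (hchar : CharP F p) (hrp : r ≠ p) :
    ∀ y ∈ L, (y.1 - 1) * (y.1 - 1) = 0 → y = 1 := by
  intro y hy hN
  have hpow : ∀ k : ℕ, (y.1 : Matrix (Fin n) (Fin n) F) ^ k = 1 + k • (y.1 - 1) := by
    intro k
    induction k with
    | zero => simp
    | succ k ih =>
      have h1 : (y.1 : Matrix (Fin n) (Fin n) F) = 1 + (y.1 - 1) := by abel
      rw [pow_succ, ih]
      nth_rewrite 2 [h1]
      rw [add_mul, mul_add, mul_add, one_mul, mul_one, one_mul, smul_mul_assoc, hN, smul_zero,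
        add_zero, succ_nsmul]
      abel
  have hyp : y ^ p = 1 := by
    apply Units.ext
    rw [Units.val_pow_eq_pow_val, hpow p, ← Nat.cast_smul_eq_nsmul F p, CharP.cast_eq_zero F p,
      zero_smul, add_zero]
    rfl
  obtain ⟨k, hk⟩ := hL ⟨y, hy⟩
  have hyr : y ^ (r ^ k) = 1 := by
    have h := congrArg Subtype.val hk
    simpa using h
  have hcop : Nat.Coprime p (r ^ k) :=
    Nat.Coprime.pow_right k ((Nat.coprime_primes hp hr).mpr hrp.symm)
  have h1 : orderOf y ∣ p := orderOf_dvd_of_pow_eq_one hyp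
  have h2 : orderOf y ∣ r ^ k := orderOf_dvd_of_pow_eq_one hyr
  have h3 : orderOf y ∣ 1 := by
    have h := Nat.dvd_gcd h1 h2
    rwa [hcop.gcd_eq_one] at h
  exact orderOf_eq_one_iff.mp (Nat.dvd_one.mp h3)

end Cfsg.Agent.Lib.Helper34.SUPU9
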