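import Mathlib
import Cfsg.Prelude.Def_GeometricClasses
import Cfsg.Prelude.Def_LieClassical
import Cfsg.Agent.Lib.Helper71.SUP0

/-! Project SUQ (helper50, S5841), piece NU2Q (helper34): `SU_n(q)` (`n ≥ 4`) stabilises no
decomposition into blocks of dimension at least 2.  A unitary transvection with isotropic
centre `v` fixes a non-zero vector of every block, hence fixes every block; so every block
contains `v` or is orthogonal to `v`, and every non-zero isotropic vector lies in exactly one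
block.  Two isotropic vectors of different blocks are then orthogonal and their sum is an
isotropic vector lying in no block. -/

set_option autoImplicit false

namespace Cfsg.Agent.Lib.Helper34.SUQNU2Q

open Matrix Cfsg.Geo Cfsg.Agent.Lib.Helper7 Cfsg.Agent.Lib.Helper18 Cfsg.Agent.Lib.Helper93
open Cfsg.Agent.Lib.Helper71

variable {n : ℕ} {F : Type*} [Field F] [Fintype F] {q : ℕ}

/-- a non-zero vector of a subspace of dimension at least 2 orthogonal to a given vector -/
theorem nu2q_perp (W : Submodule F (Fin n → F)) (hW : 2 ≤ Module.finrank F W) (v : Fin n → F) :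
    ∃ x ∈ W, x ≠ 0 ∧ Cfsg.hermForm n F q x v = 0 := by
  let φ : W →ₗ[F] F :=
    { toFun := fun x => Cfsg.hermForm n F q x.1 v
      map_add' := fun x y => hf_add_left n x.1 y.1 v
      map_smul' := fun a x => hf_smul_left n a x.1 v }
  have hlt : Module.finrank F F < Module.finrank F W := by
    rw [Module.finrank_self]; omega
  have hker : LinearMap.ker φ ≠ ⊥ := LinearMap.ker_ne_bot_of_finrank_lt hlt
  obtain ⟨x, hx, hx0⟩ := (Submodule.ne_bot_iff _).mp hker
  refine ⟨x.1, x.2, fun h => hx0 (Subtype.ext h), ?_⟩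
  exact LinearMap.mem_ker.mp hx

/-- NU2Q -/
theorem NU2Q (hF : Fintype.card F = q ^ 2) (hn : 4 ≤ n) {t m : ℕ}
    (D : Fin t → Submodule F (Fin n → F)) (hD : IsMDecomposition m D) (hm : 2 ≤ m) :
    ¬ (Cfsg.GU n F q ⊓ specialLinear (Fin n) F) ≤ decompositionStabilizer D := by
  intro hle
  have ht := hD.two_le
  have hn2 : 2 ≤ n := by omega
  obtain ⟨μ, hμ0, hμ⟩ := SUP.exists_mu hF
  -- disjointness of the blocks
  have hdisj : ∀ (i : Fin t) (v : Fin n → F), v ∈ D i →
      v ∈ (⨆ (l : Fin t) (_ : l ≠ i), D l) → v = 0 := by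
    intro i v hvi hv
    exact Submodule.disjoint_def.mp (hD.indep i) v hvi hv
  have hdisj2 : ∀ (i j : Fin t) (v : Fin n → F), i ≠ j → v ∈ D i → v ∈ D j → v = 0 := by
    intro i j v hij hvi hvj
    exact hdisj i v hvi
      (Submodule.mem_iSup_of_mem j (Submodule.mem_iSup_of_mem (Ne.symm hij) hvj))
  have hne : ∀ i, ∃ x ∈ D i, x ≠ 0 := by
    intro i
    have h1 : D i ≠ ⊥ := by
      intro h
      have h2 := hD.finrank_eq i
      rw [h, finrank_bot] at h2
      omega
    exact (Submodule.ne_bot_iff _).mp h1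
  -- for an isotropic `v`, every block contains `v` or is orthogonal to `v`
  have step2 : ∀ v : Fin n → F, Cfsg.hermForm n F q v v = 0 → ∀ i : Fin t,
      v ∈ D i ∨ ∀ y ∈ D i, Cfsg.hermForm n F q y v = 0 := by
    intro v hvv i
    by_contra hcon
    push Not at hcon
    obtain ⟨hvi, y, hy, hyv⟩ := hcon
    obtain ⟨τ, hτS, -, -, hτx, -⟩ := SUP.exists_tv hF v μ hvv hμ
    obtain ⟨σ, hσ⟩ := hle hτS
    obtain ⟨x, hx, hx0, hxv⟩ :=
      nu2q_perp (q := q) (D i) (by rw [hD.finrank_eq i]; exact hm) v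
    have h1 : τ.1 *ᵥ x ∈ D (σ i) := by
      rw [← hσ i]
      exact ⟨x, hx, Matrix.toLin'_apply _ _⟩
    rw [hτx, hxv, mul_zero, zero_smul, add_zero] at h1
    have hσi : σ i = i := by
      by_contra hne'
      exact hx0 (hdisj2 i (σ i) x (Ne.symm hne') hx h1)
    have h2 : τ.1 *ᵥ y ∈ D (σ i) := by
      rw [← hσ i]
      exact ⟨y, hy, Matrix.toLin'_apply _ _⟩
    rw [hτx, hσi] at h2
    have h3 : (μ * Cfsg.hermForm n F q y v) • v ∈ D i := by
      have h := Submodule.sub_mem _ h2 hy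
      rwa [add_sub_cancel_left] at h
    have h4 : μ * Cfsg.hermForm n F q y v ≠ 0 := mul_ne_zero hμ0 hyv
    apply hvi
    have h := Submodule.smul_mem (D i) (μ * Cfsg.hermForm n F q y v)⁻¹ h3
    rwa [smul_smul, inv_mul_cancel₀ h4, one_smul] at h
  -- a non-zero isotropic vector lies in a block
  have step3 : ∀ v : Fin n → F, v ≠ 0 → Cfsg.hermForm n F q v v = 0 →
      ∃ i : Fin t, v ∈ D i := by
    intro v hv0 hvv
    by_contra hcon
    push Not at hcon
    apply hv0
    apply herm_nondeg hF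
    intro x
    have hx : x ∈ iSup D := by
      rw [hD.iSup_eq_top]
      exact Submodule.mem_top
    refine Submodule.iSup_induction D (motive := fun x => Cfsg.hermForm n F q x v = 0) hx
      ?_ ?_ ?_
    · intro i y hy
      exact (step2 v hvv i).resolve_left (hcon i) y hy
    · exact hf_zero_left n v
    · intro x y hx hy
      rw [hf_add_left, hx, hy, add_zero]
  -- no block contains all the non-zero isotropic vectors
  have claim : ∀ k : Fin t, ∃ v : Fin n → F, v ≠ 0 ∧ Cfsg.hermForm n F q v v = 0 ∧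
      v ∉ D k := by
    intro k
    by_contra hcon
    push Not at hcon
    have hall : ∀ v : Fin n → F, Cfsg.hermForm n F q v v = 0 → v ∈ D k := by
      intro v hvv
      by_cases hv0 : v = 0
      · rw [hv0]
        exact Submodule.zero_mem _
      · exact hcon v hv0 hvv
    have htop : ∀ x : Fin n → F, x ∈ D k := by
      intro x
      obtain ⟨a, b, ha, hb, rfl⟩ := SUP.exists_iso_pair hF hn2 x
      exact Submodule.add_mem _ (hall a ha) (hall b hb)
    obtain ⟨k', hk'⟩ : ∃ k' : Fin t, k' ≠ k := by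
      by_cases h0 : k = ⟨0, by omega⟩
      · refine ⟨⟨1, by omega⟩, ?_⟩
        rw [h0]
        intro h
        simpa using congrArg Fin.val h
      · exact ⟨⟨0, by omega⟩, Ne.symm h0⟩
    obtain ⟨x, hx, hx0⟩ := hne k'
    exact hx0 (hdisj2 k' k x hk' hx (htop x))
  obtain ⟨v₂, hv₂0, hv₂i, -⟩ := claim ⟨0, by omega⟩
  obtain ⟨j, hj⟩ := step3 v₂ hv₂0 hv₂i
  obtain ⟨v₁, hv₁0, hv₁i, hv₁j⟩ := claim j
  obtain ⟨i, hi⟩ := step3 v₁ hv₁0 hv₁i
  have hij : i ≠ j := by
    rintro rfl
    exact hv₁j hi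
  have hv₂ni : v₂ ∉ D i := fun h => hv₂0 (hdisj2 i j v₂ hij h hj)
  have h12 : Cfsg.hermForm n F q v₁ v₂ = 0 := (step2 v₂ hv₂i i).resolve_left hv₂ni v₁ hi
  have h21 : Cfsg.hermForm n F q v₂ v₁ = 0 := hf_eq_zero_symm hF n _ _ h12
  have hww : Cfsg.hermForm n F q (v₁ + v₂) (v₁ + v₂) = 0 := by
    rw [hf_add_left, hf_add_right hF, hf_add_right hF, hv₁i, hv₂i, h12, h21]
    ring
  have hw0 : v₁ + v₂ ≠ 0 := by
    intro h
    have h1 : v₁ = -v₂ := eq_neg_of_add_eq_zero_left h
    apply hv₁0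
    refine hdisj2 i j v₁ hij hi ?_
    rw [h1]
    exact Submodule.neg_mem _ hj
  obtain ⟨k, hk⟩ := step3 (v₁ + v₂) hw0 hww
  by_cases hki : k = i
  · apply hv₂0
    refine hdisj2 i j v₂ hij ?_ hj
    have h2 : v₂ = (v₁ + v₂) - v₁ := by abel
    rw [h2]
    exact Submodule.sub_mem _ (hki ▸ hk) hi
  · apply hv₁0
    refine hdisj i v₁ hi ?_
    have h2 : v₁ = (v₁ + v₂) - v₂ := by abel
    rw [h2]
    refine Submodule.sub_mem _ ?_ ?_
    · exact Submodule.mem_iSup_of_mem k (Submodule.mem_iSup_of_mem hki hk)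
    · exact Submodule.mem_iSup_of_mem j (Submodule.mem_iSup_of_mem (Ne.symm hij) hj)

end Cfsg.Agent.Lib.Helper34.SUQNU2Q
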