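import Mathlib

/-!
# S5965, piece ARITHN2 (project of helper96, proof by helper34)
-/

set_option autoImplicit false

namespace Cfsg.Agent.Lib.Helper34.Sf

open Polynomial

-- PIECE ARITHN2
theorem not_dvd_n2 (q₀ r : ℕ) (hr : r.Prime) (hr2 : r ≠ 2) (hq₀ : 2 ≤ q₀) (hdvd : r ∣ q₀ + 1)
    (c : ℕ)
    (hc : c * ((q₀ ^ 2 - 1) * ∏ i : Fin 2, (q₀ ^ 2 - q₀ ^ (i : ℕ))) =
      (q₀ - 1) * ∏ i : Fin 2, ((q₀ ^ 2) ^ 2 - (q₀ ^ 2) ^ (i : ℕ))) : ¬ r ∣ c := by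
  obtain ⟨a, rfl⟩ : ∃ a, q₀ = a + 1 := ⟨q₀ - 1, by omega⟩
  have ha : 1 ≤ a := by omega
  rw [Fin.prod_univ_two, Fin.prod_univ_two] at hc
  simp only [Fin.val_zero, Fin.val_one, pow_zero, pow_one] at hc
  have e1 : (a + 1) ^ 2 - 1 = a * (a + 2) := by
    apply Nat.sub_eq_of_eq_add; ring
  have e2 : (a + 1) ^ 2 - (a + 1) = a * (a + 1) := by
    apply Nat.sub_eq_of_eq_add; ring
  have e3 : ((a + 1) ^ 2) ^ 2 - 1 = a * (a + 2) * ((a + 1) ^ 2 + 1) := by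
    apply Nat.sub_eq_of_eq_add; ring
  have e4 : ((a + 1) ^ 2) ^ 2 - (a + 1) ^ 2 = (a + 1) ^ 2 * (a * (a + 2)) := by
    apply Nat.sub_eq_of_eq_add; ring
  have e5 : a + 1 - 1 = a := by omega
  rw [e1, e2, e3, e4, e5] at hc
  have hc' : c * (a ^ 3 * (a + 2) ^ 2 * (a + 1)) =
      ((a + 1) * ((a + 1) ^ 2 + 1)) * (a ^ 3 * (a + 2) ^ 2 * (a + 1)) := by
    calc c * (a ^ 3 * (a + 2) ^ 2 * (a + 1))
        = c * (a * (a + 2) * (a * (a + 2) * (a * (a + 1)))) := by ring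
      _ = a * (a * (a + 2) * ((a + 1) ^ 2 + 1) * ((a + 1) ^ 2 * (a * (a + 2)))) := hc
      _ = ((a + 1) * ((a + 1) ^ 2 + 1)) * (a ^ 3 * (a + 2) ^ 2 * (a + 1)) := by ring
  have hpos : 0 < a ^ 3 * (a + 2) ^ 2 * (a + 1) := by positivity
  have hceq : c = (a + 1) * ((a + 1) ^ 2 + 1) := Nat.eq_of_mul_eq_mul_right hpos hc'
  intro hrc
  have h2 : r ∣ c + 2 := by
    have h : c + 2 = (a + 1 + 1) * (a ^ 2 + a + 2) := by rw [hceq]; ring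
    rw [h]; exact Dvd.dvd.mul_right hdvd _
  have h3 : r ∣ 2 := (Nat.dvd_add_right hrc).mp h2
  have h4 := Nat.le_of_dvd (by norm_num) h3
  have h5 := hr.two_le
  omega

end Cfsg.Agent.Lib.Helper34.Sf
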