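import Mathlib

/-!
# S5965, piece DEGDET (project of helper96, proof by helper34)
-/

set_option autoImplicit false

namespace Cfsg.Agent.Lib.Helper34.Sf

open Polynomial

-- PIECE DEGDET
theorem deg_det_of_prod {K : Type*} [Field K] {n : ℕ} (M : Matrix (Fin n) (Fin n) K) (r : ℕ)
    (ω : K) (m : ℕ → ℕ) (hM : M.charpoly = ∏ j ∈ Finset.range r, (X - C (ω ^ j)) ^ m j) :
    ∑ j ∈ Finset.range r, m j = n ∧ M.det = ω ^ ∑ j ∈ Finset.range r, j * m j := by
  have hdeg : ∑ j ∈ Finset.range r, m j = n := by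
    have h1 := Matrix.charpoly_natDegree_eq_dim M
    rw [hM, Polynomial.natDegree_prod_of_monic _ _ (fun j _ => (monic_X_sub_C _).pow _)] at h1
    simp only [Fintype.card_fin] at h1
    rw [← h1]
    apply Finset.sum_congr rfl
    intro j _
    rw [(monic_X_sub_C _).natDegree_pow, natDegree_X_sub_C, mul_one]
  refine ⟨hdeg, ?_⟩
  rw [Matrix.det_eq_sign_charpoly_coeff, hM, coeff_zero_eq_eval_zero, eval_prod]
  simp only [eval_pow, eval_sub, eval_X, eval_C, zero_sub, Fintype.card_fin]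
  have h2 : ∀ j ∈ Finset.range r, (-(ω ^ j)) ^ m j = (-1) ^ m j * ω ^ (j * m j) := by
    intro j _
    rw [neg_pow, pow_mul]
  rw [Finset.prod_congr rfl h2, Finset.prod_mul_distrib, Finset.prod_pow_eq_pow_sum,
    Finset.prod_pow_eq_pow_sum, hdeg, ← mul_assoc, ← pow_add, ← two_mul, pow_mul]
  simp

end Cfsg.Agent.Lib.Helper34.Sf
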