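import Mathlib

/-!
# S5965, piece EXISTW (project of helper96, proof by helper34)
-/

set_option autoImplicit false

namespace Cfsg.Agent.Lib.Helper34.Sf

open Polynomial

-- PIECE EXISTW
theorem exists_w {F : Type*} [Field F] [Fintype F] (n r : ℕ) [Fact r.Prime] (hn : n ≠ 0)
    (hv : padicValNat r n < padicValNat r (Fintype.card F - 1)) (ω : F) (hω : ω ^ r = 1) :
    ∃ w : F, w ≠ 0 ∧ w ^ n * ω = 1 := by
  classical
  have hr : r.Prime := Fact.out
  have hω0 : ω ≠ 0 := by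
    rintro rfl
    rw [zero_pow hr.ne_zero] at hω
    exact zero_ne_one hω
  obtain ⟨N, hN⟩ : ∃ N, N = Fintype.card F - 1 := ⟨_, rfl⟩
  rw [← hN] at hv
  have hNpos : 0 < N := by
    have h := Fintype.one_lt_card (α := F)
    omega
  obtain ⟨g, hg⟩ := IsCyclic.exists_generator (α := Fˣ)
  have hord : orderOf g = N := by
    rw [orderOf_eq_card_of_forall_mem_zpowers hg, Nat.card_eq_fintype_card, Fintype.card_units, hN]
  obtain ⟨u, hu⟩ : ∃ u : Fˣ, u = (Units.mk0 ω hω0)⁻¹ := ⟨_, rfl⟩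
  have hur : u ^ r = 1 := by
    rw [hu, inv_pow, inv_eq_one]
    ext
    simp [hω]
  obtain ⟨j, hj⟩ := Subgroup.mem_zpowers_iff.mp (hg u)
  obtain ⟨d, hd⟩ : ∃ d, d = Nat.gcd n N := ⟨_, rfl⟩
  have hdpos : 0 < d := hd ▸ Nat.gcd_pos_of_pos_right _ hNpos
  have hdN : d ∣ N := hd ▸ Nat.gcd_dvd_right n N
  have hdn : d ∣ n := hd ▸ Nat.gcd_dvd_left n N
  have hrNd : r ∣ N / d := by
    have h1 : padicValNat r d ≤ padicValNat r n :=
      (padicValNat_dvd_iff_le hn).mp ((pow_padicValNat_dvd).trans hdn)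
    have h2 : padicValNat r (N / d) = padicValNat r N - padicValNat r d :=
      padicValNat.div_of_dvd hdN
    exact dvd_of_one_le_padicValNat (by omega)
  have hNd : N = d * (N / d) := (Nat.mul_div_cancel' hdN).symm
  have hNdpos : 0 < N / d := Nat.div_pos (Nat.le_of_dvd hNpos hdN) hdpos
  have huNd : u ^ (N / d) = 1 := by
    obtain ⟨t, ht⟩ := hrNd
    rw [ht, pow_mul, hur, one_pow]
  have hdj : (d : ℤ) ∣ j := by
    have h1 : g ^ (j * ((N / d : ℕ) : ℤ)) = 1 := by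
      rw [zpow_mul, hj, zpow_natCast, huNd]
    have h2 : ((orderOf g : ℕ) : ℤ) ∣ j * ((N / d : ℕ) : ℤ) := orderOf_dvd_iff_zpow_eq_one.mpr h1
    rw [hord] at h2
    have h3 : ((N : ℕ) : ℤ) = (d : ℤ) * ((N / d : ℕ) : ℤ) := by
      rw [← Nat.cast_mul, ← hNd]
    rw [h3] at h2
    exact Int.dvd_of_mul_dvd_mul_right (by exact_mod_cast hNdpos.ne') h2
  obtain ⟨k, hk⟩ := hdj
  have hbez : (d : ℤ) = n * Nat.gcdA n N + N * Nat.gcdB n N := by
    rw [hd]; exact Nat.gcd_eq_gcd_ab n N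
  have hgN : g ^ (N : ℤ) = 1 := by
    rw [zpow_natCast, ← hord, pow_orderOf_eq_one]
  have hw : (g ^ (Nat.gcdA n N * k)) ^ n = u := by
    rw [← hj, hk, hbez, ← zpow_natCast, ← zpow_mul]
    have h1 : ((n : ℤ) * Nat.gcdA n N + N * Nat.gcdB n N) * k
        = Nat.gcdA n N * k * n + (N : ℤ) * (Nat.gcdB n N * k) := by ring
    rw [h1, zpow_add, zpow_mul g (N : ℤ), hgN, one_zpow, mul_one]
  refine ⟨((g ^ (Nat.gcdA n N * k) : Fˣ) : F), Units.ne_zero _, ?_⟩
  have h1 := congrArg (fun x : Fˣ => (x : F)) hw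
  simp only [Units.val_pow_eq_pow_val] at h1
  rw [h1, hu]
  simp [hω0]

end Cfsg.Agent.Lib.Helper34.Sf
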