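import Mathlib

/-!
# S5965, piece MAJ (project of helper96, proof by helper34)
-/

set_option autoImplicit false

namespace Cfsg.Agent.Lib.Helper34.Sf

open Polynomial

-- PIECE MAJ
theorem maj_center (n r q₀ : ℕ) [Fact r.Prime] (hr₀ : ¬ r ∣ q₀ - 1) (hq₀ : 1 ≤ q₀)
    (a : Fin n → ℕ)
    (hmaj : n < 2 * (Finset.univ.filter (fun l : Fin n => a l % r = 0)).card) (c : ℕ)
    (hc : ∀ j : ℕ,
      (Finset.univ.filter (fun l : Fin n => a l % r = (c + q₀ * j) % r)).card =
        (Finset.univ.filter (fun l : Fin n => a l % r = (c + j) % r)).card) :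
    ∀ j : ℕ,
      (Finset.univ.filter (fun l : Fin n => a l % r = (q₀ * j) % r)).card =
        (Finset.univ.filter (fun l : Fin n => a l % r = j % r)).card := by
  have hr : r.Prime := Fact.out
  obtain ⟨j0, hj0⟩ : ∃ j0, j0 = r - c % r := ⟨_, rfl⟩
  have hlt : c % r < r := Nat.mod_lt _ hr.pos
  have h1 : (c + j0) % r = 0 := by
    have h : c + j0 = r * (c / r) + r := by
      have h' := Nat.div_add_mod c r
      omega
    rw [h, Nat.add_mod, Nat.mul_mod_right, Nat.mod_self, add_zero, Nat.zero_mod]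
  have h2 : (c + q₀ * j0) % r = 0 := by
    by_contra hne
    have hcj := hc j0
    rw [h1] at hcj
    have hdisj : Disjoint (Finset.univ.filter (fun l : Fin n => a l % r = (c + q₀ * j0) % r))
        (Finset.univ.filter (fun l : Fin n => a l % r = 0)) := by
      rw [Finset.disjoint_filter]
      intro l _ h h'
      exact hne (h ▸ h')
    have hcard := Finset.card_union_of_disjoint hdisj
    have hle : ((Finset.univ.filter (fun l : Fin n => a l % r = (c + q₀ * j0) % r)) ∪
        (Finset.univ.filter (fun l : Fin n => a l % r = 0))).card ≤ n := by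
      calc _ ≤ (Finset.univ : Finset (Fin n)).card := Finset.card_le_card (Finset.subset_univ _)
        _ = n := by simp
    omega
  have hd1 : r ∣ c + j0 := Nat.dvd_of_mod_eq_zero h1
  have h3 : r ∣ j0 := by
    have hd2 : r ∣ c + q₀ * j0 := Nat.dvd_of_mod_eq_zero h2
    have hd3 : r ∣ (q₀ - 1) * j0 := by
      have h : c + q₀ * j0 = (c + j0) + (q₀ - 1) * j0 := by
        obtain ⟨t, rfl⟩ : ∃ t, q₀ = t + 1 := ⟨q₀ - 1, by omega⟩
        simp only [Nat.add_sub_cancel]
        ring
      rw [h] at hd2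
      exact (Nat.dvd_add_right hd1).mp hd2
    exact (hr.dvd_mul.mp hd3).resolve_left hr₀
  have h4 : r ∣ c := (Nat.dvd_add_left h3).mp hd1
  intro j
  have h5 := hc j
  have e1 : (c + q₀ * j) % r = (q₀ * j) % r := by
    rw [Nat.add_mod, Nat.mod_eq_zero_of_dvd h4, zero_add, Nat.mod_mod]
  have e2 : (c + j) % r = j % r := by
    rw [Nat.add_mod, Nat.mod_eq_zero_of_dvd h4, zero_add, Nat.mod_mod]
  rw [e1, e2] at h5
  exact h5

end Cfsg.Agent.Lib.Helper34.Sf
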