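import Mathlib

/-!
# S5965, piece ORDERLE (project of helper96, proof by helper34)
-/

set_option autoImplicit false

namespace Cfsg.Agent.Lib.Helper34.Sf

open Polynomial

-- PIECE ORDERLE
theorem order_le_of_dvd (q r n : ℕ) (hr : r.Prime) (hrq : ¬ r ∣ q) (hq : 2 ≤ q) (hn : n ≠ 0)
    (c : ℕ) (hdvd : r ∣ c * ∏ i : Fin n, (q ^ n - q ^ (i : ℕ))) (hc : r ∣ c → r ∣ q - 1) :
    orderOf ((q : ℕ) : ZMod r) ≤ n := by
  have key : ∀ k : ℕ, 0 < k → r ∣ q ^ k - 1 → orderOf ((q : ℕ) : ZMod r) ≤ k := by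
    intro k hk hd
    have h1 : ((q : ℕ) : ZMod r) ^ k = 1 := by
      have hpos : 1 ≤ q ^ k := Nat.one_le_pow _ _ (by omega)
      have h2 : ((q ^ k - 1 : ℕ) : ZMod r) = 0 := (ZMod.natCast_eq_zero_iff _ _).mpr hd
      have h3 : q ^ k = (q ^ k - 1) + 1 := by omega
      rw [← Nat.cast_pow, h3, Nat.cast_add, h2, zero_add, Nat.cast_one]
    exact Nat.le_of_dvd hk (orderOf_dvd_of_pow_eq_one h1)
  rcases (Nat.Prime.dvd_mul hr).mp hdvd with h | h
  · have h1 := key 1 one_pos (by simpa using hc h)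
    omega
  · obtain ⟨i, -, hi⟩ := (Prime.dvd_finsetProd_iff hr.prime _).mp h
    have hin : (i : ℕ) < n := i.2
    have e : q ^ n - q ^ (i : ℕ) = q ^ (i : ℕ) * (q ^ (n - i) - 1) := by
      rw [Nat.mul_sub, mul_one, ← pow_add]
      congr 2
      omega
    rw [e] at hi
    rcases (Nat.Prime.dvd_mul hr).mp hi with h' | h'
    · exact absurd (hr.dvd_of_dvd_pow h') hrq
    · have h1 := key (n - i) (by omega) h'
      omega

end Cfsg.Agent.Lib.Helper34.Sf
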