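import Mathlib

/-!
# S5965, piece SCALAR (project of helper96, proof by helper34)
-/

set_option autoImplicit false

namespace Cfsg.Agent.Lib.Helper34.Sf

open Polynomial

-- PIECE SCALAR
theorem eq_smul_one_of_charpoly {K : Type*} [Field K] {n : ℕ} (M : Matrix (Fin n) (Fin n) K)
    (r : ℕ) (hr0 : (r : K) ≠ 0) (hM : M ^ r = 1) (a : K) (hc : M.charpoly = (X - C a) ^ n) :
    M = a • (1 : Matrix (Fin n) (Fin n) K) := by
  rcases Nat.eq_zero_or_pos n with rfl | hn
  · exact Subsingleton.elim _ _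
  have h1 : minpoly K M ∣ X ^ r - 1 := by
    apply minpoly.dvd
    simp [hM]
  have hsep : (X ^ r - 1 : K[X]).Separable := by
    have h := Polynomial.separable_X_pow_sub_C (1 : K) hr0 one_ne_zero
    simpa using h
  have hsq : Squarefree (minpoly K M) := (hsep.of_dvd h1).squarefree
  have h2 : minpoly K M ∣ (X - C a) ^ n := hc ▸ Matrix.minpoly_dvd_charpoly M
  have h3 : minpoly K M ∣ X - C a := (hsq.dvd_pow_iff_dvd hn.ne').mp h2
  obtain ⟨g, hg⟩ := h3
  have h4 : Polynomial.aeval M (X - C a) = 0 := by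
    rw [hg, map_mul, minpoly.aeval, zero_mul]
  rw [map_sub, Polynomial.aeval_X, Polynomial.aeval_C, sub_eq_zero] at h4
  rw [h4, Algebra.algebraMap_eq_smul_one]

end Cfsg.Agent.Lib.Helper34.Sf
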