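import Mathlib

/-!
# S5965, piece SMULPROD (project of helper96, proof by helper34)
-/

set_option autoImplicit false

namespace Cfsg.Agent.Lib.Helper34.Sf

open Polynomial

-- PIECE SMULPROD
theorem charpoly_smul_prod {K : Type*} [Field K] {n : ℕ} (M : Matrix (Fin n) (Fin n) K) (u : K)
    (hu : u ≠ 0) (s : Finset ℕ) (lam : ℕ → K) (m : ℕ → ℕ)
    (hM : M.charpoly = ∏ j ∈ s, (X - C (lam j)) ^ m j) :
    (u • M).charpoly = ∏ j ∈ s, (X - C (u * lam j)) ^ m j := by
  have hdeg : ∑ j ∈ s, m j = n := by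
    have h1 := Matrix.charpoly_natDegree_eq_dim M
    rw [hM, Polynomial.natDegree_prod_of_monic _ _ (fun j _ => (monic_X_sub_C _).pow _)] at h1
    simp only [Fintype.card_fin] at h1
    rw [← h1]
    apply Finset.sum_congr rfl
    intro j _
    rw [(monic_X_sub_C _).natDegree_pow, natDegree_X_sub_C, mul_one]
  set φ : K[X] →+* K[X] := Polynomial.compRingHom (C u⁻¹ * X) with hφ
  have hφX : φ X = C u⁻¹ * X := by simp [hφ]
  have hφC : ∀ a : K, φ (C a) = C a := by intro a; simp [hφ]
  have huu : (C u : K[X]) * C u⁻¹ = 1 := by rw [← C_mul, mul_inv_cancel₀ hu, C_1]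
  have hcm : Matrix.charmatrix (u • M) = C u • (φ.mapMatrix (Matrix.charmatrix M)) := by
    have hL : ∀ i j, (C u • (φ.mapMatrix (Matrix.charmatrix M))) i j
        = C u * φ (Matrix.charmatrix M i j) := fun i j => rfl
    have hS : ∀ i j, (u • M) i j = u * M i j := fun i j => rfl
    refine Matrix.ext fun i j => ?_
    by_cases hij : i = j
    · subst hij
      rw [hL, Matrix.charmatrix_apply_eq, Matrix.charmatrix_apply_eq, hS, map_sub, hφX, hφC,
        mul_sub, ← mul_assoc, huu, one_mul, C_mul]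
    · rw [hL, Matrix.charmatrix_apply_ne _ _ _ hij, Matrix.charmatrix_apply_ne _ _ _ hij, hS,
        map_neg, hφC, mul_neg, C_mul]
  have h1 : (u • M).charpoly = C u ^ n * φ M.charpoly := by
    unfold Matrix.charpoly
    rw [hcm, Matrix.det_smul, Fintype.card_fin, RingHom.map_det]
  rw [h1, hM, map_prod]
  have h2 : ∀ j ∈ s, φ ((X - C (lam j)) ^ m j) = C (u⁻¹) ^ m j * (X - C (u * lam j)) ^ m j := by
    intro j _
    rw [map_pow, ← mul_pow]
    congr 1
    rw [map_sub, hφX, hφC, mul_sub, ← C_mul, ← mul_assoc, inv_mul_cancel₀ hu, one_mul]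
  rw [Finset.prod_congr rfl h2, Finset.prod_mul_distrib, Finset.prod_pow_eq_pow_sum, hdeg,
    ← mul_assoc, ← mul_pow, huu, one_pow, one_mul]

end Cfsg.Agent.Lib.Helper34.Sf
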