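import Mathlib

/-!
# S5965, piece SYM35 (project of helper96, proof by helper34)
-/

set_option autoImplicit false

namespace Cfsg.Agent.Lib.Helper34.Sf

open Polynomial

-- PIECE SYM35
theorem sym35 (r : ℕ) (hr : r = 3 ∨ r = 5) (m : ℕ → ℕ)
    (hsum : ∑ j ∈ Finset.range r, m j = r) (hdet : r ∣ ∑ j ∈ Finset.range r, j * m j)
    (hns : ∀ j ∈ Finset.range r, m j < r) :
    ∃ c ∈ Finset.range r, ∀ j ∈ Finset.range r, m ((2 * c + r - j) % r) = m j := by
  rcases hr with rfl | rfl
  · have h0 := hns 0 (by simp)
    have h1 := hns 1 (by simp)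
    have h2 := hns 2 (by simp)
    simp only [Finset.sum_range_succ, Finset.sum_range_zero] at hsum hdet
    have key : m 0 = 1 ∧ m 1 = 1 ∧ m 2 = 1 := by omega
    refine ⟨0, by simp, ?_⟩
    intro j hj
    rw [Finset.mem_range] at hj
    interval_cases j <;> norm_num <;> omega
  · have h0 := hns 0 (by simp)
    have h1 := hns 1 (by simp)
    have h2 := hns 2 (by simp)
    have h3 := hns 3 (by simp)
    have h4 := hns 4 (by simp)
    simp only [Finset.sum_range_succ, Finset.sum_range_zero] at hsum hdet
    have key : (m 1 = m 4 ∧ m 2 = m 3) ∨ (m 0 = m 2 ∧ m 3 = m 4) ∨ (m 0 = m 4 ∧ m 1 = m 3) ∨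
        (m 0 = m 1 ∧ m 2 = m 4) ∨ (m 0 = m 3 ∧ m 1 = m 2) := by
      generalize m 0 = a at *
      generalize m 1 = b at *
      generalize m 2 = c at *
      generalize m 3 = d at *
      generalize m 4 = e at *
      clear hns
      interval_cases a <;> interval_cases b <;> interval_cases c <;> interval_cases d <;> omega
    rcases key with h | h | h | h | h
    · refine ⟨0, by simp, ?_⟩
      intro j hj
      rw [Finset.mem_range] at hj
      interval_cases j <;> norm_num <;> omega
    · refine ⟨1, by simp, ?_⟩
      intro j hj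
      rw [Finset.mem_range] at hj
      interval_cases j <;> norm_num <;> omega
    · refine ⟨2, by simp, ?_⟩
      intro j hj
      rw [Finset.mem_range] at hj
      interval_cases j <;> norm_num <;> omega
    · refine ⟨3, by simp, ?_⟩
      intro j hj
      rw [Finset.mem_range] at hj
      interval_cases j <;> norm_num <;> omega
    · refine ⟨4, by simp, ?_⟩
      intro j hj
      rw [Finset.mem_range] at hj
      interval_cases j <;> norm_num <;> omega

end Cfsg.Agent.Lib.Helper34.Sf
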