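import Mathlib
import Cfsg.Prelude.Def_GeometricClasses
import Cfsg.Agent.Lib.Helper71.SpK0
import Cfsg.Agent.Lib.Helper71.SpK1

/-!
# S5664 job J5 (helper34, for helper71): case (i), `hW ∩ W^⊥ = hW ∩ W`

* `case1_perp` : in case (i) every vector of `hW` perpendicular to `u` lies in `W`
* `case1_finrank` : `W ∩ hW` is a hyperplane of `W`
-/

set_option autoImplicit false

namespace Cfsg.Agent.Lib.Helper34.SpKJ5

open Matrix Cfsg.Agent.Lib.Helper71.SpK Cfsg.Agent.Lib.Helper97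

variable {ι : Type} [Fintype ι] [DecidableEq ι] {F : Type*} [Field F]
variable {f : (ι → F) → (ι → F) → F} {L : Type*} [Field L] [Algebra F L]

/-- the `F`-linear map `v ↦ B(v, u)` -/
def bu (S : KS f L) (u : ι → F) : (ι → F) →ₗ[F] L where
  toFun v := S.B v u
  map_add' x y := S.B_add x y u
  map_smul' c x := by
    rw [S.B_smul_left, Algebra.smul_def]
    rfl

theorem bu_apply (S : KS f L) (u v : ι → F) : bu S u v = S.B v u := rfl

theorem case1_perp (S : KS f L) [FiniteDimensional F L]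
    (M : Subgroup (GL ι F)) (hNM : S.NG ≤ M) {u : ι → F} (hu : u ≠ 0) {h : GL ι F}
    (hmax : MaxP M (S.line u) h) {y₀ : ι → F} (hy₀ : y₀ ∈ gim (S.line u) h)
    (hy₀u : S.B y₀ u ≠ 0) :
    ∀ y ∈ gim (S.line u) h, S.B y u = 0 → y ∈ S.line u := by
  intro y₁ hy₁ hy₁u
  by_contra hy₁W
  have star : ∀ l : L, ∃ a : L, S.φ l *ᵥ y₁ + S.φ a *ᵥ u ∈ gim (S.line u) h := by
    intro l
    obtain ⟨κ, hκ⟩ : ∃ κ : L, κ = (S.B y₀ u)⁻¹ * l := ⟨_, rfl⟩
    obtain ⟨z, hz⟩ : ∃ z : ι → F, z = S.φ κ *ᵥ y₁ := ⟨_, rfl⟩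
    have huz : S.B u z = 0 := by
      rw [hz, S.B_act_right, S.B_skew, hy₁u, neg_zero, mul_zero]
    obtain ⟨x, hxNG, hx⟩ := S.exists_eich huz
    have hfix : ∀ v ∈ S.line u ⊓ gim (S.line u) h, (x : Matrix ι ι F) *ᵥ v = v := by
      intro v hv
      obtain ⟨l', rfl⟩ := S.mem_line.mp hv.1
      rw [hx, S.B_act, S.B_self, mul_zero, S.φ_zero_mulVec, add_zero, S.B_act, huz, mul_zero,
        S.φ_zero_mulVec, add_zero]
    have hxy₁ : (x : Matrix ι ι F) *ᵥ y₁ = y₁ := by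
      rw [hx, hy₁u, S.φ_zero_mulVec, add_zero, hz, S.B_act_right, S.B_self, mul_zero,
        S.φ_zero_mulVec, add_zero]
    have h1 := hmax x (hNM hxNG) hfix ⟨y₁, hy₁, hy₁W, by rw [hxy₁]; exact hy₁⟩ y₀ hy₀
    rw [hx] at h1
    have h2 : S.φ (S.B y₀ u) *ᵥ z + S.φ (S.B y₀ z) *ᵥ u ∈ gim (S.line u) h := by
      have h3 := (gim (S.line u) h).sub_mem h1 hy₀
      have e : y₀ + S.φ (S.B y₀ u) *ᵥ z + S.φ (S.B y₀ z) *ᵥ u - y₀ =
          S.φ (S.B y₀ u) *ᵥ z + S.φ (S.B y₀ z) *ᵥ u := by abel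
      rwa [e] at h3
    refine ⟨S.B y₀ z, ?_⟩
    have e2 : S.φ (S.B y₀ u) *ᵥ z = S.φ l *ᵥ y₁ := by
      rw [hz, ← S.φ_mul_mulVec, hκ, ← mul_assoc, mul_inv_cancel₀ hy₀u, one_mul]
    rwa [e2] at h2
  -- the dimension count
  obtain ⟨B₀, hB₀⟩ : ∃ B₀ : Submodule F (ι → F),
      B₀ = gim (S.line u) h ⊓ LinearMap.ker (bu S u) := ⟨_, rfl⟩
  have hB₀lt : B₀ < gim (S.line u) h := by
    refine lt_of_le_of_ne (by rw [hB₀]; exact inf_le_left) ?_
    intro heq
    have h1 : y₀ ∈ B₀ := by rw [heq]; exact hy₀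
    rw [hB₀] at h1
    exact hy₀u (LinearMap.mem_ker.mp h1.2)
  have hrB₀ : Module.finrank F ↥B₀ < Module.finrank F L := by
    have h1 := Submodule.finrank_lt_finrank_of_lt hB₀lt
    rwa [finrank_gim, S.finrank_line hu] at h1
  obtain ⟨θ, hθ⟩ : ∃ θ : L × L →ₗ[F] (ι → F), θ = (S.actL y₁).coprod (S.actL u) := ⟨_, rfl⟩
  have hθapp : ∀ l a : L, θ (l, a) = S.φ l *ᵥ y₁ + S.φ a *ᵥ u := by
    intro l a
    rw [hθ, LinearMap.coprod_apply]
    rfl
  have hθinj : Function.Injective θ := by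
    rw [← LinearMap.ker_eq_bot, LinearMap.ker_eq_bot']
    rintro ⟨l, a⟩ hla
    rw [hθapp] at hla
    have hl : l = 0 := by
      by_contra hl
      apply hy₁W
      refine S.mem_line.mpr ⟨l⁻¹ * (-a), ?_⟩
      have h1 : S.φ l *ᵥ y₁ = S.φ (-a) *ᵥ u := by
        rw [S.φ_neg_mulVec]
        exact eq_neg_of_add_eq_zero_left hla
      rw [S.φ_mul_mulVec, ← h1, S.φ_inv_cancel hl]
    rw [hl, S.φ_zero_mulVec, zero_add] at hla
    rw [hl, S.φ_eq_zero hu hla]
    rfl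
  have hrange : LinearMap.range θ ≤ B₀ ⊔ S.line u := by
    rintro v ⟨⟨l, a'⟩, rfl⟩
    obtain ⟨a, ha⟩ := star l
    have h1 : S.φ l *ᵥ y₁ + S.φ a *ᵥ u ∈ B₀ := by
      rw [hB₀]
      refine ⟨ha, ?_⟩
      show S.φ l *ᵥ y₁ + S.φ a *ᵥ u ∈ LinearMap.ker (bu S u)
      rw [LinearMap.mem_ker, bu_apply, S.B_add, S.B_act, S.B_act, hy₁u, S.B_self, mul_zero,
        mul_zero, add_zero]
    have h2 : θ (l, a') = (S.φ l *ᵥ y₁ + S.φ a *ᵥ u) + S.φ (a' - a) *ᵥ u := by
      rw [hθapp, S.φ_sub_mulVec]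
      abel
    rw [h2]
    exact Submodule.add_mem_sup h1 (S.act_mem_line _ u)
  have h1 : Module.finrank F ↥(LinearMap.range θ) = 2 * Module.finrank F L := by
    rw [LinearMap.finrank_range_of_inj hθinj, Module.finrank_prod]
    ring
  have h2 := Submodule.finrank_mono hrange
  have h3 := Submodule.finrank_add_le_finrank_add_finrank B₀ (S.line u)
  rw [S.finrank_line hu] at h3
  omega

theorem case1_finrank (S : KS f L) [FiniteDimensional F L] {u : ι → F} (hu : u ≠ 0)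
    {h : GL ι F} {y₀ : ι → F} (hy₀ : y₀ ∈ gim (S.line u) h) (hy₀u : S.B y₀ u ≠ 0)
    (hline : ∀ y ∈ gim (S.line u) h, ∃ c : F, S.B y u = algebraMap F L c * S.B y₀ u)
    (hperp : ∀ y ∈ gim (S.line u) h, S.B y u = 0 → y ∈ S.line u) :
    Module.finrank F ↥(S.line u ⊓ gim (S.line u) h) + 1 = Module.finrank F L := by
  have hy₀0 : y₀ ≠ 0 := by
    rintro rfl
    exact hy₀u (S.B_zero_left u)
  have hsup : (S.line u ⊓ gim (S.line u) h) ⊔ Submodule.span F {y₀} = gim (S.line u) h := by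
    apply le_antisymm
    · apply sup_le inf_le_right
      rw [Submodule.span_le]
      intro v hv
      rw [Set.mem_singleton_iff] at hv
      rw [hv]
      exact hy₀
    · intro y hy
      obtain ⟨c, hc⟩ := hline y hy
      have h1 : y - c • y₀ ∈ gim (S.line u) h :=
        Submodule.sub_mem _ hy (Submodule.smul_mem _ c hy₀)
      have h2 : S.B (y - c • y₀) u = 0 := by
        rw [S.B_sub_left, S.B_smul_left, hc, sub_self]
      have h3 : y = (y - c • y₀) + c • y₀ := by abel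
      rw [h3]
      exact Submodule.add_mem_sup ⟨hperp _ h1 h2, h1⟩
        (Submodule.smul_mem _ c (Submodule.mem_span_singleton_self y₀))
  have hinf : (S.line u ⊓ gim (S.line u) h) ⊓ Submodule.span F {y₀} = ⊥ := by
    rw [eq_bot_iff]
    rintro v ⟨hv1, hv2⟩
    obtain ⟨c, rfl⟩ := Submodule.mem_span_singleton.mp hv2
    have h1 := S.B_line hv1.1
    rw [S.B_smul_left] at h1
    rcases mul_eq_zero.mp h1 with h2 | h2
    · have h3 : c = 0 := by
        apply (algebraMap F L).injective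
        rw [h2, map_zero]
      rw [h3, zero_smul]
      exact Submodule.zero_mem _
    · exact absurd h2 hy₀u
  have h1 := Submodule.finrank_sup_add_finrank_inf_eq (S.line u ⊓ gim (S.line u) h)
    (Submodule.span F {y₀})
  rw [hsup, hinf, finrank_bot, finrank_span_singleton hy₀0, finrank_gim, S.finrank_line hu,
    add_zero] at h1
  exact h1.symm

end Cfsg.Agent.Lib.Helper34.SpKJ5
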