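import Mathlib
import Cfsg.Agent.Lib.Helper91.SpU

/-!
# S5171 piece TL (helper34, for helper91)

The `SL₂` torus identity for the long root at `i₀` inside `Sp_{2m}(K)`.
-/

set_option autoImplicit false
set_option linter.unusedSimpArgs false

namespace Cfsg.Agent.Lib.Helper34.SpTL

open Matrix Cfsg.Agent.Lib.Helper91.SpU

theorem torus_long (m : ℕ) (K : Type*) [Field K] (i₀ : Fin m) (t : K) (ht : t ≠ 0)
    (A : GL (Fin m) K) (hA : A.1 = Matrix.diagonal (fun k => if k = i₀ then t else 1)) :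
    sphi m K A = yy m K i₀ t * zz m K i₀ (-t⁻¹) * yy m K i₀ t * yy m K i₀ (-1) * zz m K i₀ 1 *
      yy m K i₀ (-1) := by
  have hAi : (A⁻¹).1 = Matrix.diagonal (fun k => if k = i₀ then t⁻¹ else 1) := by
    apply Units.inv_eq_of_mul_eq_one_right
    rw [hA, Matrix.diagonal_mul_diagonal, ← Matrix.diagonal_one]
    congr 1
    funext k
    by_cases hk : k = i₀
    · simp [hk, ht]
    · simp [hk]
  apply Subtype.ext
  change fromBlocks A.1 0 0 (A⁻¹).1ᵀ =
    fromBlocks 1 (Matrix.single i₀ i₀ t) 0 1 * fromBlocks 1 0 (Matrix.single i₀ i₀ (-t⁻¹)) 1 *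
      fromBlocks 1 (Matrix.single i₀ i₀ t) 0 1 * fromBlocks 1 (Matrix.single i₀ i₀ (-1)) 0 1 *
      fromBlocks 1 0 (Matrix.single i₀ i₀ 1) 1 * fromBlocks 1 (Matrix.single i₀ i₀ (-1)) 0 1
  rw [hA, hAi, Matrix.diagonal_transpose]
  simp only [Matrix.fromBlocks_multiply, Matrix.mul_one, Matrix.one_mul, Matrix.mul_zero,
    Matrix.zero_mul, add_zero, zero_add, Matrix.mul_add, Matrix.add_mul,
    Matrix.single_mul_single_same]
  rw [Matrix.fromBlocks_inj]
  refine ⟨?_, ?_, ?_, ?_⟩ <;>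
  · ext i j
    rcases eq_or_ne i i₀ with rfl | hi <;> rcases eq_or_ne j i with rfl | hj
    · simp [Matrix.single_apply, Matrix.diagonal_apply, Matrix.one_apply, ht]
    · simp [Matrix.single_apply, Matrix.diagonal_apply, Matrix.one_apply, hj, hj.symm]
    · simp [Matrix.single_apply, Matrix.diagonal_apply, Matrix.one_apply, hi, hi.symm]
    · simp [Matrix.single_apply, Matrix.diagonal_apply, Matrix.one_apply, hi, hi.symm, hj,
        hj.symm]
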