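import Cfsg.Agent.Lib.Helper98.T73Defs
import Cfsg.Prelude.Def_GeometricClasses

/-!
# Project T73 (helper98, S5973), piece CPX1 (helper34)

`x ∈ Ω⁺_{2d}(F)` with `x² = -1` and `-1 = ι²` in `F` (`2 ≠ 0`): the eigenspaces `ker (x ∓ ι)`
are totally singular, every subspace of them is invariant, and one of them has dimension at
least `d`.
-/

set_option autoImplicit false

namespace Cfsg.Agent.Lib.Helper98.T73

open Cfsg.Agent.Lib.Helper47 Module Polynomial

universe u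

variable {F : Type u} [Field F] [Fintype F]

omit [Fintype F] in
/-- homogeneity of the plus form -/
theorem cpx1_smul (d : ℕ) (c : F) (v : Fin d ⊕ Fin d → F) :
    Cfsg.quadFormPlus d F (c • v) = c ^ 2 * Cfsg.quadFormPlus d F v := by
  unfold Cfsg.quadFormPlus
  rw [Finset.mul_sum]
  apply Finset.sum_congr rfl
  intro i _
  simp only [Pi.smul_apply, smul_eq_mul]
  ring

omit [Fintype F] in
/-- eigenvectors of an isometry for an eigenvalue `c` with `c ^ 2 = -1` are singular -/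
theorem cpx1_sing (h2 : (2 : F) ≠ 0) (d : ℕ) (A : Matrix (Fin d ⊕ Fin d) (Fin d ⊕ Fin d) F)
    (hiso : ∀ v, Cfsg.quadFormPlus d F (A.mulVec v) = Cfsg.quadFormPlus d F v) (c : F)
    (hc : c ^ 2 = -1) (v : Fin d ⊕ Fin d → F) (hv : A.mulVec v = c • v) :
    Cfsg.quadFormPlus d F v = 0 := by
  have h1 := hiso v
  rw [hv, cpx1_smul, hc] at h1
  have h3 : (2 : F) * Cfsg.quadFormPlus d F v = 0 := by linear_combination -h1
  exact (mul_eq_zero.mp h3).resolve_left h2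

omit [Fintype F] in
/-- a subspace of prescribed dimension inside an eigenspace -/
theorem cpx1_sub (h2 : (2 : F) ≠ 0) (d m : ℕ) (A : Matrix (Fin d ⊕ Fin d) (Fin d ⊕ Fin d) F)
    (hiso : ∀ v, Cfsg.quadFormPlus d F (A.mulVec v) = Cfsg.quadFormPlus d F v) (c : F)
    (hc : c ^ 2 = -1) (E : Submodule F (Fin d ⊕ Fin d → F))
    (hE : ∀ v ∈ E, A.mulVec v = c • v) (hm : m ≤ finrank F E) :
    ∃ W : Submodule F (Fin d ⊕ Fin d → F), finrank F W = m ∧
      (∀ w ∈ W, Cfsg.quadFormPlus d F w = 0) ∧ W.map (Matrix.toLin' A) ≤ W := by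
  obtain ⟨b, hb⟩ := exists_linearIndependent_of_le_finrank hm
  have hb' : LinearIndependent F (fun i => (b i : Fin d ⊕ Fin d → F)) :=
    hb.map' E.subtype (Submodule.ker_subtype E)
  have hWE : Submodule.span F (Set.range (fun i => (b i : Fin d ⊕ Fin d → F))) ≤ E := by
    rw [Submodule.span_le]
    rintro _ ⟨i, rfl⟩
    exact (b i).2
  refine ⟨Submodule.span F (Set.range (fun i => (b i : Fin d ⊕ Fin d → F))), ?_, ?_, ?_⟩
  · rw [finrank_span_eq_card hb', Fintype.card_fin]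
  · intro w hw
    exact cpx1_sing h2 d A hiso c hc w (hE w (hWE hw))
  · rintro _ ⟨w, hw, rfl⟩
    rw [Matrix.toLin'_apply, hE w (hWE hw)]
    exact Submodule.smul_mem _ c hw

/-- CPX1 -/
theorem cpx_fix_sq (h2 : (2 : F) ≠ 0) (hsq : IsSquare (-1 : F)) (d m : ℕ) (hm : m ≤ d)
    (x : GL (Fin d ⊕ Fin d) F) (hx : x ∈ Cfsg.Geo.omegaGL (Cfsg.quadFormPlus d F))
    (hx2 : (x : Matrix (Fin d ⊕ Fin d) (Fin d ⊕ Fin d) F)
        * (x : Matrix (Fin d ⊕ Fin d) (Fin d ⊕ Fin d) F)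
      = (-1 : F) • (1 : Matrix (Fin d ⊕ Fin d) (Fin d ⊕ Fin d) F)) :
    ∃ W : Submodule F (Fin d ⊕ Fin d → F), finrank F W = m ∧
      (∀ w ∈ W, Cfsg.quadFormPlus d F w = 0) ∧
      W.map (Matrix.toLin' (x : Matrix (Fin d ⊕ Fin d) (Fin d ⊕ Fin d) F)) ≤ W := by
  have hiso : ∀ v, Cfsg.quadFormPlus d F
      ((x : Matrix (Fin d ⊕ Fin d) (Fin d ⊕ Fin d) F).mulVec v) = Cfsg.quadFormPlus d F v := by
    obtain ⟨g, -, hgx⟩ := hx
    intro v
    rw [← hgx]
    exact g.2 v v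
  obtain ⟨c, hc'⟩ := hsq
  have hc : c ^ 2 = -1 := by rw [pow_two, ← hc']
  have hcn : (-c) ^ 2 = -1 := by rw [neg_sq, hc]
  have hc0 : c ≠ 0 := by
    rintro rfl
    rw [zero_pow (by norm_num)] at hc
    have h1 : (1 : F) = 0 := by linear_combination hc
    exact one_ne_zero h1
  have h2c : (2 : F) * c ≠ 0 := mul_ne_zero h2 hc0
  have hAA : ∀ v : Fin d ⊕ Fin d → F,
      (x : Matrix (Fin d ⊕ Fin d) (Fin d ⊕ Fin d) F).mulVec
        ((x : Matrix (Fin d ⊕ Fin d) (Fin d ⊕ Fin d) F).mulVec v) = -v := by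
    intro v
    rw [Matrix.mulVec_mulVec, hx2, Matrix.smul_mulVec, Matrix.one_mulVec, neg_one_smul]
  have hmemE : ∀ (a : F) (v : Fin d ⊕ Fin d → F),
      v ∈ LinearMap.ker (Matrix.toLin' (x : Matrix (Fin d ⊕ Fin d) (Fin d ⊕ Fin d) F) -
        a • LinearMap.id) ↔
      (x : Matrix (Fin d ⊕ Fin d) (Fin d ⊕ Fin d) F).mulVec v = a • v := by
    intro a v
    rw [LinearMap.mem_ker, LinearMap.sub_apply, LinearMap.smul_apply, LinearMap.id_apply,
      Matrix.toLin'_apply, sub_eq_zero]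
  have htop : LinearMap.ker (Matrix.toLin' (x : Matrix (Fin d ⊕ Fin d) (Fin d ⊕ Fin d) F) -
        c • LinearMap.id) ⊔
      LinearMap.ker (Matrix.toLin' (x : Matrix (Fin d ⊕ Fin d) (Fin d ⊕ Fin d) F) -
        (-c) • LinearMap.id) = ⊤ := by
    rw [eq_top_iff]
    intro v _
    have hv : v = (2 * c)⁻¹ • ((x : Matrix (Fin d ⊕ Fin d) (Fin d ⊕ Fin d) F).mulVec v + c • v) +
        (-(2 * c)⁻¹) • ((x : Matrix (Fin d ⊕ Fin d) (Fin d ⊕ Fin d) F).mulVec v - c • v) := by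
      have e : (2 * c)⁻¹ • ((x : Matrix (Fin d ⊕ Fin d) (Fin d ⊕ Fin d) F).mulVec v + c • v) +
          (-(2 * c)⁻¹) • ((x : Matrix (Fin d ⊕ Fin d) (Fin d ⊕ Fin d) F).mulVec v - c • v) =
          ((2 * c)⁻¹ * (2 * c)) • v := by module
      rw [e, inv_mul_cancel₀ h2c, one_smul]
    rw [hv]
    refine Submodule.add_mem _ (Submodule.smul_mem _ _ (Submodule.mem_sup_left ?_))
      (Submodule.smul_mem _ _ (Submodule.mem_sup_right ?_))
    · rw [hmemE, Matrix.mulVec_add, Matrix.mulVec_smul, hAA]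
      have e : c • (x : Matrix (Fin d ⊕ Fin d) (Fin d ⊕ Fin d) F).mulVec v + (c ^ 2) • v =
          c • ((x : Matrix (Fin d ⊕ Fin d) (Fin d ⊕ Fin d) F).mulVec v + c • v) := by module
      rw [← e, hc]
      module
    · rw [hmemE, Matrix.mulVec_sub, Matrix.mulVec_smul, hAA]
      have e : (-c) • (x : Matrix (Fin d ⊕ Fin d) (Fin d ⊕ Fin d) F).mulVec v + (c ^ 2) • v =
          (-c) • ((x : Matrix (Fin d ⊕ Fin d) (Fin d ⊕ Fin d) F).mulVec v - c • v) := by module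
      rw [← e, hc]
      module
  have hdim : d + d ≤ finrank F (LinearMap.ker
        (Matrix.toLin' (x : Matrix (Fin d ⊕ Fin d) (Fin d ⊕ Fin d) F) - c • LinearMap.id)) +
      finrank F (LinearMap.ker
        (Matrix.toLin' (x : Matrix (Fin d ⊕ Fin d) (Fin d ⊕ Fin d) F) - (-c) • LinearMap.id)) := by
    have h1 := Submodule.finrank_add_le_finrank_add_finrank
      (LinearMap.ker (Matrix.toLin' (x : Matrix (Fin d ⊕ Fin d) (Fin d ⊕ Fin d) F) -
        c • LinearMap.id))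
      (LinearMap.ker (Matrix.toLin' (x : Matrix (Fin d ⊕ Fin d) (Fin d ⊕ Fin d) F) -
        (-c) • LinearMap.id))
    rw [htop, finrank_top, Module.finrank_fintype_fun_eq_card, Fintype.card_sum,
      Fintype.card_fin] at h1
    exact h1
  by_cases hcase : m ≤ finrank F (LinearMap.ker
      (Matrix.toLin' (x : Matrix (Fin d ⊕ Fin d) (Fin d ⊕ Fin d) F) - c • LinearMap.id))
  · exact cpx1_sub h2 d m _ hiso c hc _ (fun v hv => (hmemE c v).mp hv) hcase
  · exact cpx1_sub h2 d m _ hiso (-c) hcn _ (fun v hv => (hmemE (-c) v).mp hv) (by omega)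

end Cfsg.Agent.Lib.Helper98.T73
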