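import Cfsg.Agent.Lib.Helper34.TGSIDE1
import Cfsg.Agent.Lib.Helper75.TGMOD

/-!
# TG project, piece SIDE (helper34): the assembly on the Tate group.
-/

set_option autoImplicit false

namespace Cfsg.Agent.Lib.Helper34.TG

open Cfsg Cfsg.Agent.Lib.Helper22.TG
open scoped ComplexConjugate

/-- PIECE SIDE -/
theorem side_core {G : Type*} [Group G] [Fintype G] (p : ℕ) [Fact p.Prime]
    (K N₀ : Subgroup G) [Fintype ↥K] [Fintype ↥N₀] (hKN : K ≤ N₀) (hpN : ¬ p ∣ Nat.card N₀)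
    (hnorm : ∀ h ∈ N₀, ∀ y ∈ K, h * y * h⁻¹ ∈ K)
    (hcyc : ∃ g ∈ N₀, ∀ h ∈ N₀, ∃ (i : ℕ), ∃ y ∈ K, h = g ^ i * y)
    (m : ℕ) (hm0 : 0 < m) (hpm : ¬ p ∣ m) (hexp : ∀ h ∈ N₀, h ^ m = 1)
    (ω : ℂ) (hω : IsPrimitiveRoot ω m) (θ : IrrCharacter K)
    {Q : Type*} [AddCommGroup Q] [Finite Q] [Nontrivial Q] (hQ : ∀ v : Q, (p : ℤ) • v = 0)
    (ρQ : ↥N₀ →* (Q →ₗ[ℤ] Q))
    (φQ : Subring.closure ({ω} : Set ℂ) →+* (Q →ₗ[ℤ] Q))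
    (hφρ : ∀ a h, φQ a ∘ₗ ρQ h = ρQ h ∘ₗ φQ a)
    (hΘ : ∀ y : K, Tht K (θ : K → ℂ) N₀ y ∈ Subring.closure ({ω} : Set ℂ))
    (hE : ∀ v : Q, (charDegree (θ : K → ℂ) : ℤ) •
      (∑ y : K, φQ ⟨Tht K (θ : K → ℂ) N₀ y⁻¹, hΘ y⁻¹⟩ (ρQ ⟨(y : G), hKN y.2⟩ v)) =
        (Nat.card K : ℤ) • v) :
    ∃ π : Q →ₗ[ℤ] Q, π ∘ₗ π = π ∧ (∀ h, π ∘ₗ ρQ h = ρQ h ∘ₗ π) ∧
      (∀ a, π ∘ₗ φQ a = φQ a ∘ₗ π) ∧
      Nat.card (LinearMap.range π) = p ^ (orderOf ((p : ZMod m)) *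
        (Nat.card (orb K (θ : K → ℂ) N₀) * charDegree (θ : K → ℂ))) :=
  side_core_of_mod p K N₀ hKN hpN hnorm hcyc m hm0 hexp ω hω θ hQ ρQ φQ hφρ hΘ hE
    (fun hval => Cfsg.Agent.Lib.Helper75.TG.mod_main p hpN hQ ρQ m hm0 hpm
      (fun h => Subtype.ext (by simpa using hexp h h.2)) ω hω φQ hφρ hval)

end Cfsg.Agent.Lib.Helper34.TG
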