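import Cfsg.Agent.Lib.Helper22.TGDefs
import Cfsg.Agent.Lib.Helper80.EV

/-!
# TG project, piece SIDE (helper34): the assembly on the Tate group, with the pieces
MOD, CLIFF, ORTH, CJ as explicit hypotheses (`side_core_of`).
-/

set_option autoImplicit false

namespace Cfsg.Agent.Lib.Helper34.TG

open Cfsg Cfsg.Agent.Lib.Helper22.TG
open scoped ComplexConjugate

/-- character values at elements of exponent `m` lie in `ℤ[ω]` -/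
theorem char_mem_closure {H : Type*} [Group H] (m : ℕ) (hm0 : 0 < m) (ω : ℂ)
    (hω : IsPrimitiveRoot ω m) (ξ : H → ℂ) (hξ : IsIrrCharacter H ξ) (h : H) (hh : h ^ m = 1) :
    ξ h ∈ Subring.closure ({ω} : Set ℂ) := by
  obtain ⟨n, ρ, _, rfl⟩ := hξ
  obtain ⟨c, hc⟩ := Cfsg.Agent.Lib.Helper80.character_pow_eq ρ h m hm0 hh ω hω
  have h1 : ρ.character h = ∑ j ∈ Finset.range m, (c j : ℂ) * (ω ^ j) ^ 1 := by
    have h2 := hc 1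
    rwa [pow_one] at h2
  rw [h1]
  have hω' : ω ∈ Subring.closure ({ω} : Set ℂ) := Subring.subset_closure rfl
  exact sum_mem fun j _ => mul_mem (natCast_mem _ _) (pow_mem (pow_mem hω' _) _)

theorem orb_finite {G : Type*} [Group G] (K : Subgroup G) (θ : K → ℂ) (N : Subgroup G)
    [Finite N] : (orb K θ N).Finite := by
  have h : orb K θ N = Set.range (fun n : N => cj K θ (n : G)) := by
    ext f
    constructor
    · rintro ⟨n, hn, rfl⟩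
      exact ⟨⟨n, hn⟩, rfl⟩
    · rintro ⟨n, rfl⟩
      exact ⟨n, n.2, rfl⟩
  rw [h]
  exact Set.finite_range _

theorem tht_orth {G : Type*} [Group G] (K N₀ : Subgroup G) [Fintype ↥K] [Finite ↥N₀]
    (hKN : K ≤ N₀) (θ : K → ℂ) (ξ : ↥N₀ → ℂ)
    (horb : ∀ f ∈ orb K θ N₀, ∀ x : ↥N₀,
      ∑ y : K, ξ (⟨(y : G), hKN y.2⟩ * x) * f y⁻¹ = 0) (x : ↥N₀) :
    ∑ y : K, ξ (⟨(y : G), hKN y.2⟩ * x) * Tht K θ N₀ y⁻¹ = 0 := by
  unfold Tht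
  simp_rw [finsum_mem_eq_finite_toFinset_sum _ (orb_finite K θ N₀), Finset.mul_sum]
  rw [Finset.sum_comm]
  exact Finset.sum_eq_zero fun f hf => horb f ((Set.Finite.mem_toFinset _).1 hf) x

theorem conv_zero {H : Type*} [Group H] [Fintype H] {K' : Type*} [Fintype K'] (ι : K' → H)
    {R : Type*} [CommRing R] {E : Type*} [Ring E] (φ : R →+* E) (ρ : H →* E)
    (hc : ∀ a h, φ a * ρ h = ρ h * φ a) (a : H → R) (b : K' → R)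
    (h0 : ∀ g : H, ∑ y : K', a (g * (ι y)⁻¹) * b y = 0) :
    (∑ h : H, φ (a h) * ρ h) * (∑ y : K', φ (b y) * ρ (ι y)) = 0 := by
  rw [Finset.sum_mul_sum, Finset.sum_comm]
  have h1 : ∀ y : K', ∑ h : H, φ (a h) * ρ h * (φ (b y) * ρ (ι y)) =
      ∑ g : H, φ (a (g * (ι y)⁻¹) * b y) * ρ g := by
    intro y
    rw [← Equiv.sum_comp (Equiv.mulRight (ι y)⁻¹)]
    refine Finset.sum_congr rfl fun g _ => ?_
    simp only [Equiv.coe_mulRight]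
    calc φ (a (g * (ι y)⁻¹)) * ρ (g * (ι y)⁻¹) * (φ (b y) * ρ (ι y))
        = φ (a (g * (ι y)⁻¹)) * (ρ (g * (ι y)⁻¹) * φ (b y)) * ρ (ι y) := by
          simp only [mul_assoc]
      _ = φ (a (g * (ι y)⁻¹)) * (φ (b y) * ρ (g * (ι y)⁻¹)) * ρ (ι y) := by rw [hc]
      _ = φ (a (g * (ι y)⁻¹) * b y) * (ρ (g * (ι y)⁻¹) * ρ (ι y)) := by
          rw [map_mul φ]; simp only [mul_assoc]
      _ = φ (a (g * (ι y)⁻¹) * b y) * ρ g := by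
          rw [← map_mul, inv_mul_cancel_right]
  rw [Finset.sum_congr rfl fun y _ => h1 y, Finset.sum_comm]
  refine Finset.sum_eq_zero fun g _ => ?_
  rw [← Finset.sum_mul, ← map_sum, h0 g, map_zero, zero_mul]

/-- PIECE SIDE with the pieces MOD, CLIFF, ORTH, CJ as hypotheses. -/
theorem side_core_of {G : Type*} [Group G] [Fintype G] (p : ℕ) [Fact p.Prime]
    (K N₀ : Subgroup G) [Fintype ↥K] [Fintype ↥N₀] (hKN : K ≤ N₀) (hpN : ¬ p ∣ Nat.card N₀)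
    (m : ℕ) (ω : ℂ) (θ : IrrCharacter K)
    {Q : Type*} [AddCommGroup Q] (hQ : ∀ v : Q, (p : ℤ) • v = 0)
    (ρQ : ↥N₀ →* (Q →ₗ[ℤ] Q))
    (φQ : Subring.closure ({ω} : Set ℂ) →+* (Q →ₗ[ℤ] Q))
    (hφρ : ∀ a h, φQ a ∘ₗ ρQ h = ρQ h ∘ₗ φQ a)
    (hΘ : ∀ y : K, Tht K (θ : K → ℂ) N₀ y ∈ Subring.closure ({ω} : Set ℂ))
    (hE : ∀ v : Q, (charDegree (θ : K → ℂ) : ℤ) •
      (∑ y : K, φQ ⟨Tht K (θ : K → ℂ) N₀ y⁻¹, hΘ y⁻¹⟩ (ρQ ⟨(y : G), hKN y.2⟩ v)) =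
        (Nat.card K : ℤ) • v)
    (hval : ∀ (ξ : IrrCharacter ↥N₀) (h : ↥N₀),
      (ξ : ↥N₀ → ℂ) h ∈ Subring.closure ({ω} : Set ℂ))
    (MOD : ∃ (ξ : IrrCharacter ↥N₀) (π : Q →ₗ[ℤ] Q), π ∘ₗ π = π ∧ π ≠ 0 ∧
      (∀ h, π ∘ₗ ρQ h = ρQ h ∘ₗ π) ∧ (∀ a, π ∘ₗ φQ a = φQ a ∘ₗ π) ∧
      Nat.card (LinearMap.range π) =
        p ^ (orderOf ((p : ZMod m)) * charDegree (ξ : ↥N₀ → ℂ)) ∧
      ∀ v ∈ LinearMap.range π,
        (charDegree (ξ : ↥N₀ → ℂ) : ℤ) •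
          (∑ h : ↥N₀, φQ ⟨(ξ : ↥N₀ → ℂ) h⁻¹, hval ξ h⁻¹⟩ (ρQ h v)) =
            (Nat.card ↥N₀ : ℤ) • v)
    (CLIFF : ∀ (θ' : IrrCharacter K) (ξ : IrrCharacter ↥N₀),
      ∑ᶠ y : K, (ξ : ↥N₀ → ℂ) ⟨(y : G), hKN y.2⟩ * conj ((θ' : K → ℂ) y) ≠ 0 →
      charDegree (ξ : ↥N₀ → ℂ) =
        Nat.card (orb K (θ' : K → ℂ) N₀) * charDegree (θ' : K → ℂ))
    (ORTH : ∀ (ξ : IrrCharacter ↥N₀) (f : K → ℂ), IsIrrCharacter K f →
      ∑ᶠ y : K, (ξ : ↥N₀ → ℂ) ⟨(y : G), hKN y.2⟩ * conj (f y) = 0 → ∀ x : ↥N₀,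
      ∑ᶠ y : K, (ξ : ↥N₀ → ℂ) (⟨(y : G), hKN y.2⟩ * x) * f y⁻¹ = 0)
    (CJI : ∀ n ∈ N₀, IsIrrCharacter K (cj K (θ : K → ℂ) n) ∧
      cj K (θ : K → ℂ) n 1 = (θ : K → ℂ) 1)
    (CJC : ∀ n ∈ N₀, ∀ n' ∈ N₀,
      cj K (cj K (θ : K → ℂ) n) n' = cj K (θ : K → ℂ) (n' * n)) :
    ∃ π : Q →ₗ[ℤ] Q, π ∘ₗ π = π ∧ (∀ h, π ∘ₗ ρQ h = ρQ h ∘ₗ π) ∧
      (∀ a, π ∘ₗ φQ a = φQ a ∘ₗ π) ∧
      Nat.card (LinearMap.range π) = p ^ (orderOf ((p : ZMod m)) *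
        (Nat.card (orb K (θ : K → ℂ) N₀) * charDegree (θ : K → ℂ))) := by
  obtain ⟨ξ, π, hπ, hπ0, hπρ, hπφ, hcard, hε⟩ := MOD
  refine ⟨π, hπ, hπρ, hπφ, ?_⟩
  rw [hcard]
  congr 2
  -- some conjugate of θ is a constituent of ξ|_K
  have hex : ∃ f ∈ orb K (θ : K → ℂ) N₀,
      ∑ᶠ y : K, (ξ : ↥N₀ → ℂ) ⟨(y : G), hKN y.2⟩ * conj (f y) ≠ 0 := by
    by_contra hcon
    push Not at hcon
    have horb : ∀ f ∈ orb K (θ : K → ℂ) N₀, ∀ x : ↥N₀,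
        ∑ y : K, (ξ : ↥N₀ → ℂ) (⟨(y : G), hKN y.2⟩ * x) * f y⁻¹ = 0 := by
      intro f hf x
      obtain ⟨n, hn, rfl⟩ := hf
      have h1 := ORTH ξ _ (CJI n hn).1 (hcon _ ⟨n, hn, rfl⟩) x
      rwa [finsum_eq_sum_of_fintype] at h1
    have hT := tht_orth K N₀ hKN (θ : K → ℂ) (ξ : ↥N₀ → ℂ) horb
    -- the operator identity
    have hz := conv_zero (H := ↥N₀) (K' := ↥K) (fun y => ⟨(y : G), hKN y.2⟩)
      (R := Subring.closure ({ω} : Set ℂ)) (E := Q →ₗ[ℤ] Q) φQ ρQ hφρ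
      (fun h => ⟨(ξ : ↥N₀ → ℂ) h⁻¹, hval ξ h⁻¹⟩)
      (fun y => ⟨Tht K (θ : K → ℂ) N₀ y⁻¹, hΘ y⁻¹⟩) (by
        intro g
        apply Subtype.ext
        rw [Subring.coe_zero]
        push_cast
        have h2 := hT g⁻¹
        rw [← h2]
        refine Finset.sum_congr rfl fun y _ => ?_
        simp only [mul_inv_rev, inv_inv])
    -- a non-zero vector in the range of π
    obtain ⟨u, hu⟩ : ∃ u, π u ≠ 0 := by
      by_contra hno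
      push Not at hno
      exact hπ0 (LinearMap.ext fun u => by simpa using hno u)
    set v := π u with hv
    have hvr : v ∈ LinearMap.range π := ⟨u, rfl⟩
    have e1 := hε v hvr
    have e2 := hE v
    have e3 := congrArg (fun f : Q →ₗ[ℤ] Q => f v) hz
    simp only [Module.End.mul_apply, LinearMap.sum_apply, LinearMap.zero_apply] at e3
    set w := ∑ y : K, φQ ⟨Tht K (θ : K → ℂ) N₀ y⁻¹, hΘ y⁻¹⟩ (ρQ ⟨(y : G), hKN y.2⟩ v) with hw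
    set εf : Q →ₗ[ℤ] Q := ∑ h : ↥N₀, φQ ⟨(ξ : ↥N₀ → ℂ) h⁻¹, hval ξ h⁻¹⟩ ∘ₗ ρQ h with hεf
    have e3' : εf w = 0 := by
      rw [hεf, hw]
      simp only [LinearMap.sum_apply, LinearMap.comp_apply]
      exact e3
    have e1' : (charDegree (ξ : ↥N₀ → ℂ) : ℤ) • εf v = (Nat.card ↥N₀ : ℤ) • v := by
      rw [hεf]
      simp only [LinearMap.sum_apply, LinearMap.comp_apply]
      exact e1
    have e4 : ((Nat.card K : ℤ) * (Nat.card ↥N₀ : ℤ)) • v = 0 := by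
      calc ((Nat.card K : ℤ) * (Nat.card ↥N₀ : ℤ)) • v
          = (Nat.card K : ℤ) • ((charDegree (ξ : ↥N₀ → ℂ) : ℤ) • εf v) := by
            rw [e1', mul_smul]
        _ = (charDegree (ξ : ↥N₀ → ℂ) : ℤ) • εf ((Nat.card K : ℤ) • v) := by
            rw [map_smul, smul_comm]
        _ = (charDegree (ξ : ↥N₀ → ℂ) : ℤ) • εf ((charDegree (θ : K → ℂ) : ℤ) • w) := by
            rw [e2]
        _ = 0 := by rw [map_smul, e3', smul_zero, smul_zero]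
    have hcop : IsCoprime (p : ℤ) ((Nat.card K : ℤ) * (Nat.card ↥N₀ : ℤ)) := by
      have hp : p.Prime := Fact.out
      have hK : ¬ p ∣ Nat.card K := fun h => hpN (h.trans (Subgroup.card_dvd_of_le hKN))
      have : Nat.Coprime p (Nat.card K * Nat.card ↥N₀) :=
        (Nat.Prime.coprime_iff_not_dvd hp).2 (fun h => (hp.dvd_mul.1 h).elim hK hpN)
      exact_mod_cast Nat.isCoprime_iff_coprime.2 this
    obtain ⟨a, b, hab⟩ := hcop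
    apply hu
    calc v = (1 : ℤ) • v := (one_smul _ _).symm
      _ = (a * (p : ℤ) + b * ((Nat.card K : ℤ) * (Nat.card ↥N₀ : ℤ))) • v := by rw [hab]
      _ = 0 := by rw [add_smul, mul_smul, mul_smul, hQ, e4, smul_zero, smul_zero, add_zero]
  obtain ⟨f, ⟨n₁, hn₁, rfl⟩, hne⟩ := hex
  have hC := CLIFF ⟨cj K (θ : K → ℂ) n₁, (CJI n₁ hn₁).1⟩ ξ hne
  rw [hC]
  have horbeq : orb K (cj K (θ : K → ℂ) n₁) N₀ = orb K (θ : K → ℂ) N₀ := by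
    ext f
    constructor
    · rintro ⟨n, hn, rfl⟩
      exact ⟨n * n₁, N₀.mul_mem hn hn₁, CJC n₁ hn₁ n hn⟩
    · rintro ⟨n, hn, rfl⟩
      refine ⟨n * n₁⁻¹, N₀.mul_mem hn (N₀.inv_mem hn₁), ?_⟩
      rw [CJC n₁ hn₁ _ (N₀.mul_mem hn (N₀.inv_mem hn₁)), inv_mul_cancel_right]
  have hdeg : charDegree (cj K (θ : K → ℂ) n₁) = charDegree (θ : K → ℂ) := by
    unfold charDegree
    rw [(CJI n₁ hn₁).2]
  simp only [horbeq, hdeg]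

end Cfsg.Agent.Lib.Helper34.TG
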