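import Mathlib

/-!
Project SPG / TIF (S5662, helper71), piece T2b (helper34): a matrix on the tensor power each of
whose `i`-slices is a multiple of `Gs i` is a multiple of the tensor product of the `Gs i`.
-/

set_option autoImplicit false

namespace Cfsg.Agent.Lib.Helper34.TIFT2b

open Matrix

variable {n : ℕ} {F : Type*} [Field F] [Fintype F]

/-- T2b: a matrix on the tensor power each of whose `i`-slices is a multiple of `Gs i` is a
multiple of the tensor product of the `Gs i`. -/
theorem T2b {m k : ℕ} (G : Matrix (Fin k → Fin m) (Fin k → Fin m) F) (hG : G ≠ 0)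
    (Gs : Fin k → Matrix (Fin m) (Fin m) F) (hdet : ∀ i, (Gs i).det ≠ 0)
    (hfac : ∀ i (a b : Fin k → Fin m), ∃ c : F, ∀ u v,
      G (Function.update a i u) (Function.update b i v) = c * Gs i u v) :
    ∃ c : F, c ≠ 0 ∧ ∀ a b, G a b = c * ∏ i, Gs i (a i) (b i) := by
  classical
  have hex : ∃ a₀ b₀, G a₀ b₀ ≠ 0 := by
    by_contra hcon
    push Not at hcon
    apply hG
    ext a b
    exact hcon a b
  obtain ⟨a₀, b₀, hab₀⟩ := hex
  have hne : ∀ i : Fin k, ∃ x y, Gs i x y ≠ 0 := by
    intro i
    by_contra hcon
    push Not at hcon
    haveI : Nonempty (Fin m) := ⟨a₀ i⟩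
    apply hdet i
    have h0 : Gs i = 0 := by
      ext x y
      exact hcon x y
    rw [h0]
    exact Matrix.det_zero
  choose u hu using hne
  choose v hv using hu
  have key : ∀ (a b : Fin k → Fin m) (S : Finset (Fin k)),
      G a b * ∏ i ∈ S, Gs i (u i) (v i) =
        G (fun j => if j ∈ S then u j else a j) (fun j => if j ∈ S then v j else b j) *
          ∏ i ∈ S, Gs i (a i) (b i) := by
    intro a b S
    induction S using Finset.induction_on with
    | empty => simp
    | insert i S hi ih =>
      obtain ⟨c, hc⟩ := hfac i (fun j => if j ∈ S then u j else a j)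
        (fun j => if j ∈ S then v j else b j)
      have h1 : G (fun j => if j ∈ S then u j else a j) (fun j => if j ∈ S then v j else b j) =
          c * Gs i (a i) (b i) := by
        have h3 := hc (a i) (b i)
        rw [← h3]
        congr 1
        · funext j
          by_cases hj : j = i
          · subst hj
            simp [hi]
          · simp [Function.update_apply, hj]
        · funext j
          by_cases hj : j = i
          · subst hj
            simp [hi]
          · simp [Function.update_apply, hj]
      have h2 : G (fun j => if j ∈ insert i S then u j else a j)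
          (fun j => if j ∈ insert i S then v j else b j) = c * Gs i (u i) (v i) := by
        have h3 := hc (u i) (v i)
        rw [← h3]
        congr 1
        · funext j
          by_cases hj : j = i
          · subst hj
            simp
          · simp [Function.update_apply, hj]
        · funext j
          by_cases hj : j = i
          · subst hj
            simp
          · simp [Function.update_apply, hj]
      rw [Finset.prod_insert hi, Finset.prod_insert hi, h2]
      have h4 : G a b * (Gs i (u i) (v i) * ∏ j ∈ S, Gs j (u j) (v j)) =
          Gs i (u i) (v i) * (G a b * ∏ j ∈ S, Gs j (u j) (v j)) := by ring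
      rw [h4, ih, h1]
      ring
  have hD : ∏ i, Gs i (u i) (v i) ≠ 0 := Finset.prod_ne_zero_iff.mpr (fun i _ => hv i)
  have hfin : ∀ a b, G a b * ∏ i, Gs i (u i) (v i) = G u v * ∏ i, Gs i (a i) (b i) := by
    intro a b
    have h5 := key a b Finset.univ
    simpa using h5
  refine ⟨G u v / ∏ i, Gs i (u i) (v i), ?_, ?_⟩
  · intro h0
    have h1 : G u v = 0 := by
      rcases div_eq_zero_iff.mp h0 with h | h
      · exact h
      · exact absurd h hD
    have h2 := hfin a₀ b₀
    rw [h1, zero_mul] at h2
    rcases mul_eq_zero.mp h2 with h | h
    · exact hab₀ h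
    · exact hD h
  · intro a b
    rw [div_mul_eq_mul_div, eq_div_iff hD]
    exact hfin a b

end Cfsg.Agent.Lib.Helper34.TIFT2b
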