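import Mathlib
import Cfsg.Prelude.Def_GeometricClasses
import Cfsg.Prelude.Def_ClassicalGeometry
import Cfsg.Prelude.Def_LieClassical
import Cfsg.Agent.Lib.Helper98.U84Defs
import Cfsg.Agent.Lib.Helper47.GUPrime
import Cfsg.Agent.Lib.Helper47.SUConj
import Cfsg.Agent.Lib.Helper47.InvSL
import Cfsg.Agent.Lib.Helper7.GUOrder
import Cfsg.Agent.Lib.Helper93.SUPair

/-!
S5984 (helper98's U84 project), piece TDEF1: a cyclotomic factor of degree one and its inverse
partner.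
-/

set_option autoImplicit false

namespace Cfsg.Agent.Lib.Helper98.U84

open Matrix Polynomial

/-! ### U84-TDEF1 -/
theorem selfdual_pair_of_deg_one {F : Type*} [Field F] [Fintype F] {p q : ℕ} [Fact p.Prime]
    [CharP F p] (hF : Fintype.card F = q ^ 2) {r : ℕ} (hr : r.Prime) (hr2 : r ≠ 2) (hrp : r ≠ p)
    (σ : F →+* F) (hσq : ∀ x, σ x = x ^ q) (hi : orderOf (q : ZMod r) % 4 = 2)
    (f : F[X]) (hf : Cfsg.Agent.Lib.Helper47.IsCycFactor r f) (hb : f.natDegree = 1) :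
    ∃ (t : Multiset F[X]) (R : F[X]), (∀ g ∈ t, Cfsg.Agent.Lib.Helper47.IsCycFactor r g) ∧
      t.map (Cfsg.Agent.Lib.Helper47.dualP σ) = t ∧ t.prod.natDegree = 2 ∧ t.prod = f * R ∧
      Cfsg.Agent.Lib.Helper47.dualP σ f = f ∧ (∀ c : ℕ, ¬ f ∣ (X - 1) ^ c * R) ∧
      (∀ (n : ℕ) (M : Matrix (Fin n) (Fin n) F), 2 ≤ n →
        M.charpoly = (X - 1) ^ (n - 2) * t.prod → M.det = 1) := by
  classical
  have hp : p.Prime := Fact.out
  have hf0 : f.coeff 0 ≠ 0 := hf.coeff_zero_ne hr.pos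
  obtain ⟨μ, hμ⟩ : ∃ μ : F, f = X - C μ := by
    refine ⟨-(f.coeff 0), ?_⟩
    have h := hf.1.eq_X_add_C hb
    rw [map_neg, sub_neg_eq_add]
    exact h
  subst hμ
  have hμ0 : μ ≠ 0 := by
    intro h0
    apply hf0
    simp [h0]
  have hrF : NeZero ((r : ℕ) : F) := by
    constructor
    intro h0
    rw [CharP.cast_eq_zero_iff F p r] at h0
    exact hrp ((Nat.prime_dvd_prime_iff_eq hp hr).mp h0).symm
  have hroot : IsRoot (cyclotomic r F) μ := dvd_iff_isRoot.mp hf.2.2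
  have hprim : IsPrimitiveRoot μ r := isRoot_cyclotomic_iff.mp hroot
  have hprim' : IsPrimitiveRoot μ⁻¹ r := hprim.inv
  have hf' : Cfsg.Agent.Lib.Helper47.IsCycFactor r (X - C μ⁻¹ : F[X]) :=
    ⟨monic_X_sub_C _, irreducible_X_sub_C _,
      dvd_iff_isRoot.mpr (isRoot_cyclotomic_iff.mpr hprim')⟩
  have hne : μ ≠ μ⁻¹ := by
    intro h1
    have h3 : μ ^ 2 = 1 := by
      rw [pow_two]
      nth_rewrite 2 [h1]
      exact mul_inv_cancel₀ hμ0
    have h4 : r ∣ 2 := hprim.dvd_of_pow_eq_one 2 h3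
    have h5 : r ≤ 2 := Nat.le_of_dvd (by norm_num) h4
    have h6 := hr.two_le
    omega
  have hself : ∀ g : F[X], Cfsg.Agent.Lib.Helper47.IsCycFactor r g →
      Cfsg.Agent.Lib.Helper47.dualP σ g = g :=
    fun g hg => (Cfsg.Agent.Lib.Helper47.dualP_eq_self_iff hF hσq hr hr2 hrp hg).mpr hi
  refine ⟨(X - C μ) ::ₘ {X - C μ⁻¹}, X - C μ⁻¹, ?_, ?_, ?_, ?_, hself _ hf, ?_, ?_⟩
  · intro g hg
    rw [Multiset.mem_cons, Multiset.mem_singleton] at hg
    rcases hg with rfl | rfl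
    · exact hf
    · exact hf'
  · rw [Multiset.map_cons, Multiset.map_singleton, hself _ hf, hself _ hf']
  · rw [Multiset.prod_cons, Multiset.prod_singleton,
      natDegree_mul (X_sub_C_ne_zero _) (X_sub_C_ne_zero _), natDegree_X_sub_C,
      natDegree_X_sub_C]
  · rw [Multiset.prod_cons, Multiset.prod_singleton]
  · intro c hdvd
    have hprime : Prime (X - C μ : F[X]) := prime_X_sub_C μ
    rcases hprime.dvd_mul.mp hdvd with h | h
    · have h1 := hprime.dvd_of_dvd_pow h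
      have h2 : IsRoot (X - 1 : F[X]) μ := dvd_iff_isRoot.mp h1
      have h3 : μ = 1 := by simpa [sub_eq_zero] using h2
      exact hprim.ne_one hr.one_lt h3
    · have h2 : IsRoot (X - C μ⁻¹ : F[X]) μ := dvd_iff_isRoot.mp h
      have h3 : μ = μ⁻¹ := by simpa [sub_eq_zero] using h2
      exact hne h3
  · intro n M hn hM
    rw [Matrix.det_eq_sign_charpoly_coeff, hM, Fintype.card_fin, coeff_zero_eq_eval_zero]
    obtain ⟨k, rfl⟩ : ∃ k, n = k + 2 := ⟨n - 2, by omega⟩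
    simp only [Nat.add_sub_cancel, Multiset.prod_cons, Multiset.prod_singleton, eval_mul,
      eval_pow, eval_sub, eval_X, eval_one, eval_C, zero_sub]
    rw [neg_mul_neg, mul_inv_cancel₀ hμ0, mul_one, ← pow_add]
    exact Even.neg_one_pow ⟨k + 1, by ring⟩

end Cfsg.Agent.Lib.Helper98.U84
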